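/-
Project LOW5: vocabulary and statements of the steps for groups with transvections (part C), without transvections in
odd characteristic (part A) and in characteristic two (part B), and for the maximal subgroups.
-/
import Cfsg.Agent.Low5.Emb
import Cfsg.Agent.Low.T3B1
import Cfsg.Agent.Cls.GenPair

set_option autoImplicit false
set_option linter.unusedSectionVars false

namespace CL.Low5

open Matrix Cfsg Cfsg.Geo CL.Asch CL.SLn CL.Low Module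
open scoped commutatorElement

universe u

export CL.Low.T3B (Rt)

section Transvections

variable {ι : Type} [Fintype ι] [DecidableEq ι] {F : Type u} [Field F] {k : ℕ} {P : Subgroup (GL ι F)}
  {v : ι → F} {φ : Dual F (ι → F)} {e : Fin k → ι → F} {x : Fin k → Dual F (ι → F)}

/-- The group generated by the transvections of `P` on the span of `e`, as a subgroup of `GL_k`. -/
def TK (P : Subgroup (GL ι F)) (e : Fin k → ι → F) (x : Fin k → Dual F (ι → F)) : Subgroup (GL (Fin k) F) :=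
  Subgroup.closure {A | ∃ a η, Tv P (up e a) (η ∘ₗ co x) ∧ ∀ z, A • z = z + η z • a}

theorem emb_mem_of_TK (hb : Bi e x) {A : GL (Fin k) F} (h : A ∈ TK P e x) : emb hb A ∈ P :=
  (Subgroup.closure_le (P.comap (emb hb))).2 (fun A hA => by
    obtain ⟨_, _, ⟨_, g, hg, eg⟩, eA⟩ := hA
    rwa [SetLike.mem_coe, Subgroup.mem_comap,
      show emb hb A = g from gext fun y => ((emb_rank_one hb).1 eA y).trans (eg y).symm]) h

theorem tv_TK (hb : Bi e x) {a : Fin k → F} {η : Dual F (Fin k → F)} :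
    Tv (TK P e x) a η ↔ Tv P (up e a) (η ∘ₗ co x) :=
  ⟨fun ⟨h0, _, hA, eA⟩ => ⟨by simp [hb.co_up, h0], _, emb_mem_of_TK hb hA, (emb_rank_one hb).1 eA⟩, fun h =>
    have h0 : η a = 0 := by simpa [hb.co_up] using h.1
    ⟨h0, tv a η h0, Subgroup.subset_closure ⟨a, η, h, tv_smul a η h0⟩, tv_smul a η h0⟩⟩

theorem tv_TK_of_in (hb : Bi e x) (h : Tv P v φ) (hi : In e x v φ) : Tv (TK P e x) (co x v) (φ ∘ₗ up e) := by
  rwa [tv_TK hb, hi.up_co, hi.comp_co]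

theorem rt_TK_of_in (hb : Bi e x) (h : Rt P v φ) (hi : In e x v φ) : Rt (TK P e x) (co x v) (φ ∘ₗ up e) :=
  ⟨tv_TK_of_in hb h.tv hi, fun h0 => h.ne (by rw [← hi.up_co, h0, map_zero]),
    fun h0 => h.ne' (by rw [← hi.comp_co, h0, LinearMap.zero_comp])⟩

theorem tvGen_TK (hb : Bi e x) : TvGen (TK P e x) := (Subgroup.closure_le _).2 fun A hA => by
  have hm : A ∈ TK P e x := Subgroup.subset_closure hA
  obtain ⟨a, η, h, eA⟩ := hA
  by_cases h0 : a = 0 ∨ η = 0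
  · rw [show A = 1 from gext fun z => by rcases h0 with rfl | rfl <;> simp [eA]]
    exact Subgroup.one_mem _
  · exact Subgroup.subset_closure ⟨hm, a, η, (not_or.1 h0).1, (not_or.1 h0).2, ((tv_TK hb).2 h).1, eA⟩

/-- All root groups have order two. -/
def Sm (P : Subgroup (GL ι F)) : Prop := ∀ v φ (t : F), Rt P v φ → Tv P (t • v) φ → t = 0 ∨ t = 1

/-- On the span of `e` the transvections of `P` are those of `SL₃(K)`. -/
structure LCfg0 (P : Subgroup (GL ι F)) (K : Subfield F) (e : Fin 3 → ι → F) (x : Fin 3 → Dual F (ι → F)) : Prop where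
  bi : Bi e x
  tv : ∀ a η : Fin 3 → F, (∀ i, a i ∈ K) → (∀ i, η i ∈ K) → ∑ i, η i * a i = 0 → Tv P (∑ i, a i • e i) (∑ i, η i • x i)
  ex : ∀ v φ, Tv P v φ → In e x v φ → ∀ i j, φ (e i) * x j v ∈ K

/-- Moreover all transvections of `P` are rational relative to the frame. -/
structure LCfg (P : Subgroup (GL ι F)) (K : Subfield F) (e : Fin 3 → ι → F) (x : Fin 3 → Dual F (ι → F)) : Prop
    extends LCfg0 P K e x where
  rat : ∀ v φ, Tv P v φ → ∀ i j, φ (e i) * x j v ∈ K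

/-- The linear outcome. -/
def LData (P : Subgroup (GL ι F)) : Prop :=
  ∃ K : Subfield F, (∀ l ∈ P, tr l ∈ K) ∧ (K = ⊤ → specialLinear ι F ≤ P)

/-- All root groups are the subfield `K`, and the invariants of pairs lie in `K`. -/
structure USys (P : Subgroup (GL ι F)) (K : Subfield F) : Prop where
  grp : ∀ v φ, Rt P v φ → ∀ t : F, Tv P (t • v) φ ↔ t ∈ K
  inv : ∀ v φ w ψ, Rt P v φ → Rt P w ψ → φ w * ψ v ∈ K
  big : ∃ t ∈ K, t ≠ 0 ∧ t ≠ 1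

/-- The unitary outcome. -/
def UData (P : Subgroup (GL ι F)) : Prop :=
  ∃ σ : F →+* F, (∀ l ∈ P, σ (σ (tr l)) = tr l ∧ tr l⁻¹ = σ (tr l)) ∧
    ((∀ a, σ (σ a) = a) → σ ≠ RingHom.id F → ∀ f : (ι → F) → (ι → F) → F, IsSesq σ 1 f → (∀ l ∈ P, Isom f l) →
      specialIsom f ≤ P)

/-- The group `± P`. -/
def PM (P : Subgroup (GL ι F)) : Subgroup (GL ι F) where
  carrier := {g | g ∈ P ∨ -g ∈ P}
  one_mem' := Or.inl P.one_mem
  mul_mem' := by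
    rintro a b (ha | ha) (hb | hb)
    · exact Or.inl (P.mul_mem ha hb)
    · exact Or.inr (by simpa using P.mul_mem ha hb)
    · exact Or.inr (by simpa using P.mul_mem ha hb)
    · exact Or.inl (by simpa using P.mul_mem ha hb)
  inv_mem' := by
    rintro a (ha | ha)
    · exact Or.inl (P.inv_mem ha)
    · exact Or.inr (by simpa using P.inv_mem ha)

theorem mem_PM {g : GL ι F} : g ∈ PM P ↔ g ∈ P ∨ -g ∈ P := Iff.rfl

/-- No scalars but the identity. -/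
def ZT (P : Subgroup (GL ι F)) : Prop := P ⊓ scalars ι F = ⊥

/-- Every involution is `-1` on a plane and `1` on a complement. -/
def Inv2 (P : Subgroup (GL ι F)) : Prop :=
  ∀ t ∈ P, t * t = 1 → t ≠ 1 → ∃ (e : Fin 2 → ι → F) (x : Fin 2 → Dual F (ι → F)), Bi e x ∧ Sc e x (-1) t

/-- For every involution `t - 1` has rank at most two. -/
def Rk2 (P : Subgroup (GL ι F)) : Prop := ∀ t ∈ P, t * t = 1 → ((t : Matrix ι ι F) - 1).rank ≤ 2

/-- `P` modulo scalars, when there are none. -/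
noncomputable def ZT.equiv (h : ZT P) : P ≃* PQ P :=
  MulEquiv.ofBijective (QuotientGroup.mk' _) ⟨(injective_iff_map_eq_one _).2 fun z hz =>
    Subtype.ext (Subgroup.mem_bot.1 (h ▸ ⟨z.2, mk_eq_one_iff.1 hz⟩)), QuotientGroup.mk'_surjective _⟩

theorem tr_conj' (h l : GL ι F) : tr (h * l * h⁻¹) = tr l := by
  simp only [tr, Units.val_mul]
  exact Matrix.trace_units_conj h _

theorem tr_of_pow (p : ℕ) [Fact p.Prime] [CharP F p] {l : GL ι F} {n : ℕ} (h : l ^ p ^ n = 1) :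
    tr l = Fintype.card ι := by
  rcases isEmpty_or_nonempty ι with hι | hι
  · simp [tr, Matrix.trace]
  have h1 : ((l : Matrix ι ι F) - 1) ^ p ^ n = 0 := by
    rw [sub_pow_char_pow_of_commute _ _ (Commute.one_right _), one_pow, ← Units.val_pow_eq_pow_val, h, Units.val_one,
      sub_self]
  have h2 := (Matrix.isNilpotent_trace_of_isNilpotent ⟨_, h1⟩).eq_zero
  rwa [trace_sub, trace_one, sub_eq_zero] at h2

/-- If every element is unipotent or real, the traces are real. -/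
theorem real_of (p : ℕ) [Fact p.Prime] [CharP F p] (hZ : ZT P)
    (h : ∀ g : PQ P, (∃ n, g ^ p ^ n = 1) ∨ IsConj g g⁻¹) : Real P := fun l hl => by
  rcases h (hZ.equiv ⟨l, hl⟩) with ⟨n, hn⟩ | hc
  · rw [← map_pow, MulEquiv.map_eq_one_iff] at hn
    have h1 : l ^ p ^ n = 1 := congrArg Subtype.val hn
    rw [tr_of_pow p h1, tr_of_pow p (n := n) (by rw [inv_pow, h1, inv_one])]
  · obtain ⟨c, hc⟩ := isConj_iff.1 hc
    obtain ⟨c, rfl⟩ := hZ.equiv.surjective c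
    rw [← map_inv, ← map_inv, ← map_mul, ← map_mul] at hc
    rw [← tr_conj' c l]
    exact congrArg tr (congrArg Subtype.val (hZ.equiv.injective hc)).symm

end Transvections

section Five

variable {F : Type u} [Field F] {P : Subgroup (G F)}

/-- Real traces give a symmetric form. -/
theorem realSym [Finite F] (h : QS P) (htr : Real P) : (2 : F) ≠ 0 ∧ FixesSym P := by
  obtain ⟨ε, f, hf, hε, hfix⟩ := exists_isSesq_fixed (RingHom.id F) (fun _ => rfl) P h.span htr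
  rw [fixesForm_iff] at hfix
  have key : ¬ ∀ v, f v v = 0 := fun halt => absurd (hf.even_card halt) (by decide)
  have h2 : (2 : F) ≠ 0 := fun h2 => by
    have e : ε = 1 := by
      rcases hε with e | e
      · exact e
      · rw [e.1]; linear_combination -h2
    subst e
    exact key (hf.alt_of_irr h2 h.irr (fun l hl => (hfix l hl).mem_similarityGroup) (by simp))
  rcases hε with rfl | ⟨rfl, -⟩
  · exact ⟨h2, f, hf, hfix⟩
  · refine (key fun v => ?_).elim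
    have := hf.symm v v
    rw [RingHom.id_apply] at this
    exact (mul_eq_zero.1 (show 2 * f v v = 0 by linear_combination this)).resolve_left h2

theorem QS.coprime (h : QS P) [Finite F] {r : ℕ} (hr : (5 : ℕ).Coprime r) :
    (Nat.card ((scalars (Fin 5) F).subgroupOf P)).Coprime r :=
  coprime_card_scalars h.le_SL (by rwa [Fintype.card_fin])

/-- The shape of the elements of a Sylow 2-subgroup in characteristic two. -/
def utm (a d g h b e k f : F) : Matrix (Fin 5) (Fin 5) F :=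
  !![1, a, d, g, h; 0, 1, b, e, k; 0, 0, 1, 0, f; 0, 0, 0, 1, a; 0, 0, 0, 0, 1]

/-- A Sylow 2-subgroup in normal form. -/
structure UTS (P : Subgroup (G F)) (S : Sylow 2 P) : Prop where
  two : (2 : F) = 0
  noTv : ¬ HasTv P
  form : ∀ s ∈ (S : Subgroup P), ∃ a d g h b e k f : F, (s : G F).val = utm a d g h b e k f ∧ (a = 0 → f = 0)
  zz : ∃ z ∈ (S : Subgroup P), (z : G F).val = utm 0 0 1 0 0 0 1 0

/-- The subgroups `E` (`a = 0`) and `B` (`b = e = 0`). -/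
def IsEB (P : Subgroup (G F)) (S E B : Subgroup P) : Prop :=
  (∀ s, s ∈ E ↔ s ∈ S ∧ (s : G F).val 0 1 = 0) ∧ ∀ s, s ∈ B ↔ s ∈ S ∧ (s : G F).val 1 2 = 0 ∧ (s : G F).val 1 3 = 0

/-- The quasisimple irreducible subgroups of `GL₅(F)`. -/
def D5Out (P : Subgroup (G F)) : Prop :=
  ((2 : F) ≠ 0 ∧ FixesSym P) ∨ LData P ∨ UData P ∨
  ((11 : F) ≠ 0 ∧ Nonempty (PQ P ≃* ProjectiveSpecialLinearGroup (Fin 2) (ZMod 11))) ∨
  ((3 : F) = 0 ∧ Spor.IsoM11 (PQ P)) ∨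
  ((2 : F) ≠ 0 ∧ (3 : F) ≠ 0 ∧ (∃ ω : F, ω ^ 2 + ω + 1 = 0 ∧ OmData P ω) ∧
    ∃ (K : Type) (_ : Field K) (_ : Fintype K), Fintype.card K = 4 ∧ Nonempty (PQ P ≃* Cfsg.PSU 4 K 2))

end Five

section Groups

variable {H : Type u} [Group H]

/-- A four-group with a commutator of its centraliser. -/
def V4D (H : Type u) [Group H] : Prop :=
  ∃ a b s s' : H, a * a = 1 ∧ b * b = 1 ∧ a ≠ 1 ∧ b ≠ 1 ∧ a ≠ b ∧ Commute a b ∧ Commute s a ∧ Commute s b ∧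
    Commute s' a ∧ Commute s' b ∧ a = ⁅s, s'⁆

/-- `(2, 7, 7)`-generation. -/
def G277 (H : Type u) [Group H] : Prop :=
  ∃ x z : H, x * x = 1 ∧ z ^ 7 = 1 ∧ (x * z) ^ 7 = 1 ∧ IsConj z (z ^ 2) ∧ IsConj (x * z) ((x * z) ^ 2) ∧
    Subgroup.closure {x, z} = ⊤

/-- The Heisenberg data of `L₃(q)` and `U₃(q)`, `q` a power of the odd prime `r`. -/
def HD (H : Type u) [Group H] (r : ℕ) : Prop :=
  ∃ (S : Subgroup H) (x y z z' t n h : H), IsPGroup r S ∧ x ∈ S ∧ y ∈ S ∧ x ^ r = 1 ∧ y ^ r = 1 ∧ z = ⁅x, y⁆ ∧ z ≠ 1 ∧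
    Commute z x ∧ Commute z y ∧ t * t = 1 ∧ t ≠ 1 ∧ t * x * t⁻¹ = x⁻¹ ∧ t * y * t⁻¹ = y⁻¹ ∧
    (∀ s ∈ S, t * s * t⁻¹ ∈ S) ∧ n = z * z' * z ∧ n * z * n⁻¹ = z' ∧ n * n = t ∧
    Subgroup.closure (insert n (S : Set H)) = ⊤ ∧ h * z * h⁻¹ = z⁻¹

/-- The rank one data of `U₃(2ⁿ)`. -/
def U3D (H : Type u) [Group H] : Prop :=
  ∃ (T : Sylow 2 H) (w x z s : H), w * w = 1 ∧
    (∀ g, g ∈ Subgroup.normalizer ((T : Subgroup H) : Set H) ∨
      ∃ t ∈ (T : Subgroup H), ∃ n ∈ Subgroup.normalizer ((T : Subgroup H) : Set H), g = t * w * n) ∧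
    x ∈ Subgroup.normalizer ((T : Subgroup H) : Set H) ∧ Commute x w ∧ z ∈ (T : Subgroup H) ∧ z ≠ 1 ∧ z * z = 1 ∧
    Commute x z ∧ s ∈ (T : Subgroup H) ∧ ⁅x, s⁆ * ⁅x, s⁆ ≠ 1 ∧
    ∀ t ∈ (T : Subgroup H), t * t = 1 → ∀ t' ∈ (T : Subgroup H), Commute t t'

/-- The fusion data of a Sylow 2-subgroup in normal form. -/
structure UF (S E B : Subgroup H) : Prop where
  leE : E ≤ S
  leB : B ≤ S
  sqE : ∀ a ∈ E, a * a = 1
  sqB : ∀ a ∈ B, a * a = 1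
  cen : ∀ δ ∈ E ⊓ B, ∀ s ∈ S, Commute δ s
  com : ∀ s ∈ S, ∀ s' ∈ S, ⁅s, s'⁆ ∈ E ⊓ B
  inv : ∀ s ∈ S, s * s = 1 → s ∈ E ∨ s ∈ B
  ncE : ∀ ε ∈ E, ε ∉ B → ∀ s ∈ S, s ∉ E → ¬ Commute ε s
  ncB : ∀ β ∈ B, β ∉ E → ∀ s ∈ S, s ∉ B → ¬ Commute β s
  ne : ∃ δ ∈ E ⊓ B, δ ≠ 1
  img : ∀ g : H, ∀ δ ∈ E, δ ≠ 1 → g * δ * g⁻¹ ∈ E → ∀ s ∈ S, g * s * g⁻¹ ∈ S → (s ∈ E ↔ g * s * g⁻¹ ∈ E)

/-- The key computation: `|D| = 2` or `|E : D| = 2`. -/
def UKey (S E B : Subgroup H) : Prop :=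
  ∀ y : H, (∀ δ ∈ E ⊓ B, y * δ * y⁻¹ ∈ B) → (∀ s ∈ S, ∃ δ ∈ E ⊓ B, s⁻¹ * (y * δ * y⁻¹) ∈ E) →
    (∀ ε ∈ E, ε ∉ B → ∀ δ ∈ E ⊓ B, ∃ β ∈ B, δ = ⁅ε, β⁆) →
    (∀ δ ∈ E ⊓ B, ∀ δ' ∈ E ⊓ B, δ ≠ 1 → δ' ≠ 1 → δ = δ') ∨ ∀ ε ∈ E, ∀ ε' ∈ E, ε ∉ B → ε' ∉ B → ε * ε' ∈ B

/-- A strongly closed abelian subgroup, or a dihedral Sylow 2-subgroup of order eight. -/
def SCD (H : Type u) [Group H] : Prop :=
  ∃ T : Sylow 2 H, (∃ A : Subgroup H, A ≠ ⊥ ∧ IsMulCommutative A ∧ IsStronglyClosed A (T : Subgroup H)) ∨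
    Nonempty ((T : Subgroup H) ≃* DihedralGroup 4)

end Groups

/-! ### General steps -/

def SubZ5 : Prop :=
  ∀ (F : Type u) [Field F] [Fintype F] (P : Subgroup (G F)), QS P →
    (∀ S : Sylow 5 (PQ P), IsCyclic (S : Subgroup (PQ P))) ∨ ¬ 25 ∣ Nat.card (PQ P) → ZT P

def SubSym : Prop :=
  ∀ (F : Type u) [Field F] [Fintype F] (Γ : Subgroup (G F)), Ctx Γ →
    (∀ u φ v ψ w χ, Rf Γ u φ → Rf Γ v ψ → Rf Γ w χ → ¬ Asym u φ v ψ w χ) → Real Γ

def SubCtx : Prop :=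
  ∀ (F : Type u) [Field F] [Fintype F] (P : Subgroup (G F)), QS P →
    ((2 : F) ≠ 0 → ¬ HasTv P → (∃ v φ, Rf (PM P) v φ) → Od (PM P)) ∧
    ((2 : F) = 0 → HasTv P → ¬ LinPair P → Sm P → Ev P)

/-! ### Part C: transvections -/

def SubL3 : Prop :=
  ∀ (F : Type u) [Field F] [Fintype F] (K : Subgroup (GL (Fin 3) F)), Irr K → TvGen K → LinPair K →
    IsSLSub K ∨ ((2 : F) = 0 ∧ DihSyl K 4 ∧ QS K ∧ Nonempty (PQ K ≃* alternatingGroup (Fin 6)))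

def SubTL : Prop :=
  ∀ (F : Type u) [Field F] [Fintype F] (P : Subgroup (G F)) (v w y : V F) (φ ψ χ : Dual F (V F)),
    Rt P v φ → Rt P w ψ → Rt P y χ → φ w ≠ 0 → ψ v = 0 → ψ y ≠ 0 → χ v ≠ 0 →
    (∃ K e x, LCfg0 P K e x ∧ In e x v φ ∧ In e x w ψ ∧ In e x y χ ∧ (∀ t ∈ K, Tv P (t • v) φ) ∧
      ∀ t ∈ K, Tv P (t • w) ψ) ∨
    ((2 : F) = 0 ∧ (∀ t : F, Tv P (t • v) φ → t = 0 ∨ t = 1) ∧ (∀ t : F, Tv P (t • w) ψ → t = 0 ∨ t = 1) ∧
      ∃ (e : Fin 3 → V F) (x : Fin 3 → Dual F (V F)), Bi e x ∧ LinPair (TK P e x) ∧ QS (TK P e x) ∧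
        Nonempty (PQ (TK P e x) ≃* alternatingGroup (Fin 6)))

def SubX6 : Prop :=
  ∀ (F : Type u) [Field F] [Fintype F] (P : Subgroup (G F)), (2 : F) = 0 → Irr P → TvGen P → Sm P →
    ∀ (e : Fin 3 → V F) (x : Fin 3 → Dual F (V F)), Bi e x → LinPair (TK P e x) → QS (TK P e x) →
      ¬ Nonempty (PQ (TK P e x) ≃* alternatingGroup (Fin 6))

def SubLA : Prop :=
  ∀ (F : Type u) [Field F] [Fintype F] (P : Subgroup (G F)), Irr P → TvGen P → LinPair P → ∃ K e x, LCfg P K e x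

def SubLB : Prop :=
  ∀ (F : Type u) [Field F] [Fintype F] (P : Subgroup (G F)), QS P → ∀ K e x, LCfg P K e x → LData P

def SubNP : Prop :=
  ∀ (F : Type u) [Field F] [Fintype F] (P : Subgroup (G F)), QS P → ¬ LinPair P → ¬ Real P →
    ∀ v φ w ψ, Rt P v φ → Rt P w ψ → φ w ≠ 0 → ∃ y χ, Rt P y χ ∧ φ w * ψ y * χ v + φ y * χ w * ψ v ≠ 0

def SubU1 : Prop :=
  ∀ (F : Type u) [Field F] [Fintype F] (P : Subgroup (G F)), QS P → HasTv P → ¬ LinPair P → ¬ Real P →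
    ¬ ((2 : F) = 0 ∧ Sm P) → ∃ K, USys P K

def SubU2 : Prop :=
  ∀ (F : Type u) [Field F] [Fintype F] (P : Subgroup (G F)), QS P → HasTv P → ¬ LinPair P → ∀ K, USys P K →
    ∀ σ : F →+* F, (∀ a, a ∈ K ↔ σ a = a) → ∀ l ∈ P, σ (σ (tr l)) = tr l ∧ tr l⁻¹ = σ (tr l)

def SubU3 : Prop :=
  ∀ (F : Type u) [Field F] [Fintype F] (P : Subgroup (G F)), QS P → HasTv P → ¬ LinPair P → ¬ Real P →
    ∀ K, USys P K → ∀ σ : F →+* F, (∀ a, a ∈ K ↔ σ a = a) → σ ≠ RingHom.id F →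
      ∀ f : V F → V F → F, IsSesq σ 1 f → (∀ l ∈ P, Isom f l) → specialIsom f ≤ P

def SubU4 : Prop :=
  ∀ (F : Type u) [Field F] [Fintype F] (P : Subgroup (G F)), Ev P → ∀ σ : F →+* F, (∀ a, σ a = a ^ 2) →
    ∀ f : V F → V F → F, IsSesq σ 1 f → (∀ l ∈ P, Isom f l) →
      ∀ (ω : F) (e : Fin 3 → V F) (x : Fin 3 → Dual F (V F)), TCfg P ω e x → specialIsom f ≤ P

/-! ### Part A: odd characteristic, no transvections, no reflections -/

def SubInv : Prop :=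
  ∀ (F : Type u) [Field F] [Fintype F] (P : Subgroup (G F)), (2 : F) ≠ 0 → QS P → (∀ v φ, ¬ Rf (PM P) v φ) →
    Inv2 P ∧ Rk2 P ∧ PRankLE 2 2 (PQ P) ∧ ¬ V4D (PQ P)

def DataV4 : Prop := ∀ (K : Type) [Field K] [Fintype K], Fintype.card K = 16 → V4D (Cfsg.PSU 3 K 4)

def SubL2 : Prop :=
  ∀ (F : Type u) [Field F] [Fintype F] (P : Subgroup (G F)), QS P → ∀ (K : Type) [Field K] [Fintype K],
    4 ≤ Fintype.card K → Nonempty (PQ P ≃* ProjectiveSpecialLinearGroup (Fin 2) K) →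
    Real P ∨ (Fintype.card K = 7 ∧ (7 : F) ≠ 0) ∨ (Fintype.card K = 11 ∧ (11 : F) ≠ 0)

def SubCross : Prop :=
  ∀ (F : Type u) [Field F] [Fintype F] (P : Subgroup (G F)) (K : Type) [Field K] [Fintype K],
    ringChar F ≠ ringChar K → ∀ θ : ProjectiveSpecialLinearGroup (Fin 2) K →* PQ P, Function.Injective θ →
      Fintype.card K ≤ 11

def SubScott : Prop :=
  ∀ (F : Type u) [Field F] [Fintype F] (P : Subgroup (G F)), QS P → (7 : F) ≠ 0 → Rk2 P → ZT P → ¬ G277 (PQ P)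

def Data277 : Prop :=
  (∀ (K : Type) [Field K] [Fintype K], Fintype.card K = 7 → G277 (ProjectiveSpecialLinearGroup (Fin 2) K)) ∧
    G277 (alternatingGroup (Fin 7)) ∧ ∀ g : alternatingGroup (Fin 7), g ^ 7 = 1 ∨ IsConj g g⁻¹

def SubHDc : Prop :=
  ∀ (F : Type u) [Field F] [Fintype F] (P : Subgroup (G F)) (r : ℕ), r.Prime → r ≠ 2 → (r : F) ≠ 0 → QS P →
    ¬ HD (PQ P) r

def SubHDd : Prop :=
  ∀ (F : Type u) [Field F] [Fintype F] (P : Subgroup (G F)) (r : ℕ), r.Prime → r ≠ 2 → (r : F) = 0 → QS P →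
    ¬ HasTv P → Inv2 P → ¬ HD (PQ P) r

def DataHL : Prop :=
  ∀ (K : Type) [Field K] [Fintype K], Odd (Fintype.card K) → HD (ProjectiveSpecialLinearGroup (Fin 3) K) (ringChar K)

def DataHU : Prop :=
  ∀ (K : Type) [Field K] [Fintype K] (q : ℕ), Fintype.card K = q ^ 2 → Odd q → HD (Cfsg.PSU 3 K q) (ringChar K)

def SubM11 : Prop :=
  ∀ (F : Type u) [Field F] [Fintype F] (P : Subgroup (G F)), QS P → IsM11 (PQ P) →
    (3 : F) = 0 ∧ Spor.IsoM11 (PQ P) ∧ ∀ l ∈ P, tr l ^ 3 = tr l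

def L11Data : Prop :=
  ∀ (F : Type u) [Field F] [Fintype F] (p : ℕ) [CharP F p] (P : Subgroup (G F)), QS P → (11 : F) ≠ 0 →
    Nonempty (PQ P ≃* ProjectiveSpecialLinearGroup (Fin 2) (ZMod 11)) →
    ((p % 11 = 1 ∨ p % 11 = 3 ∨ p % 11 = 4 ∨ p % 11 = 5 ∨ p % 11 = 9) → ∀ l ∈ P, tr l ^ p = tr l) ∧
    ((p % 11 = 2 ∨ p % 11 = 6 ∨ p % 11 = 7 ∨ p % 11 = 8 ∨ p % 11 = 10) → ∀ l ∈ P, tr l ^ p = tr l⁻¹) ∧
    ∀ l ∈ P, orderOf l = 11 → tr l⁻¹ ≠ tr l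

def L11N : Prop :=
  ∀ (F : Type u) [Field F] [Fintype F] (P : Subgroup (G F)), QS P → (11 : F) ≠ 0 →
    Nonempty (PQ P ≃* ProjectiveSpecialLinearGroup (Fin 2) (ZMod 11)) → SelfNorm P

def L11K : Prop :=
  ∀ (F : Type u) [Field F] [Fintype F] (P : Subgroup (G F)), Fintype.card F = 3 → QS P →
    Nonempty (PQ P ≃* ProjectiveSpecialLinearGroup (Fin 2) (ZMod 11)) →
    ∃ K : Subgroup (G F), P < K ∧ K < specialLinear (Fin 5) F

/-! ### Part B: characteristic two, no transvections -/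

def SubB0 : Prop :=
  ∀ (F : Type u) [Field F] [Fintype F] (P : Subgroup (G F)), (2 : F) = 0 → QS P → ¬ HasTv P →
    Rk2 P ∧ ∃ P' : Subgroup (G F), QS P' ∧ Nonempty (PQ P ≃* PQ P') ∧ ∃ S : Sylow 2 P', UTS P' S

def SubB1 : Prop :=
  ∀ (F : Type u) [Field F] [Fintype F] (P : Subgroup (G F)) (S : Sylow 2 P), UTS P S →
    ∃ E B : Subgroup P, IsEB P S E B ∧ UF (S : Subgroup P) E B

def SubKey : Prop :=
  ∀ (F : Type u) [Field F] [Fintype F] (P : Subgroup (G F)) (S : Sylow 2 P), UTS P S →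
    ∀ E B : Subgroup P, IsEB P S E B → UKey (S : Subgroup P) E B

def SubB2 : Prop :=
  ∀ (H : Type u) [Group H] [Finite H] (S : Sylow 2 H) (E B : Subgroup H), UF (S : Subgroup H) E B →
    UKey (S : Subgroup H) E B → ∀ (Z : Subgroup H) [Z.Normal], Z ≤ Subgroup.center H → (Nat.card Z).Coprime 2 →
      SCD (H ⧸ Z)

def SubB4 : Prop :=
  ∀ (F : Type u) [Field F] [Fintype F] (P : Subgroup (G F)) (S : Sylow 2 P), QS P → UTS P S →
    ∀ E B : Subgroup P, IsEB P S E B → UF (S : Subgroup P) E B → ¬ U3D (PQ P)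

def DataU3 : Prop :=
  ∀ (K : Type) [Field K] [Fintype K] (n : ℕ), 2 ≤ n → Fintype.card K = (2 ^ n) ^ 2 → U3D (Cfsg.PSU 3 K (2 ^ n))

def DataSz : Prop :=
  ∀ (H : Type u) [Group H], Lie.IsoSuzuki H →
    (∀ g : H, (∃ n, g ^ 2 ^ n = 1) ∨ IsConj g g⁻¹) ∧ ∀ S : Sylow 5 H, IsCyclic (S : Subgroup H)

def DataJ1 : Prop :=
  ∀ (H : Type u) [Group H] [Finite H] [IsSimpleGroup H], Nat.card H = 175560 →
    ∃ x y : H, x ^ 19 = 1 ∧ x ≠ 1 ∧ y * x * y⁻¹ = x ^ 8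

/-! ### The residual classes -/

def ResL5 : Prop :=
  ∀ (F : Type u) [Field F] [Fintype F] (H : Subgroup (G F)), IsMaximalIn (specialLinear (Fin 5) F) H →
    InLinearResidualClass H → (scalars (Fin 5) F).relIndex H ∣ 7920 ∨ (scalars (Fin 5) F).relIndex H ∣ 51840

def ResU5 : Prop :=
  ∀ (F : Type u) [Field F] [Fintype F] (q : ℕ) (H : Subgroup (G F)), Fintype.card F = q ^ 2 →
    IsMaximalIn (GU 5 F q ⊓ specialLinear (Fin 5) F) H → InUnitaryResidualClass H →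
    q.Prime ∧ ((scalars (Fin 5) F).relIndex H ∣ 1320 ∨ (q % 6 = 5 ∧ (scalars (Fin 5) F).relIndex H ∣ 51840))

end CL.Low5
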