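/-
Project LOW5, step B0: the normal form of a Sylow 2-subgroup in characteristic two without transvections.
-/
import Cfsg.Agent.Low5.Defs2
import Cfsg.Agent.Low.TSys
import Cfsg.Agent.S0205

set_option autoImplicit false
set_option linter.unusedSectionVars false

namespace CL.Low5

open Matrix Cfsg Cfsg.Geo CL.Asch CL.SLn CL.Low Module
open scoped commutatorElement

universe u

namespace B0

section General

variable {ι : Type} [Fintype ι] [DecidableEq ι] {F : Type u} [Field F] {P : Subgroup (GL ι F)}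

theorem isTv_of_mat {g : GL ι F} {v w : ι → F} (hv : v ≠ 0) (hw : w ≠ 0) (h0 : w ⬝ᵥ v = 0)
    (e : (g : Matrix ι ι F) = 1 + vecMulVec v w) : IsTv g := by
  refine ⟨v, dotProductBilin F F w, hv, fun h => hw (funext fun i => ?_), h0, fun x => ?_⟩
  · simpa using LinearMap.congr_fun h (Pi.single i 1)
  · change (g : Matrix ι ι F) *ᵥ x = _
    rw [e, add_mulVec, one_mulVec, vecMulVec_mulVec]
    simp

theorem mat_of_isTv {g : GL ι F} (h : IsTv g) :
    ∃ v w : ι → F, v ≠ 0 ∧ w ≠ 0 ∧ w ⬝ᵥ v = 0 ∧ (g : Matrix ι ι F) = 1 + vecMulVec v w := by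
  obtain ⟨v, φ, hv, hφ, h0, e⟩ := h
  have k : ∀ x, (fun j => φ (Pi.single j 1)) ⬝ᵥ x = φ x := fun x => by
    conv_rhs => rw [pi_eq_sum_univ' x]
    simp [dotProduct, mul_comm]
  refine ⟨v, fun j => φ (Pi.single j 1), hv, fun h => hφ (LinearMap.ext fun x => ?_), by rw [k, h0],
    matrix_ext_mulVec fun x => ?_⟩
  · rw [← k, h, zero_dotProduct]; rfl
  · rw [add_mulVec, one_mulVec, vecMulVec_mulVec, k]
    exact (e x).trans (by simp)

theorem transport (θ : GL ι F →* GL ι F) (hi : Function.Injective θ)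
    (hs : ∀ g, θ g ∈ scalars ι F ↔ g ∈ scalars ι F) (h : QS P) (hsp : spanAlg (P.map θ) = ⊤) :
    QS (P.map θ) ∧ Nonempty (PQ P ≃* PQ (P.map θ)) := by
  let e : PQ P ≃* PQ (P.map θ) := QuotientGroup.congr _ _ (P.equivMapOfInjective θ hi) (by
    ext x
    obtain ⟨y, rfl⟩ := (P.equivMapOfInjective θ hi).surjective x
    rw [Subgroup.mem_subgroupOf, Subgroup.coe_equivMapOfInjective_apply, hs]
    exact (Subgroup.mem_map_iff_mem (P.equivMapOfInjective θ hi).injective).trans Subgroup.mem_subgroupOf)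
  have := h.simple
  refine ⟨⟨by rw [← Subgroup.map_commutator, h.perfect], e.symm.isSimpleGroup, fun hc => h.nonabelian ⟨⟨fun a b =>
    e.injective (by rw [map_mul, map_mul, hc.is_comm.comm])⟩⟩, hsp⟩, ⟨e⟩⟩

theorem exists_sylow [Finite F] (θ : GL ι F →* GL ι F) (S : Sylow 2 P) :
    ∃ S' : Sylow 2 (P.map θ), ∀ x, x ∈ (S' : Subgroup (P.map θ)) ↔ ∃ s ∈ (S : Subgroup P), θ s = x :=
  ⟨S.mapSurjective (θ.subgroupMap_surjective P), fun _ =>
    ⟨fun ⟨s, hs, e⟩ => ⟨s, hs, congrArg Subtype.val e⟩, fun ⟨s, hs, e⟩ => ⟨s, hs, Subtype.ext e⟩⟩⟩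

theorem span_of_linear (θ : GL ι F →* GL ι F) (L : Matrix ι ι F →ₗ[F] Matrix ι ι F) (hL : Function.Surjective L)
    (h : ∀ g ∈ P, ∃ g' ∈ P, (θ g' : Matrix ι ι F) = L g) (hP : spanAlg P = ⊤) : spanAlg (P.map θ) = ⊤ := by
  refine eq_top_iff.2 fun x _ => ?_
  obtain ⟨y, rfl⟩ := hL x
  refine spanAlg_induction (p := fun y => L y ∈ spanAlg (P.map θ)) (fun g hg => ?_) (by simp)
    (fun a b ha hb => by rw [map_add]; exact add_mem ha hb)
    (fun c a ha => by rw [map_smul]; exact Subalgebra.smul_mem _ ha c) (hP.ge trivial : y ∈ spanAlg P)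
  obtain ⟨g', hg', e⟩ := h g hg
  exact e ▸ coe_mem_spanAlg ⟨g', hg', rfl⟩

end General

section Five

variable {F : Type u} [Field F] {P : Subgroup (G F)}

/-- Reflection in the antidiagonal. -/
def rv : Matrix (Fin 5) (Fin 5) F →ₗ[F] Matrix (Fin 5) (Fin 5) F where
  toFun x := xᵀ.submatrix Fin.revPerm Fin.revPerm
  map_add' _ _ := rfl
  map_smul' _ _ := rfl

theorem rv_apply (x : Matrix (Fin 5) (Fin 5) F) : rv x = xᵀ.submatrix Fin.revPerm Fin.revPerm := rfl

theorem rv_rv (x : Matrix (Fin 5) (Fin 5) F) : rv (rv x) = x := by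
  ext i j
  simp [rv_apply]

theorem rv_mul (x y : Matrix (Fin 5) (Fin 5) F) : rv (x * y) = rv y * rv x := by
  simp only [rv_apply, transpose_mul, submatrix_mul_equiv]

theorem rv_one : rv (1 : Matrix (Fin 5) (Fin 5) F) = 1 := by
  simp only [rv_apply, transpose_one, submatrix_one_equiv]

/-- The graph automorphism. -/
def tau : G F →* G F :=
  MonoidHom.mk' (fun g => ⟨rv (g⁻¹).val, rv g.val, by rw [← rv_mul, ← Units.val_mul, mul_inv_cancel, Units.val_one, rv_one],
    by rw [← rv_mul, ← Units.val_mul, inv_mul_cancel, Units.val_one, rv_one]⟩) fun a b =>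
    Units.ext (by simp only [Units.val_mul, _root_.mul_inv_rev, rv_mul])

theorem tau_val (g : G F) : (tau g⁻¹).val = rv g.val := rfl

theorem tau_tau (g : G F) : tau (tau g) = g := Units.ext (rv_rv _)

theorem tau_scalars {g : G F} (h : g ∈ scalars (Fin 5) F) : tau g ∈ scalars (Fin 5) F := by
  obtain ⟨c, hc⟩ := mem_scalars_iff'.1 ((scalars (Fin 5) F).inv_mem h)
  exact mem_scalars_iff'.2 ⟨c, by rw [← inv_inv g, tau_val, hc, map_smul, rv_one]⟩

theorem isTv_tau {g : G F} (h : IsTv g) : IsTv (tau g⁻¹) := by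
  obtain ⟨v, w, hv, hw, h0, e⟩ := mat_of_isTv h
  refine isTv_of_mat (v := w ∘ Fin.revPerm) (w := v ∘ Fin.revPerm)
    (fun k => hw (funext fun i => by simpa using congrFun k (Fin.rev i)))
    (fun k => hv (funext fun i => by simpa using congrFun k (Fin.rev i)))
    (by rw [comp_equiv_dotProduct_comp_equiv, dotProduct_comm, h0]) ?_
  rw [tau_val, e, map_add, rv_one]
  ext i j
  simp [rv_apply, vecMulVec_apply]

/-- The outcome. -/
def Out (P : Subgroup (G F)) : Prop :=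
  ∃ P' : Subgroup (G F), QS P' ∧ Nonempty (PQ P ≃* PQ P') ∧ ∃ S : Sylow 2 P', UTS P' S

theorem out_of [Finite F] (h2 : (2 : F) = 0) (θ : G F →* G F) (hi : Function.Injective θ)
    (hs : ∀ g, θ g ∈ scalars (Fin 5) F ↔ g ∈ scalars (Fin 5) F) (h : QS P) (hsp : spanAlg (P.map θ) = ⊤)
    (ht : ∀ g ∈ P, ¬ IsTv (θ g)) (S : Sylow 2 P)
    (h1 : ∀ s ∈ (S : Subgroup P), ∃ a d g h b e k f : F, (θ s).val = utm a d g h b e k f ∧ (a = 0 → f = 0))
    (h3 : ∃ z ∈ (S : Subgroup P), (θ z).val = utm 0 0 1 0 0 0 1 0) : Out P := by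
  obtain ⟨k1, k2⟩ := transport θ hi hs h hsp
  obtain ⟨S', hS⟩ := exists_sylow θ S
  refine ⟨_, k1, k2, S', h2, ?_, fun s hs => ?_, ?_⟩
  · rintro ⟨_, ⟨g, hg, rfl⟩, k⟩
    exact ht g hg k
  · obtain ⟨t, ht, e⟩ := (hS s).1 hs
    exact e ▸ h1 t ht
  · obtain ⟨z, hz, e⟩ := h3
    exact ⟨⟨θ z, z, z.2, rfl⟩, (hS _).2 ⟨z, hz, rfl⟩, e⟩

/-- The shape of a unipotent element commuting with the central involution. -/
def ut (a d g h b e k c f : F) : Matrix (Fin 5) (Fin 5) F :=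
  !![1, a, d, g, h; 0, 1, b, e, k; 0, 0, 1, c, f; 0, 0, 0, 1, a; 0, 0, 0, 0, 1]

theorem diag_pow {m : Matrix (Fin 5) (Fin 5) F} (h : m.BlockTriangular id) (n : ℕ) (i : Fin 5) :
    (m ^ n) i i = m i i ^ n := by
  induction n with
  | zero => simp
  | succ n ih =>
    rw [pow_succ, pow_succ, mul_apply, Finset.sum_eq_single i (fun j _ hj => ?_) (by simp), ih]
    rcases lt_or_gt_of_ne hj with k | k
    · rw [h.pow n (show id j < id i from k), zero_mul]
    · rw [h (show id i < id j from k), mul_zero]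

theorem shape (h2 : (2 : F) = 0) {m : Matrix (Fin 5) (Fin 5) F} {n : ℕ} (hn : m ^ 2 ^ n = 1)
    (hc : m * utm 0 0 1 0 0 0 1 0 = utm 0 0 1 0 0 0 1 0 * m) (h0 : m *ᵥ Pi.single 0 1 = Pi.single 0 1) :
    ∃ a d g h b e k c f : F, m = ut a d g h b e k c f := by
  have : CharP F 2 := CharTwo.of_one_ne_zero_of_two_eq_zero one_ne_zero h2
  have c0 : ∀ i, m i 0 = (Pi.single 0 1 : Fin 5 → F) i := fun i => by simpa using congrFun h0 i
  have c := fun i j => congrFun (congrFun hc i) j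
  have e10 : m 1 0 = 0 := by simpa using c0 1
  have e20 : m 2 0 = 0 := by simpa using c0 2
  have e30 : m 3 0 = 0 := by simpa using c0 3
  have e40 : m 4 0 = 0 := by simpa using c0 4
  have e21 : m 2 1 = 0 := by simpa [utm, mul_apply, Fin.sum_univ_five] using c 2 4
  have e31 : m 3 1 = 0 := by simpa [utm, mul_apply, Fin.sum_univ_five] using c 3 4
  have e41 : m 4 1 = 0 := by simpa [utm, mul_apply, Fin.sum_univ_five] using c 4 4
  have e32 : m 3 2 = 0 := by simpa [utm, mul_apply, Fin.sum_univ_five] using c 0 2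
  have e42 : m 4 2 = 0 := by simpa [utm, mul_apply, Fin.sum_univ_five] using c 1 2
  have e43 : m 4 3 = 0 := by
    have := c 1 3
    simp [utm, mul_apply, Fin.sum_univ_five] at this
    linear_combination e10 - this
  have e34 : m 3 4 = m 0 1 := by
    have := c 0 4
    simp [utm, mul_apply, Fin.sum_univ_five] at this
    linear_combination -this
  have ht : m.BlockTriangular id := fun i j hij => by
    fin_cases i <;> fin_cases j <;> first | assumption | exact absurd hij (by decide)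
  have hd : ∀ i, m i i = 1 := fun i => by
    have k := diag_pow ht (2 ^ n) i
    rw [hn, one_apply_eq, eq_comm, ← sub_eq_zero, ← one_pow (2 ^ n), ← sub_pow_char_pow] at k
    exact sub_eq_zero.1 (pow_eq_zero_iff (by positivity) |>.1 k)
  refine ⟨m 0 1, m 0 2, m 0 3, m 0 4, m 1 2, m 1 3, m 1 4, m 2 3, m 2 4, ?_⟩
  ext i j
  fin_cases i <;> fin_cases j <;> first | rfl | assumption | exact hd _

theorem exists_basis [Finite F] (h2 : (2 : F) = 0) {T : Subgroup (G F)} (hT : IsPGroup 2 T) {z : G F}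
    (hc : ∀ s ∈ T, s * z = z * s) (h1 : z ≠ 1) (hz : z * z = 1) (hn : ¬ IsTv z) :
    ∃ c : G F, (c⁻¹ * z * c).val = utm 0 0 1 0 0 0 1 0 ∧
      ∀ s ∈ T, (c⁻¹ * s * c).val *ᵥ Pi.single 0 1 = Pi.single 0 1 := by
  have : CharP F 2 := CharTwo.of_one_ne_zero_of_two_eq_zero one_ne_zero h2
  have hsq := sq_sub_one_of_two h2 hz
  set N := z.val - 1 with hN
  let n := toLin' N
  have hnn : ∀ x, n (n x) = 0 := fun x => by simp [n, hsq]
  have hle : LinearMap.range n ≤ LinearMap.ker n := by rintro _ ⟨x, rfl⟩; exact hnn x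
  have r1 := LinearMap.finrank_range_add_finrank_ker n
  have r2 := Submodule.finrank_mono hle
  have r3 : finrank F (LinearMap.range n) ≠ 1 := fun e => hn (isTv_of_rank hsq e)
  have r4 : LinearMap.range n ≠ ⊥ := fun e => h1 (Units.ext (sub_eq_zero.1
    (toLin'.injective ((LinearMap.range_eq_bot.1 e).trans (map_zero _).symm))))
  have r5 := Submodule.finrank_eq_zero.not.2 r4
  rw [finrank_fin_fun] at r1
  obtain ⟨_, ⟨e4, rfl⟩, k1, k2⟩ := exists_fixed 2 (T3B.rho (Fin 5) F) hT (LinearMap.range n) r4 (by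
    rintro g hg _ ⟨x, rfl⟩
    refine ⟨g.val *ᵥ x, ?_⟩
    change N *ᵥ _ = g.val *ᵥ N *ᵥ x
    simp only [mulVec_mulVec, hN, mul_sub, sub_mul, mul_one, one_mul, ← Units.val_mul, hc g hg])
  obtain ⟨_, ⟨e5, rfl⟩, k3⟩ := SetLike.exists_of_lt (show F ∙ n e4 < LinearMap.range n from
    Submodule.lt_of_le_of_finrank_lt_finrank ((Submodule.span_singleton_le_iff_mem _ _).2 ⟨e4, rfl⟩)
      (by rw [finrank_span_singleton k1]; omega))
  obtain ⟨e3, k4, k5⟩ := SetLike.exists_of_lt (Submodule.lt_of_le_of_finrank_lt_finrank hle (by omega))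
  have k6 : ∀ r s : F, r • n e4 + s • n e5 = 0 → r = 0 ∧ s = 0 := fun r s e => by
    have hs : s = 0 := by
      by_contra hs
      exact k3 (Submodule.mem_span_singleton.2 ⟨-(s⁻¹ * r), by
        rw [← inv_smul_smul₀ hs (n e5), eq_neg_of_add_eq_zero_right e]; module⟩)
    rw [hs, zero_smul, add_zero] at e
    exact ⟨(smul_eq_zero.1 e).resolve_right k1, hs⟩
  let C : Matrix (Fin 5) (Fin 5) F := (Matrix.of ![n e4, n e5, e3, e4, e5])ᵀ
  have hC : ∀ x : V F, C *ᵥ x = x 0 • n e4 + x 1 • n e5 + x 2 • e3 + x 3 • e4 + x 4 • e5 := fun x => by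
    ext i
    simp [C, mulVec, dotProduct, Fin.sum_univ_five, mul_comm]
  have hu : C.det ≠ 0 := fun e => by
    obtain ⟨x, hx, e⟩ := exists_mulVec_eq_zero_iff.2 e
    rw [hC] at e
    have e1 := congrArg n e
    simp only [map_add, map_smul, hnn, LinearMap.mem_ker.1 k4, smul_zero, zero_add, map_zero] at e1
    obtain ⟨a3, a4⟩ := k6 _ _ e1
    rw [a3, a4, zero_smul, zero_smul, add_zero, add_zero] at e
    have a2 : x 2 = 0 := by
      by_contra a2
      refine k5 ((Submodule.smul_mem_iff _ a2).1 ⟨-(x 0 • e4 + x 1 • e5), ?_⟩)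
      rw [map_neg, map_add, map_smul, map_smul, neg_eq_iff_add_eq_zero, e]
    rw [a2, zero_smul, add_zero] at e
    obtain ⟨a0, a1⟩ := k6 _ _ e
    exact hx (funext fun i => by fin_cases i <;> assumption)
  let c : G F := GeneralLinearGroup.mkOfDetNeZero C hu
  have hz' : ∀ x, z.val *ᵥ x = x + n x := fun x => by simp [n, hN]
  refine ⟨c, ?_, fun s hs => ?_⟩
  · rw [mul_assoc, Units.val_mul, Units.inv_mul_eq_iff_eq_mul, Units.val_mul]
    refine matrix_ext_mulVec fun x => ?_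
    rw [← mulVec_mulVec, ← mulVec_mulVec, hz']
    change C *ᵥ x + n (C *ᵥ x) = C *ᵥ _
    simp only [hC, map_add, map_smul, hnn, LinearMap.mem_ker.1 k4]
    simp [utm, mulVec, dotProduct, Fin.sum_univ_five]
    module
  · have e0 : c • (Pi.single 0 1 : V F) = n e4 := by
      change C *ᵥ _ = _
      rw [hC]; simp
    change (c⁻¹ * s * c) • (Pi.single 0 1 : V F) = _
    rw [mul_smul, mul_smul, e0, inv_smul_eq_iff, e0]
    exact k2 s hs

theorem ut_mul (a d g h b e k c f a' d' g' h' b' e' k' c' f' : F) :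
    ut a d g h b e k c f * ut a' d' g' h' b' e' k' c' f' =
      ut (a + a') (d' + a * b' + d) (g' + a * e' + d * c' + g) (h' + a * k' + d * f' + g * a' + h) (b' + b)
        (e' + b * c' + e) (k' + b * f' + e * a' + k) (c' + c) (f' + c * a' + f) := by
  ext i j
  fin_cases i <;> fin_cases j <;> simp [ut, mul_apply, Fin.sum_univ_five, add_comm]

theorem rank_one (h2 : (2 : F) = 0) {s : G F} {d g h b e k c f : F} (hs : s.val = ut 0 d g h b e k c f)
    (hn : ¬ IsTv (s * s)) : (d = 0 ∧ b = 0) ∨ (c = 0 ∧ f = 0) := by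
  by_contra hh
  rw [not_or] at hh
  refine hn (isTv_of_mat (v := ![d, b, 0, 0, 0]) (w := ![0, 0, 0, c, f])
    (fun e => hh.1 ⟨congrFun e 0, congrFun e 1⟩) (fun e => hh.2 ⟨congrFun e 3, congrFun e 4⟩)
    (by simp [dotProduct, Fin.sum_univ_five]) ?_)
  have : CharP F 2 := CharTwo.of_one_ne_zero_of_two_eq_zero one_ne_zero h2
  rw [Units.val_mul, hs, ut_mul]
  ext i j
  fin_cases i <;> fin_cases j <;> simp [ut, CharTwo.add_self_eq_zero, add_right_comm]

theorem dichotomy (h2 : (2 : F) = 0) {T : Subgroup (G F)} (hn : ∀ s ∈ T, ¬ IsTv s)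
    (hT : ∀ s ∈ T, ∃ a d g h b e k c f : F, s.val = ut a d g h b e k c f) :
    (∀ s ∈ T, ∃ a d g h b e k f : F, s.val = utm a d g h b e k f ∧ (a = 0 → f = 0)) ∨
      ∀ s ∈ T, ∃ a d g h b e k f : F, rv s.val = utm a d g h b e k f ∧ (a = 0 → f = 0) := by
  have : CharP F 2 := CharTwo.of_one_ne_zero_of_two_eq_zero one_ne_zero h2
  have key : ∀ s ∈ T, ∀ {d g h b e k c f : F}, s.val = ut 0 d g h b e k c f → (d = 0 ∧ b = 0) ∨ (c = 0 ∧ f = 0) :=
    fun s hs _ _ _ _ _ _ _ _ e => rank_one h2 e (hn _ (T.mul_mem hs hs))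
  by_cases hA : ∀ s ∈ T, ∀ d g h b e k c f : F, s.val = ut 0 d g h b e k c f → c = 0 ∧ f = 0
  · refine Or.inl fun s hs => ?_
    obtain ⟨a, d, g, h, b, e, k, c, f, es⟩ := hT s hs
    have hc : c = 0 := by
      by_cases ha : a = 0
      · subst ha; exact (hA s hs _ _ _ _ _ _ _ _ es).1
      have := (hA _ (T.mul_mem hs hs) _ _ _ _ _ _ _ _ (by
        rw [Units.val_mul, es, ut_mul, CharTwo.add_self_eq_zero a])).2
      exact mul_right_cancel₀ ha (by linear_combination this - f * h2)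
    subst hc
    exact ⟨a, d, g, h, b, e, k, f, es, fun ha => by subst ha; exact (hA s hs _ _ _ _ _ _ _ _ es).2⟩
  have hB : ∀ s ∈ T, ∀ d g h b e k c f : F, s.val = ut 0 d g h b e k c f → d = 0 ∧ b = 0 := by
    intro s hs d g h b e k c f es
    by_contra h1
    refine hA fun s' hs' d' g' h' b' e' k' c' f' es' => ?_
    by_contra h3
    obtain ⟨rfl, rfl⟩ := (key s hs es).resolve_left h1
    obtain ⟨rfl, rfl⟩ := (key s' hs' es').resolve_right h3
    have := key _ (T.mul_mem hs hs') (by rw [Units.val_mul, es, es', ut_mul, add_zero])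
    simp only [mul_zero, zero_add, add_zero] at this
    exact this.elim h1 h3
  refine Or.inr fun s hs => ?_
  obtain ⟨a, d, g, h, b, e, k, c, f, es⟩ := hT s hs
  have hb : b = 0 := by
    by_cases ha : a = 0
    · subst ha; exact (hB s hs _ _ _ _ _ _ _ _ es).2
    have := (hB _ (T.mul_mem hs hs) _ _ _ _ _ _ _ _ (by
      rw [Units.val_mul, es, ut_mul, CharTwo.add_self_eq_zero a])).1
    exact mul_left_cancel₀ ha (by linear_combination this - d * h2)
  subst hb
  refine ⟨a, f, k, h, c, e, g, d, ?_, fun ha => by subst ha; exact (hB s hs _ _ _ _ _ _ _ _ es).1⟩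
  rw [es]
  ext i j
  fin_cases i <;> fin_cases j <;> rfl

end Five

end B0

theorem subB0 : SubB0.{u} := by
  intro F _ _ P h2 hP hT
  refine ⟨fun t _ ht => ?_, ?_⟩
  · have := rank_add_rank_le_card_of_mul_eq_zero (sq_sub_one_of_two h2 ht)
    rw [Fintype.card_fin] at this
    omega
  obtain ⟨S⟩ : Nonempty (Sylow 2 P) := inferInstance
  have hS : (S : Subgroup P) ≠ ⊥ := S.ne_bot_of_dvd_card (by
    by_contra h
    have := Cfsg.Agent.S0205.result (G := P) (Nat.odd_iff.2 (by omega))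
    have := hP.simple
    exact hP.nonabelian ⟨⟨IsSimpleGroup.comm_iff_isSolvable.2 inferInstance⟩⟩)
  have := (Subgroup.nontrivial_iff_ne_bot _).2 hS
  have := S.isPGroup'.center_nontrivial
  obtain ⟨z, hz⟩ := exists_prime_orderOf_dvd_card' (G := Subgroup.center (S : Subgroup P)) 2
    (((S.isPGroup'.to_subgroup _).card_eq_or_dvd).resolve_left Finite.one_lt_card.ne')
  have hnt : ∀ g ∈ P, ¬ IsTv g := fun g hg k => hT ⟨g, hg, k⟩
  have hzc : ∀ s ∈ (S : Subgroup P).map P.subtype, s * z.1.1.1 = z.1.1.1 * s := by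
    rintro _ ⟨s, hs, rfl⟩
    exact congrArg (fun x : (S : Subgroup P) => x.1.1) (Subgroup.mem_center_iff.1 z.2 ⟨s, hs⟩)
  obtain ⟨c, c1, c2⟩ := B0.exists_basis h2 (S.isPGroup'.map P.subtype) hzc
    (fun e => by
      rw [show z = 1 from Subtype.ext (Subtype.ext (Subtype.ext e)), orderOf_one] at hz
      omega)
    (congrArg (fun x : Subgroup.center (S : Subgroup P) => x.1.1.1) (show z * z = 1 by
      rw [← pow_two]; exact orderOf_dvd_iff_pow_eq_one.1 hz.dvd)) (hnt _ z.1.1.2)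
  let θ : G F →* G F := (MulAut.conj c⁻¹).toMonoidHom
  have hθ : ∀ g, θ g = c⁻¹ * g * c := fun g => by simp [θ]
  have hi : Function.Injective θ := (MulAut.conj c⁻¹).injective
  have hs : ∀ g, θ g ∈ scalars (Fin 5) F ↔ g ∈ scalars (Fin 5) F := fun g =>
    ⟨fun h => by
      have k := Subgroup.mem_center_iff.1 (scalars_le_center h) c
      rwa [show g = θ g from mul_right_cancel (b := c) (by rw [← k, hθ]; group)],
    fun h => by rwa [hθ, mul_assoc, ← Subgroup.mem_center_iff.1 (scalars_le_center h), inv_mul_cancel_left]⟩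
  have ht : ∀ g ∈ P, ¬ IsTv (θ g) := fun g hg k => hnt g hg (by
    have := k.conj c
    rwa [hθ, show c * (c⁻¹ * g * c) * c⁻¹ = g by group] at this)
  let L : Matrix (Fin 5) (Fin 5) F ≃ₗ[F] Matrix (Fin 5) (Fin 5) F := (conjAlg c⁻¹).toLinearEquiv
  have hL : ∀ g, (θ g).val = L g.val := fun g => by
    rw [hθ, Units.val_mul, Units.val_mul]
    exact (conjAlg_apply c⁻¹ g.val).symm
  rcases B0.dichotomy h2 (T := ((S : Subgroup P).map P.subtype).map θ)
    (by rintro _ ⟨_, ⟨s, -, rfl⟩, rfl⟩; exact ht _ s.2) (by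
      rintro _ ⟨_, ⟨s, hs, rfl⟩, rfl⟩
      obtain ⟨n, hn⟩ := S.isPGroup' ⟨s, hs⟩
      refine B0.shape h2 (n := n) ?_ ?_ (by rw [hθ]; exact c2 _ ⟨s, hs, rfl⟩)
      · rw [← Units.val_pow_eq_pow_val, ← map_pow,
          show P.subtype s ^ 2 ^ n = 1 from congrArg (fun x : (S : Subgroup P) => x.1.1) hn, map_one, Units.val_one]
      · rw [← c1, ← hθ, ← Units.val_mul, ← Units.val_mul, ← map_mul, ← map_mul]
        rw [hzc _ ⟨s, hs, rfl⟩])
    with h | h
  · exact B0.out_of h2 θ hi hs hP (B0.span_of_linear θ L L.surjective (fun g hg => ⟨g, hg, hL g⟩) hP.span) ht S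
      (fun s hs => h _ ⟨_, ⟨s, hs, rfl⟩, rfl⟩) ⟨z.1.1, z.1.2, by rw [hθ, c1]⟩
  have hτ : ∀ g, ((B0.tau.comp θ) g⁻¹).val = B0.rv (θ g).val := fun g => by
    rw [MonoidHom.comp_apply, map_inv, B0.tau_val]
  refine B0.out_of h2 (B0.tau.comp θ) ((Function.LeftInverse.injective B0.tau_tau).comp hi)
    (fun g => ⟨fun k => (hs g).1 (B0.tau_tau (θ g) ▸ B0.tau_scalars k), fun k => B0.tau_scalars ((hs g).2 k)⟩) hP
    (B0.span_of_linear _ (B0.rv ∘ₗ L) ((Function.RightInverse.surjective B0.rv_rv).comp L.surjective)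
      (fun g hg => ⟨g⁻¹, P.inv_mem hg, hτ g⟩) hP.span) (fun g hg k => ht _ (P.inv_mem hg) ?_) S (fun s hs => ?_)
    ⟨z.1.1⁻¹, inv_mem z.1.2, ?_⟩
  · have := B0.isTv_tau k
    rwa [MonoidHom.comp_apply, ← map_inv, B0.tau_tau, ← map_inv] at this
  · rw [← inv_inv (s : G F), hτ]
    exact h _ ⟨_, ⟨s⁻¹, inv_mem hs, rfl⟩, rfl⟩
  · rw [Subgroup.coe_inv, hτ, hθ, c1]
    ext i j
    fin_cases i <;> fin_cases j <;> rfl

end CL.Low5
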