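/-
Project LOW5: the rank one data of `U₃(2ⁿ)` do not occur in dimension five without transvections.
-/
import Cfsg.Agent.Low5.Defs2

set_option autoImplicit false
set_option linter.unusedSectionVars false

namespace CL.Low5

open Matrix Cfsg Cfsg.Geo CL.Asch CL.SLn CL.Low Module
open scoped commutatorElement

universe u

namespace B4

open Subgroup

section Groups

variable {H : Type u} [Group H]

/-- the data `U3D` for a given subgroup -/
def Dt (T : Subgroup H) : Prop :=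
  ∃ w x z s : H, w * w = 1 ∧
    (∀ g, g ∈ normalizer (T : Set H) ∨ ∃ t ∈ T, ∃ n ∈ normalizer (T : Set H), g = t * w * n) ∧
    x ∈ normalizer (T : Set H) ∧ Commute x w ∧ z ∈ T ∧ z ≠ 1 ∧ z * z = 1 ∧ Commute x z ∧ s ∈ T ∧
    ⁅x, s⁆ * ⁅x, s⁆ ≠ 1 ∧ ∀ t ∈ T, t * t = 1 → ∀ t' ∈ T, Commute t t'

theorem Dt.map {T T' : Subgroup H} (h : Dt T) (e : H ≃* H) (he : ∀ a, e a ∈ T' ↔ a ∈ T) : Dt T' := by
  obtain ⟨w, x, z, s, h1, h2, h3, h4, h5, h6, h7, h8, h9, h10, h11⟩ := h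
  have hn : ∀ a, a ∈ normalizer (T : Set H) → e a ∈ normalizer (T' : Set H) := fun a ha =>
    mem_normalizer_iff.2 (e.surjective.forall.2 fun b => by
      rw [← map_inv, ← map_mul, ← map_mul, he, he]; exact mem_normalizer_iff.1 ha b)
  refine ⟨e w, e x, e z, e s, by rw [← map_mul, h1, map_one], e.surjective.forall.2 fun g =>
    (h2 g).imp (hn g) fun ⟨t, ht, n, hn', e'⟩ => ⟨e t, (he t).2 ht, e n, hn n hn', by rw [e', map_mul, map_mul]⟩,
    hn x h3, h4.map e, (he z).2 h5, e.map_ne_one_iff.2 h6, by rw [← map_mul, h7, map_one], h8.map e, (he s).2 h9,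
    by rw [← map_commutatorElement, ← map_mul]; exact e.map_ne_one_iff.2 h10,
    e.surjective.forall.2 fun t ht h => e.surjective.forall.2 fun t' ht' =>
      (h11 t ((he t).1 ht) (e.injective (by rw [map_mul, h, map_one])) t' ((he t').1 ht')).map e⟩

variable [Finite H] {Z : Subgroup H} [Z.Normal]

theorem Dt.lift (hZ : Z ≤ center H) (hc : (Nat.card Z).Coprime 2) {S : Subgroup H} (hS : IsPGroup 2 S)
    (h : Dt (S.map (QuotientGroup.mk' Z))) : Dt S := by
  obtain ⟨w, x, z, s, h1, h2, h3, h4, ⟨z, h5, rfl⟩, h6, h7, h8, ⟨s, h9, rfl⟩, h10, h11⟩ := h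
  obtain ⟨k, hk⟩ := IsPGroup.iff_card.1 hS
  have pw : ∀ a ∈ S, a ^ 2 ^ k = 1 := fun a ha => hk ▸ orderOf_dvd_iff_pow_eq_one.1 (S.orderOf_dvd_natCard ha)
  have hn : ∀ g : H, (g : H ⧸ Z) ∈ normalizer (S.map (QuotientGroup.mk' Z) : Set (H ⧸ Z)) →
      g ∈ normalizer (S : Set H) := fun g hg => mem_normalizer_fintype fun a ha => by
    obtain ⟨b, hb, e⟩ := (mem_normalizer_iff.1 hg _).1 (mem_map_of_mem (QuotientGroup.mk' Z) ha)
    rwa [← lift_unique hZ (hc.pow_right k) (g := b) (h := g * a * g⁻¹) e (pw b hb)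
      (by rw [conj_pow, pw a ha, mul_one, mul_inv_cancel])]
  obtain ⟨w, rfl, hw⟩ := exists_lift hc w (by rwa [pow_two])
  obtain ⟨x, rfl⟩ := QuotientGroup.mk_surjective x
  have hz : z * z = 1 := lift_unique hZ (hc.pow_right k) h7 (pw _ (mul_mem h5 h5)) (one_pow _)
  refine ⟨w, x, z, s, by rwa [← pow_two], fun g => (h2 g).imp (hn g) ?_, hn x h3, lift_comm hZ hc hw h4, h5,
    fun e => h6 (by rw [e, map_one]), hz, lift_comm hZ hc (by rwa [pow_two]) h8, h9,
    fun e => h10 (congrArg (QuotientGroup.mk' Z) e), fun t ht e t' ht' => (lift_comm hZ hc (by rwa [pow_two])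
      (h11 _ (mem_map_of_mem _ ht) (congrArg (QuotientGroup.mk' Z) e) _ (mem_map_of_mem _ ht')).symm).symm⟩
  rintro ⟨_, ⟨t, ht, rfl⟩, n, hn', e⟩
  refine ⟨t, ht, (t * w)⁻¹ * g, hn _ ?_, by group⟩
  rwa [QuotientGroup.mk_mul, e, QuotientGroup.mk_inv, QuotientGroup.mk_mul, QuotientGroup.mk'_apply,
    inv_mul_cancel_left]

theorem dt_of (hZ : Z ≤ center H) (hc : (Nat.card Z).Coprime 2) (S : Sylow 2 H) (h : U3D (H ⧸ Z)) :
    Dt (S : Subgroup H) := by
  obtain ⟨T, h⟩ := h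
  obtain ⟨g, e⟩ := MulAction.exists_smul_eq (H ⧸ Z) T (S.mapSurjective (QuotientGroup.mk'_surjective Z))
  refine Dt.lift hZ hc S.isPGroup' (Dt.map h (MulAut.conj g) fun a => ?_)
  rw [← S.coe_mapSurjective (QuotientGroup.mk'_surjective Z), ← e]
  exact smul_mem_pointwise_smul_iff (a := MulAut.conj g)

end Groups

variable {F : Type u} [Field F] {P : Subgroup (G F)} {S : Sylow 2 P} {E B : Subgroup P}

theorem act {g : G F} {a d c h b e k f : F} (hg : g.val = utm a d c h b e k f) (v : V F) :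
    g • v = ![v 0 + a * v 1 + d * v 2 + c * v 3 + h * v 4, v 1 + b * v 2 + e * v 3 + k * v 4, v 2 + f * v 4,
      v 3 + a * v 4, v 4] := by
  rw [gsmul_def, hg]
  ext i
  fin_cases i <;> simp [utm, mulVec, dotProduct, Fin.sum_univ_five]

/-- the form of the non-trivial elements of `E ⊓ B` -/
theorem formD (hU : UTS P S) (hE : IsEB P S E B) {δ : P} (h1 : δ ∈ E) (h2 : δ ∈ B) (h0 : δ ≠ 1) :
    ∃ d c h k : F, (δ : G F).val = utm 0 d c h 0 0 k 0 ∧ k ≠ 0 ∧ (d ≠ 0 ∨ c ≠ 0) := by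
  obtain ⟨hS, ha⟩ := (hE.1 δ).1 h1
  obtain ⟨-, hb, he⟩ := (hE.2 δ).1 h2
  obtain ⟨a, d, c, h, b, e, k, f, hg, hf⟩ := hU.form δ hS
  rw [hg] at ha hb he
  obtain rfl : a = 0 := ha
  obtain rfl : b = 0 := hb
  obtain rfl : e = 0 := he
  obtain rfl := hf rfl
  have key : ∀ (v : V F) (φ : Dual F (V F)), φ v = 0 → (∀ y, (δ : G F) • y = y + φ y • v) → False := fun v φ h3 h4 => by
    refine hU.noTv ⟨δ, δ.2, v, φ, ?_, ?_, h3, h4⟩ <;> rintro rfl <;>
      exact h0 (Subtype.ext (gext fun y => by simp [h4]))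
  refine ⟨d, c, h, k, hg, ?_, ?_⟩
  · rintro rfl
    refine key ![1, 0, 0, 0, 0] (d • LinearMap.proj 2 + c • LinearMap.proj 3 + h • LinearMap.proj 4) (by simp)
      fun y => ?_
    rw [act hg]
    ext i
    fin_cases i <;> simp [add_assoc]
  · by_contra! h3
    obtain ⟨rfl, rfl⟩ := h3
    refine key ![h, k, 0, 0, 0] (LinearMap.proj 4) (by simp) fun y => ?_
    rw [act hg]
    ext i
    fin_cases i <;> simp [mul_comm]

end B4

open B4 Subgroup in
theorem subB4 : SubB4.{u} := fun F _ _ P S hQ hU E B hE hF hD => by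
  obtain ⟨w, x, z, s, -, h2, h3, h4, h5, h6, h7, h8, h9, h10, h11⟩ :=
    dt_of (scalars_subgroupOf_le_center P) (QS.coprime hQ (by decide)) S hD
  have cS : ⁅x, s⁆ ∈ (S : Subgroup P) := mul_mem ((mem_normalizer_iff.1 h3 s).1 h9) (inv_mem h9)
  have cE : ⁅x, s⁆ ∉ E := fun h => h10 (hF.sqE _ h)
  have cB : ⁅x, s⁆ ∉ B := fun h => h10 (hF.sqB _ h)
  have inD : ∀ t ∈ (S : Subgroup P), t * t = 1 → t ∈ E ∧ t ∈ B := fun t ht e =>
    (hF.inv t ht e).elim (fun h => ⟨h, by_contra fun h' => hF.ncE t h h' _ cS cE (h11 t ht e _ cS)⟩)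
      fun h => ⟨by_contra fun h' => hF.ncB t h h' _ cS cB (h11 t ht e _ cS), h⟩
  obtain ⟨a, _, _, _, _, _, _, _, hc, -⟩ := hU.form _ cS
  have ha : a ≠ 0 := fun e => cE ((hE.1 _).2 ⟨cS, by rw [hc, e]; rfl⟩)
  obtain ⟨d, c, h, k, hz, hk, -⟩ := formD hU hE (inD z h5 h7).1 (inD z h5 h7).2 h6
  let e0 : V F := ![1, 0, 0, 0, 0]
  let e1 : V F := ![0, 1, 0, 0, 0]
  have fx : ∀ t ∈ (S : Subgroup P), (t : G F) • e0 = e0 := fun t ht => by
    obtain ⟨_, _, _, _, _, _, _, _, e, -⟩ := hU.form t ht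
    rw [act e]; simp [e0]
  have ln : ∀ g : P, g ∈ normalizer ((S : Subgroup P) : Set P) → ∃ μ : F, (g : G F) • e0 = μ • e0 := fun g hg => by
    have m : ∀ t ∈ (S : Subgroup P), g⁻¹ * t * g ∈ (S : Subgroup P) := fun t => (mem_normalizer_iff''.1 hg t).1
    have cj : ∀ (t : P) (y : V F), (t : G F) • (g : G F) • y = (g : G F) • ((g⁻¹ * t * g : P) : G F) • y := fun t y => by
      simp [mul_smul]
    have hδ := inD _ (m z h5) (by rw [show g⁻¹ * z * g * (g⁻¹ * z * g) = g⁻¹ * (z * z) * g by group, h7]; simp)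
    obtain ⟨d', c', h', k', e, -, hd⟩ := formD hU hE hδ.1 hδ.2 fun e => h6 (by
      rw [show z = g * (g⁻¹ * z * g) * g⁻¹ by group, e]; simp)
    obtain ⟨y, hy⟩ : ∃ y : V F, ((g⁻¹ * z * g : P) : G F) • y = y + e0 := by
      rcases hd with hd | hd
      · exact ⟨![0, 0, d'⁻¹, 0, 0], by rw [act e]; ext i; fin_cases i <;> simp [e0, hd]⟩
      · exact ⟨![0, 0, 0, c'⁻¹, 0], by rw [act e]; ext i; fin_cases i <;> simp [e0, hd]⟩
    have q1 := cj z y
    have q2 := cj ⁅x, s⁆ e0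
    rw [hy, smul_add, act hz] at q1
    rw [fx _ (m _ cS), act hc] at q2
    generalize (g : G F) • e0 = v at *
    have r2 := congrFun q1 2; have r3 := congrFun q1 3; have r4 := congrFun q1 4; have r0 := congrFun q2 0
    simp at r2 r3 r4 r0
    simp [r2, r3, r4, ha] at r0
    exact ⟨v 0, by ext i; fin_cases i <;> simp [e0, *]⟩
  have u4 : ((w : G F) • e0) 4 ≠ 0 := fun hu => by
    let W : Submodule F (V F) :=
      { carrier := {v | ∀ g ∈ P, (g • v) 4 = 0}
        add_mem' := fun h h' g hg => by rw [smul_add, Pi.add_apply, h g hg, h' g hg, add_zero]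
        zero_mem' := fun g _ => by simp
        smul_mem' := fun r v h g hg => by rw [gsmul_smul, Pi.smul_apply, h g hg, smul_zero] }
    have h0 : e0 ∈ W := fun g hg => by
      rcases h2 ⟨g, hg⟩ with e | ⟨t, ht, n, hn, e⟩
      · obtain ⟨μ, e'⟩ := ln _ e
        rw [e']; simp [e0]
      obtain ⟨μ, e'⟩ := ln _ hn
      obtain ⟨_, _, _, _, _, _, _, _, e'', -⟩ := hU.form t ht
      rw [show g = t * w * n from congrArg Subtype.val e, mul_smul, mul_smul, e', gsmul_smul, gsmul_smul, act e'']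
      simp [hu]
    rcases irr_iff.1 hQ.irr W (fun g hg v hv g' hg' => by
      rw [← gsmul_def, ← mul_smul]; exact hv _ (mul_mem hg' hg)) with e | e
    · simpa [e0] using congrFun (show e0 = 0 from (Submodule.mem_bot F).1 (e ▸ h0)) 0
    · simpa using (e.ge (Submodule.mem_top (x := ![0, 0, 0, 0, 1])) : _ ∈ W) 1 (one_mem _)
  obtain ⟨μ, hμ⟩ := ln x h3
  have cm : ∀ t : P, Commute x t → ∀ y : V F, (x : G F) • y = μ • y → (x : G F) • (t : G F) • y = μ • (t : G F) • y :=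
    fun t ht y e => by rw [← mul_smul, ← coe_mul, ht.eq, coe_mul, mul_smul, e, gsmul_smul]
  have x1 : (x : G F) • e1 = μ • e1 := by
    have q1 := cm w h4 _ hμ
    have q2 := cm z h8 _ q1
    generalize (w : G F) • e0 = y at *
    have e : (z : G F) • y = y + (d * y 2 + c * y 3 + h * y 4) • e0 + (k * y 4) • e1 := by
      rw [act hz]; ext i; fin_cases i <;> simp [e0, e1, add_assoc, vecHead, vecTail]
    rw [e, smul_add, smul_add, gsmul_smul, gsmul_smul, q1, hμ, smul_add, smul_add, smul_comm μ, add_right_inj,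
      smul_comm μ] at q2
    exact smul_right_injective _ (mul_ne_zero hk u4) q2
  obtain ⟨a', _, _, _, _, _, _, _, hs, -⟩ := hU.form s h9
  have s1 : (s : G F) • e1 = e1 + a' • e0 := by rw [act hs]; ext i; fin_cases i <;> simp [e0, e1]
  have e : ((⁅x, s⁆ : P) : G F) • (s : G F) • (x : G F) • e1 = (x : G F) • (s : G F) • e1 := by
    simp [commutatorElement_def, mul_smul]
  rw [x1, gsmul_smul, s1, smul_add, smul_add, smul_add, gsmul_smul, gsmul_smul, gsmul_smul, gsmul_smul, fx _ cS, x1, hμ,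
    smul_comm μ a', add_left_inj, act hc] at e
  have r := congrFun e 0
  simp [e1, ha] at r
  rw [r, zero_smul, smul_eq_zero_iff_eq] at hμ
  simpa [e0] using congrFun hμ 0

end CL.Low5
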