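/-
Project LOW5: Scott's inequality excludes `(2, 7, 7)`-generated groups; the data for `L₂(7)` and `A₇`.
-/
import Cfsg.Agent.Low5.Defs2
import Cfsg.Agent.Chev.AltSec6
import Cfsg.Agent.Known.GLSim3

set_option autoImplicit false

namespace CL.Low5

open Matrix Cfsg Cfsg.Geo CL.Asch CL.SLn CL.Low Module
open scoped commutatorElement

universe u

namespace Scott

section Lin

variable {K V H : Type*} [Field K] [AddCommGroup V] [Module K V] [FiniteDimensional K V] [Group H]

theorem lin (X Y : End K V) (hd : ∀ v, X v = v → X (Y v) = v → v = 0)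
    (hS : LinearMap.range (X - 1) ⊔ LinearMap.range (Y - 1) = ⊤) :
    2 * finrank K V ≤ finrank K (LinearMap.range (X - 1)) + finrank K (LinearMap.range (Y - 1)) +
      finrank K (LinearMap.range (X * Y - 1)) := by
  set R := LinearMap.range (X - 1)
  set W := (LinearMap.range (Y - 1)).map X
  have h1 := Submodule.finrank_sup_add_finrank_inf_eq R W
  have h3 : finrank K (LinearMap.ker (X * Y - 1)) ≤ finrank K (R ⊓ W : Submodule K V) :=
    LinearMap.finrank_le_finrank_of_injective (f := (X - 1).restrict (p := LinearMap.ker (X * Y - 1)) (q := R ⊓ W)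
      fun v hv => ⟨⟨v, rfl⟩, _, ⟨-v, rfl⟩, by
        change X (Y (-v) - -v) = X v - v
        rw [map_neg, map_sub, map_neg, map_neg, show X (Y v) = v from sub_eq_zero.1 hv]
        abel⟩) ((injective_iff_map_eq_zero _).2 fun v h => Subtype.ext
          (hd v (sub_eq_zero.1 (congrArg Subtype.val h)) (sub_eq_zero.1 v.2)))
  have h5 : finrank K W ≤ finrank K (LinearMap.range (Y - 1)) := Submodule.finrank_map_le _ _
  have h6 := LinearMap.finrank_range_add_finrank_ker (X * Y - 1)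
  have h9 : R ⊔ W = ⊤ := top_le_iff.1 (hS ▸ sup_le le_sup_left (by
    rintro _ ⟨v, rfl⟩
    refine Submodule.mem_sup.2 ⟨_, ⟨-(Y - 1) v, rfl⟩, _, ⟨_, ⟨v, rfl⟩, rfl⟩, ?_⟩
    simp; abel))
  rw [h9, finrank_top] at h1
  omega

theorem grp (ρ : H →* End K V) {x z : H} (gen : Subgroup.closure {x, z} = ⊤)
    (irr : ∀ W : Submodule K V, (∀ g, ∀ w ∈ W, ρ g w ∈ W) → W = ⊥ ∨ W = ⊤) (nt : ¬ ∀ g v, ρ g v = v) :
    2 * finrank K V ≤ finrank K (LinearMap.range (ρ x - 1)) + finrank K (LinearMap.range (ρ z - 1)) +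
      finrank K (LinearMap.range (ρ (x * z) - 1)) := by
  have mul : ∀ g h v, ρ (g * h) v = ρ g (ρ h v) := fun g h v => by rw [map_mul, End.mul_apply]
  rw [map_mul]
  refine lin _ _ (fun v h1 h2 => ?_) ?_
  · have h3 : ∀ w, ρ x w = w → ρ z w = w → ∀ g, ρ g w = w := fun w a b g => by
      refine Subgroup.closure_induction (p := fun g _ => ρ g w = w) (by rintro _ (rfl | rfl) <;> assumption) (by simp)
        (fun g k _ _ hg hk => by rw [mul, hk, hg]) (fun g _ hg => ?_) (gen ▸ Subgroup.mem_top g)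
      rw [← hg, ← mul, inv_mul_cancel, hg, map_one, End.one_apply]
    have h4 : ρ z v = v := by
      have := congrArg (ρ x⁻¹) (h2.trans h1.symm)
      rwa [← mul x⁻¹, ← mul x⁻¹, inv_mul_cancel, map_one, End.one_apply, End.one_apply] at this
    rcases irr (LinearMap.ker (ρ x - 1) ⊓ LinearMap.ker (ρ z - 1)) fun g w hw => by
      rwa [h3 w (sub_eq_zero.1 hw.1) (sub_eq_zero.1 hw.2)] with e | e
    · exact (Submodule.mem_bot K).1 (e ▸ ⟨sub_eq_zero.2 h1, sub_eq_zero.2 h4⟩)
    · exact (nt fun g w => h3 w (sub_eq_zero.1 (e.ge (Submodule.mem_top (x := w))).1)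
        (sub_eq_zero.1 (e.ge (Submodule.mem_top (x := w))).2) g).elim
  · set U := LinearMap.range (ρ x - 1) ⊔ LinearMap.range (ρ z - 1)
    have h3 : ∀ g v, ρ g v - v ∈ U := fun g => by
      refine Subgroup.closure_induction (p := fun g _ => ∀ v, ρ g v - v ∈ U) (fun k hk v => ?_) (by simp)
        (fun g k _ _ hg hk v => ?_) (fun g _ hg v => ?_) (gen ▸ Subgroup.mem_top g)
      · rcases hk with rfl | rfl
        exacts [Submodule.mem_sup_left ⟨v, rfl⟩, Submodule.mem_sup_right ⟨v, rfl⟩]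
      · simpa [mul] using U.add_mem (hg (ρ k v)) (hk v)
      · simpa [← mul] using U.neg_mem (hg (ρ g⁻¹ v))
    exact (irr U fun g w hw => by simpa using U.add_mem (h3 g w) hw).resolve_left fun e =>
      nt fun g v => sub_eq_zero.1 ((Submodule.mem_bot K).1 (e ▸ h3 g v))

theorem fix [IsAlgClosed K] (h5 : finrank K V = 5) (h7 : (7 : K) ≠ 0) (ρ : H →* End K V) {g : H} (hg : g ^ 7 = 1)
    (hc : IsConj g (g ^ 2)) : finrank K (LinearMap.range (ρ g - 1)) ≤ 3 := by
  classical
  obtain ⟨h, hc⟩ := isConj_iff.1 hc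
  obtain ⟨b, μ, hb, hμ⟩ := CL.Char.exists_eigenbasis_of_pow_eq_one (ρ g) (m := 7) h7 (by rw [← map_pow, hg, map_one])
  have : NeZero ((7 : ℕ) : K) := ⟨h7⟩
  obtain ⟨ω, hω⟩ := HasEnoughRootsOfUnity.exists_primitiveRoot K 7
  have h1 : ∀ ν : K, finrank K ((ρ g).eigenspace ν) ≤ finrank K ((ρ g).eigenspace (ν ^ 2)) := fun ν =>
    LinearMap.finrank_le_finrank_of_injective (f := (ρ h⁻¹).restrict fun v hv => End.mem_eigenspace_iff.2 (by
      rw [← End.mul_apply, ← map_mul, show g * h⁻¹ = h⁻¹ * g ^ 2 by rw [← hc]; group, map_mul, End.mul_apply, map_pow,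
        CL.Char.pow_apply_of_eigen _ (End.mem_eigenspace_iff.1 hv), map_smul]))
      fun v w e => Subtype.ext (by
        have := congrArg (ρ h) (congrArg Subtype.val e)
        simpa [← End.mul_apply, ← map_mul] using this)
  have h2 : ∑ k ∈ Finset.range 7, finrank K ((ρ g).eigenspace (ω ^ k)) = 5 := by
    simp only [CL.AltEx.finrank_eigenspace_of_basis b hb]
    rw [← Finset.sum_image (g := fun k => ω ^ k) (f := fun c => (Finset.univ.filter fun i => μ i = c).card)
      fun i hi j hj => hω.pow_inj (Finset.mem_range.1 hi) (Finset.mem_range.1 hj)]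
    refine (Finset.card_eq_sum_card_fiberwise (f := μ) fun i _ => ?_).symm.trans (by simp [h5])
    obtain ⟨k, h1, h2⟩ := hω.eq_pow_of_pow_eq_one (hμ i)
    exact Finset.mem_coe.2 (Finset.mem_image.2 ⟨k, Finset.mem_range.2 h1, h2⟩)
  have h3 : ∀ a b : ℕ, a * 2 % 7 = b → finrank K ((ρ g).eigenspace (ω ^ a)) ≤ finrank K ((ρ g).eigenspace (ω ^ b)) :=
    fun a b e => by rw [← e, hω.eq_orderOf, pow_mod_orderOf, pow_mul]; exact h1 _
  have h4 := LinearMap.finrank_range_add_finrank_ker (ρ g - 1)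
  rw [show LinearMap.ker (ρ g - 1) = (ρ g).eigenspace (ω ^ 0) by rw [End.eigenspace_def, pow_zero, one_smul]] at h4
  simp only [Finset.sum_range_succ, Finset.sum_range_zero] at h2
  have := h3 1 2 rfl; have := h3 2 4 rfl; have := h3 4 1 rfl
  have := h3 3 6 rfl; have := h3 6 5 rfl; have := h3 5 3 rfl
  omega

end Lin

theorem map {H H' : Type*} [Group H] [Group H'] (f : H →* H') (hf : Function.Surjective f) {x z : H}
    (h1 : f (x * x) = 1) (h2 : z ^ 7 = 1) (h3 : (x * z) ^ 7 = 1) (h4 : IsConj z (z ^ 2))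
    (h5 : IsConj (x * z) ((x * z) ^ 2)) (h6 : Subgroup.closure {x, z} = ⊤) :
    ∃ x z : H', x * x = 1 ∧ z ^ 7 = 1 ∧ (x * z) ^ 7 = 1 ∧ IsConj z (z ^ 2) ∧ IsConj (x * z) ((x * z) ^ 2) ∧
      Subgroup.closure {x, z} = ⊤ :=
  ⟨f x, f z, by rw [← map_mul, h1], by rw [← map_pow, h2, map_one], by rw [← map_mul, ← map_pow, h3, map_one],
    by simpa using f.map_isConj h4, by simpa using f.map_isConj h5,
    by rw [← Set.image_pair, ← MonoidHom.map_closure, h6, Subgroup.map_top_of_surjective f hf]⟩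

/-- The action on the vectors over an extension field. -/
noncomputable def rep {F K : Type*} [Field F] [Field K] (φ : F →+* K) (P : Subgroup (GL (Fin 5) F)) :
    P →* End K (Fin 5 → K) :=
  (toLinAlgEquiv' (R := K) (n := Fin 5)).toMonoidHom.comp
    ((φ.mapMatrix : Matrix _ _ F →+* Matrix _ _ K).toMonoidHom.comp ((Units.coeHom _).comp P.subtype))

theorem rank_rep {F K : Type*} [Field F] [Field K] (φ : F →+* K) {P : Subgroup (GL (Fin 5) F)} (g : P) :
    finrank K (LinearMap.range (rep φ P g - 1)) = (((g : GL (Fin 5) F) : Matrix (Fin 5) (Fin 5) F) - 1).rank := by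
  rw [← CL.GLn.rank_map_ringHom φ, ← RingHom.mapMatrix_apply, map_sub, map_one, Matrix.rank, ← toLin'_apply',
    map_sub, toLin'_one]
  rfl

open Equiv Equiv.Perm

def x7 : alternatingGroup (Fin 7) := ⟨swap 0 2 * swap 1 3, mem_alternatingGroup.2 (by decide +kernel)⟩
def z7 : alternatingGroup (Fin 7) := ⟨finRotate 7, mem_alternatingGroup.2 (by decide +kernel)⟩

theorem gen7 : Subgroup.closure {x7, z7} = ⊤ := by
  set H := (Subgroup.closure {x7, z7}).map (alternatingGroup (Fin 7)).subtype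
  have hx : x7 ∈ Subgroup.closure {x7, z7} := Subgroup.subset_closure (by simp)
  have hz : z7 ∈ Subgroup.closure {x7, z7} := Subgroup.subset_closure (by simp)
  have : MulAction.IsPretransitive H (Fin 7) := ⟨fun a b => by
    obtain ⟨n, e⟩ := (by decide +kernel : ∀ a b : Fin 7, ∃ n : Fin 7, (finRotate 7 ^ (n : ℕ)) a = b) a b
    exact ⟨⟨_, z7 ^ (n : ℕ), pow_mem hz _, rfl⟩, e⟩⟩
  rw [eq_top_iff, ← Subgroup.map_subtype_le_map_subtype, ← MonoidHom.range_eq_map, Subgroup.range_subtype]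
  exact alternatingGroup_le_of_isPreprimitive_of_isThreeCycle_mem (g := ↑(x7 * z7 * x7 * z7⁻¹))
    (MulAction.IsPreprimitive.of_prime_card (by simp; norm_num)) (card_support_eq_three_iff.1 (by decide +kernel))
    ⟨_, mul_mem (mul_mem (mul_mem hx hz) hx) (inv_mem hz), rfl⟩

theorem real7 (g : alternatingGroup (Fin 7)) : g ^ 7 = 1 ∨ IsConj g g⁻¹ := by
  by_cases h : Subgroup.centralizer {(g : Perm (Fin 7))} ≤ alternatingGroup (Fin 7)
  · obtain ⟨h1, h2, h3⟩ := centralizer_le_alternating_iff.1 h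
    refine .inl (Subtype.ext (orderOf_dvd_iff_pow_eq_one.1 (show orderOf (g : Perm (Fin 7)) ∣ 7 from ?_)))
    rw [← lcm_cycleType, Multiset.lcm_dvd]
    intro i hi
    have h4 := sum_cycleType_le (g : Perm (Fin 7))
    have h5 : ∀ j ∈ (g : Perm (Fin 7)).cycleType, 2 ≤ j := fun j => two_le_of_mem_cycleType
    rw [← Multiset.nodup_iff_count_le_one] at h3
    obtain ⟨m, e⟩ := Multiset.exists_cons_of_mem hi
    rw [e] at h1 h2 h3 h4 h5
    simp only [Multiset.mem_cons, forall_eq_or_imp, Multiset.sum_cons, Fintype.card_fin, Multiset.nodup_cons,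
      Nat.odd_iff] at h1 h2 h3 h4 h5
    rcases m.empty_or_exists_mem with rfl | ⟨j, hj⟩
    · rw [Multiset.sum_zero] at h2 h4
      exact (show i = 7 by omega) ▸ dvd_rfl
    · have := Multiset.le_sum_of_mem hj
      have := h1.2 j hj
      have := h5.2 j hj
      have : i ≠ j := fun e => h3.1 (e ▸ hj)
      omega
  · obtain ⟨c, h1, h2⟩ := SetLike.not_le_iff_exists.1 h
    obtain ⟨π, hπ⟩ := isConj_iff.1 (isConj_iff_cycleType_eq.2 (cycleType_inv (g : Perm (Fin 7))).symm)
    replace h2 : sign c = -1 := Int.units_ne_iff_eq_neg.1 h2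
    rcases Int.units_eq_one_or (sign π) with e | e
    · exact .inr (isConj_iff.2 ⟨⟨π, mem_alternatingGroup.2 e⟩, Subtype.ext hπ⟩)
    · refine .inr (isConj_iff.2 ⟨⟨π * c, mem_alternatingGroup.2 (by rw [map_mul, e, h2]; rfl)⟩, Subtype.ext ?_⟩)
      change π * c * g * (π * c)⁻¹ = (g : Perm (Fin 7))⁻¹
      rw [← hπ, mul_assoc π, Subgroup.mem_centralizer_singleton_iff.1 h1]
      group

instance : Fact (Nat.Prime 7) := ⟨by norm_num⟩

def x2 : SpecialLinearGroup (Fin 2) (ZMod 7) := ⟨!![0, 3; 2, 0], by decide +kernel⟩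
def z2 : SpecialLinearGroup (Fin 2) (ZMod 7) := ⟨!![1, 1; 0, 1], by decide +kernel⟩

theorem gen2 : Subgroup.closure {x2, z2} = ⊤ := eq_top_of_transvection_mem _ fun i j hij c => by
  have hx : x2 ∈ Subgroup.closure {x2, z2} := Subgroup.subset_closure (by simp)
  have hz : z2 ∈ Subgroup.closure {x2, z2} := Subgroup.subset_closure (by simp)
  obtain ⟨n, e | e⟩ := (by decide +kernel : ∀ (i j : Fin 2) (hij : i ≠ j) (c : ZMod 7), ∃ n : Fin 7,
    SpecialLinearGroup.transvection hij c = z2 ^ (n : ℕ) ∨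
      SpecialLinearGroup.transvection hij c = x2 * z2 ^ (n : ℕ) * x2 ^ 3) i j hij c <;> rw [e]
  exacts [pow_mem hz _, mul_mem (mul_mem hx (pow_mem hz _)) (pow_mem hx _)]

end Scott

open CL.Low5.Scott

theorem subScott : SubScott.{u} := by
  rintro F _ _ P h h7 h2 hZ ⟨x, z, a1, a2, a3, a4, a5, a6⟩
  obtain ⟨x, z, a1, a2, a3, a4, a5, a6⟩ := Scott.map hZ.equiv.symm.toMonoidHom hZ.equiv.symm.surjective
    (by rw [a1, map_one]) a2 a3 a4 a5 a6
  have h1 := grp (rep (RingHom.id F) P) a6 (fun W hW => irr_iff.1 h.irr W fun g hg => hW ⟨g, hg⟩) fun e =>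
    h.nonabelian ⟨⟨fun a b => by
      have : ∀ g : P, g = 1 := fun g => Subtype.ext (gext fun y => (e g y).trans (one_smul _ y).symm)
      obtain ⟨a, rfl⟩ := hZ.equiv.surjective a
      rw [this a, map_one, one_mul, mul_one]⟩⟩
  have h3 : ∀ g : P, g ^ 7 = 1 → IsConj g (g ^ 2) → finrank F (LinearMap.range (rep (RingHom.id F) P g - 1)) ≤ 3 :=
    fun g b1 b2 => by
      rw [rank_rep, ← rank_rep (algebraMap F (AlgebraicClosure F))]
      exact fix (by simp) (by rw [← map_ofNat (algebraMap F _)]; exact (map_ne_zero _).2 h7) _ b1 b2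
  have h4 := h2 x x.2 (congrArg Subtype.val a1)
  rw [← rank_rep (RingHom.id F)] at h4
  have := h3 _ a2 a4
  have := h3 _ a3 a5
  rw [finrank_fin_fun] at h1
  omega

theorem data277 : Data277 := by
  refine ⟨fun K _ _ hK => ?_, ⟨x7, z7, by decide +kernel, by decide +kernel, by decide +kernel,
    isConj_iff.2 ⟨⟨c[1, 2, 4] * c[3, 6, 5], Equiv.Perm.mem_alternatingGroup.2 (by decide +kernel)⟩, by decide +kernel⟩,
    isConj_iff.2 ⟨⟨c[1, 2, 5] * c[3, 4, 6], Equiv.Perm.mem_alternatingGroup.2 (by decide +kernel)⟩, by decide +kernel⟩, gen7⟩, real7⟩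
  let e := ZMod.ringEquivOfPrime K (by norm_num) hK
  refine Scott.map ((QuotientGroup.mk' _).comp (SpecialLinearGroup.map e.toRingHom))
    ((QuotientGroup.mk'_surjective _).comp fun A => ⟨SpecialLinearGroup.map e.symm.toRingHom A, by ext; simp⟩)
    (x := x2) (z := z2) ((QuotientGroup.eq_one_iff _).2 ?_) (by decide +kernel) (by decide +kernel)
    (isConj_iff.2 ⟨⟨!![3, 0; 0, 5], by decide +kernel⟩, by decide +kernel⟩)
    (isConj_iff.2 ⟨⟨!![0, 2; 3, 1], by decide +kernel⟩, by decide +kernel⟩) gen2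
  rw [show x2 * x2 = -1 by decide +kernel, show SpecialLinearGroup.map e.toRingHom (-1) = -1 by ext; simp [one_apply, apply_ite e]]
  exact Subgroup.mem_center_iff.2 fun g => by simp

end CL.Low5
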