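/-
Project LOW5: the Heisenberg data in cross characteristic (`SubHDc`), and the data for `L₃(q)` (`DataHL`).
-/
import Cfsg.Agent.Low5.Defs2

set_option autoImplicit false

namespace CL.Low5

open Matrix Cfsg Cfsg.Geo CL.Asch CL.SLn CL.Low Module
open scoped commutatorElement

universe u

namespace HDc

section Group

variable {H : Type*} [Group H] {Z : Subgroup H} [Z.Normal]

theorem exists_central (hZ : Z ≤ Subgroup.center H) {a a' : H} (ha : (a : H ⧸ Z) = a') :
    ∃ c ∈ Z, a' = a * c ∧ ∀ g, g * c = c * g :=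
  ⟨a⁻¹ * a', QuotientGroup.eq.1 ha, by group, fun g => Subgroup.mem_center_iff.1 (hZ (QuotientGroup.eq.1 ha)) g⟩

theorem comm_congr (hZ : Z ≤ Subgroup.center H) {a a' b b' : H} (ha : (a : H ⧸ Z) = a') (hb : (b : H ⧸ Z) = b') :
    ⁅a, b⁆ = ⁅a', b'⁆ := by
  obtain ⟨c, -, rfl, hc⟩ := exists_central hZ ha
  obtain ⟨d, -, rfl, hd⟩ := exists_central hZ hb
  have h1 : ∀ g : H, c * g * c⁻¹ = g := fun g => by rw [← hc, mul_inv_cancel_right]
  have h2 : ∀ g : H, d * g * d⁻¹ = g := fun g => by rw [← hd, mul_inv_cancel_right]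
  calc ⁅a, b⁆ = a * (b * (d * a⁻¹ * d⁻¹)) * b⁻¹ := by rw [h2, commutatorElement_def]; group
    _ = a * (c * (b * d) * c⁻¹) * a⁻¹ * d⁻¹ * b⁻¹ := by rw [h1]; group
    _ = _ := by rw [commutatorElement_def]; group

theorem comm_inv_inv {K : Type*} [Group K] {x y z : K} (hz : z = ⁅x, y⁆) (hx : Commute z x) (hy : Commute z y) :
    ⁅x⁻¹, y⁻¹⁆ = z := by
  have h1 : ⁅x⁻¹, y⁻¹⁆ = (y * x)⁻¹ * z * (y * x) := by rw [hz, commutatorElement_def, commutatorElement_def]; group
  rw [h1, mul_assoc, (hy.mul_right hx).eq, inv_mul_cancel_left]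

theorem pow_mul_eq {K : Type*} [Group K] {x y z : K} (hz : z = ⁅x, y⁆) (hx : Commute z x) (n : ℕ) :
    x ^ n * y = z ^ n * y * x ^ n := by
  induction n with
  | zero => simp
  | succ n ih =>
    have h1 : x * y = z * y * x := by rw [hz, commutatorElement_def]; group
    calc x ^ (n + 1) * y = x * (x ^ n * y) := by rw [pow_succ', mul_assoc]
      _ = z ^ n * (x * y) * x ^ n := by
        rw [ih, ← mul_assoc, ← mul_assoc, ← (hx.pow_left n).eq, mul_assoc (z ^ n)]
      _ = _ := by rw [h1, pow_succ, pow_succ']; group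

theorem commute_lift [Finite H] (hZ : Z ≤ Subgroup.center H) (h2 : (Nat.card Z).Coprime 2) {x z t : H}
    (hx : Commute (z : H ⧸ Z) x) (htz : (t : H ⧸ Z) * z * (t : H ⧸ Z)⁻¹ = z)
    (htx : (t : H ⧸ Z) * x * (t : H ⧸ Z)⁻¹ = (x : H ⧸ Z)⁻¹) : Commute z x := by
  have hc : ⁅z, x⁆ ∈ Z := by
    rw [← QuotientGroup.eq_one_iff]
    exact (map_commutatorElement (QuotientGroup.mk' Z) z x).trans (commutatorElement_eq_one_iff_commute.2 hx)
  have hcc := fun g => Subgroup.mem_center_iff.1 (hZ hc) g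
  have e1 : t * ⁅z, x⁆ * t⁻¹ = ⁅z, x⁻¹⁆ := by
    rw [conjugate_commutatorElement]
    exact comm_congr hZ htz htx
  have e2 : ⁅z, x⁻¹⁆ = x⁻¹ * ⁅z, x⁆⁻¹ * x := by simp only [commutatorElement_def]; group
  rw [hcc, mul_inv_cancel_right, e2, Subgroup.mem_center_iff.1 (hZ (Z.inv_mem hc)), inv_mul_cancel_right] at e1
  exact commutatorElement_eq_one_iff_commute.1
    (eq_one_of_pow_of_coprime h2 hc (by rw [pow_two]; exact mul_eq_one_iff_eq_inv.2 e1))

/-- The Heisenberg relations lift to a central extension by a group of odd order. -/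
theorem heis_lift [Finite H] (hZ : Z ≤ Subgroup.center H) (h2 : (Nat.card Z).Coprime 2) {x y t : H} {r : ℕ}
    (hx : Commute ⁅(x : H ⧸ Z), (y : H ⧸ Z)⁆ x) (hy : Commute ⁅(x : H ⧸ Z), (y : H ⧸ Z)⁆ y)
    (htx : (t : H ⧸ Z) * x * (t : H ⧸ Z)⁻¹ = (x : H ⧸ Z)⁻¹) (hty : (t : H ⧸ Z) * y * (t : H ⧸ Z)⁻¹ = (y : H ⧸ Z)⁻¹)
    (hr : (x : H ⧸ Z) ^ r = 1) : Commute ⁅x, y⁆ x ∧ Commute ⁅x, y⁆ y ∧ ⁅x, y⁆ ^ r = 1 := by
  have e : ((⁅x, y⁆ : H) : H ⧸ Z) = ⁅(x : H ⧸ Z), (y : H ⧸ Z)⁆ := map_commutatorElement (QuotientGroup.mk' Z) x y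
  have htz : (t : H ⧸ Z) * (⁅x, y⁆ : H) * (t : H ⧸ Z)⁻¹ = (⁅x, y⁆ : H) := by
    rw [e, conjugate_commutatorElement, htx, hty, comm_inv_inv rfl hx hy]
  have h3 := commute_lift hZ h2 (e ▸ hx) htz htx
  refine ⟨h3, commute_lift hZ h2 (e ▸ hy) htz hty, ?_⟩
  have h4 := pow_mul_eq rfl h3 r
  have h5 : x ^ r ∈ Z := by rwa [← QuotientGroup.eq_one_iff]
  rw [← Subgroup.mem_center_iff.1 (hZ h5) y, mul_assoc] at h4
  exact (mul_eq_right.1 h4.symm)

end Group

section Lin

variable {K W H : Type*} [Field K] [AddCommGroup W] [Module K W] [FiniteDimensional K W] [Group H]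

theorem pow_finrank (ρ : H →* End K W) {x y z : H} (hz : z = ⁅x, y⁆) (hx : Commute z x) (hy : Commute z y)
    (μ : K) : μ ^ finrank K ((ρ z).eigenspace μ) = 1 := by
  set E := (ρ z).eigenspace μ with hE
  have hm : ∀ g : H, Commute z g → ∀ v ∈ E, ρ g v ∈ E := fun g hg v hv => by
    rw [hE, End.mem_eigenspace_iff] at hv ⊢
    rw [← End.mul_apply, ← map_mul, hg.eq, map_mul, End.mul_apply, hv, map_smul]
  have hdet : ∀ (g : H) (hg : Commute z g), LinearMap.det ((ρ g).restrict (hm g hg)) ≠ 0 := fun g hg => by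
    have : (ρ g).restrict (hm g hg) * (ρ g⁻¹).restrict (hm _ hg.inv_right) = 1 := by
      refine LinearMap.ext fun v => Subtype.ext ?_
      show ρ g (ρ g⁻¹ v) = v
      rw [← End.mul_apply, ← map_mul, mul_inv_cancel, map_one, End.one_apply]
    exact left_ne_zero_of_mul_eq_one (by rw [← map_mul, this, map_one])
  have h1 : (ρ x).restrict (hm x hx) * (ρ y).restrict (hm y hy) =
      μ • ((ρ y).restrict (hm y hy) * (ρ x).restrict (hm x hx)) := by
    refine LinearMap.ext fun v => Subtype.ext ?_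
    have h2 : x * y = z * (y * x) := by rw [hz, commutatorElement_def]; group
    have h3 := End.mem_eigenspace_iff.1 (hm _ (hy.mul_right hx) v v.2)
    show ρ x (ρ y v) = μ • ρ y (ρ x v)
    rw [← End.mul_apply, ← map_mul, h2, map_mul, End.mul_apply, h3, map_mul, End.mul_apply]
  have h2 := congrArg LinearMap.det h1
  rw [LinearMap.det_smul, map_mul, map_mul, mul_comm] at h2
  exact (mul_eq_right₀ (mul_ne_zero (hdet y hy) (hdet x hx))).1 h2.symm

end Lin

end HDc

open HDc in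
theorem subHDc : SubHDc.{u} := by
  rintro F _ _ P r hr hr2 hF h ⟨S, x, y, z, z', t, n, g, -, -, -, hxr, -, rfl, hz1, hzx, hzy, -, -, htx, hty, -, -, -, -,
    -, hg⟩
  classical
  have hZ := scalars_subgroupOf_le_center P
  obtain ⟨x, rfl⟩ := QuotientGroup.mk_surjective x
  obtain ⟨y, rfl⟩ := QuotientGroup.mk_surjective y
  obtain ⟨t, rfl⟩ := QuotientGroup.mk_surjective t
  obtain ⟨g, rfl⟩ := QuotientGroup.mk_surjective g
  obtain ⟨hx, hy, hz⟩ := heis_lift hZ (QS.coprime h (by norm_num)) hzx hzy htx hty hxr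
  have e : ((⁅x, y⁆ : P) : PQ P) = ⁅(x : PQ P), (y : PQ P)⁆ := map_commutatorElement (QuotientGroup.mk' _) x y
  rw [← e] at hz1 hg
  set z : P := ⁅x, y⁆ with hzdef
  let K := AlgebraicClosure F
  let ρ : P →* End K (Fin 5 → K) := (extRep (Fin 5) F K).comp P.subtype
  have hρ : Function.Injective ρ := (extRep_injective K).comp Subtype.val_injective
  have hK : (r : K) ≠ 0 := by rw [← map_natCast (algebraMap F K)]; exact (map_ne_zero _).mpr hF
  obtain ⟨b, μ, hb, hμ⟩ := CL.Char.exists_eigenbasis_of_pow_eq_one (ρ z) hK (by rw [← map_pow, hz, map_one])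
  obtain ⟨j, hj⟩ : ∃ j, μ j ≠ 1 := by
    by_contra hn
    push Not at hn
    have h2 : ρ z = ρ 1 := by
      rw [map_one]
      exact b.ext fun i => by rw [hb, hn, one_smul, End.one_apply]
    exact hz1 (by rw [hρ h2, QuotientGroup.mk_one])
  haveI := Fact.mk hr
  have hdim : ∀ (ν : K) (v : Fin 5 → K), ν ^ r = 1 → ν ≠ 1 → v ≠ 0 → ρ z v = ν • v →
      r ≤ finrank K ((ρ z).eigenspace ν) := fun ν v h1 h2 hv hv' => by
    refine Nat.le_of_dvd (Nat.pos_of_ne_zero fun h0 => hv ?_) ?_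
    · have := End.mem_eigenspace_iff.2 hv'
      rwa [Submodule.finrank_eq_zero.1 h0, Submodule.mem_bot] at this
    · rw [← orderOf_eq_prime h1 h2]
      exact orderOf_dvd_of_pow_eq_one (pow_finrank ρ hzdef hx hy ν)
  have h1 := hdim _ _ (hμ j) hj (b.ne_zero j) (hb j)
  have h5 : finrank K (Fin 5 → K) = 5 := by simp
  by_cases h3 : r = 3
  · subst h3
    have h0 : μ j ≠ 0 := fun h0 => by simpa [h0] using hμ j
    have hg' : g * z * g⁻¹ = z⁻¹ :=
      lift_unique hZ (QS.coprime h (r := 3) (by norm_num)) hg (by rw [conj_pow, hz, mul_one, mul_inv_cancel])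
        (by rw [inv_pow, hz, inv_one])
    have h4 : ρ z⁻¹ (b j) = (μ j)⁻¹ • b j := by
      have := congrArg (ρ z⁻¹) (hb j)
      rw [← End.mul_apply, ← map_mul, inv_mul_cancel, map_one, End.one_apply, map_smul] at this
      rw [eq_inv_smul_iff₀ h0, ← this]
    have h2 := hdim (μ j)⁻¹ (ρ g⁻¹ (b j)) (by rw [inv_pow, hμ, inv_one]) (by simpa using hj) (fun e0 => b.ne_zero j (by
      have := congrArg (ρ g) e0
      rwa [← End.mul_apply, ← map_mul, mul_inv_cancel, map_one, End.one_apply, map_zero] at this)) (by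
      rw [← End.mul_apply, ← map_mul, show z * g⁻¹ = g⁻¹ * z⁻¹ by rw [← hg']; group, map_mul, End.mul_apply, h4,
        map_smul])
    have hne : μ j ≠ (μ j)⁻¹ := fun e0 => hj (by
      have := hμ j
      rwa [pow_succ, pow_two, mul_eq_one_iff_eq_inv₀ h0 |>.2 e0, one_mul] at this)
    have := Submodule.finrank_add_finrank_le_of_disjoint (End.disjoint_genEigenspace (ρ z) hne 1 1)
    change finrank K ((ρ z).eigenspace _) + finrank K ((ρ z).eigenspace _) ≤ _ at this
    omega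
  · have h4 : 5 ≤ r := hr.five_le_of_ne_two_of_ne_three hr2 h3
    have htop : (ρ z).eigenspace (μ j) = ⊤ :=
      Submodule.eq_top_of_finrank_eq (le_antisymm (Submodule.finrank_le _) (by omega))
    have hs : ∀ v, ρ z v = μ j • v := fun v => End.mem_eigenspace_iff.1 (htop ▸ Submodule.mem_top)
    refine hz1 (mk_eq_one_iff.2 (mem_scalars_of_comm_span h.span fun l hl => ?_))
    have : (⟨l, hl⟩ : P) * z = z * ⟨l, hl⟩ := hρ (LinearMap.ext fun v => by
      rw [map_mul, map_mul, End.mul_apply, End.mul_apply, hs, hs, map_smul])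
    exact congrArg Subtype.val this

namespace HDc

theorem hd_quot {H : Type u} [Group H] (N : Subgroup H) [N.Normal] {r : ℕ} {S : Subgroup H} {x y z z' t n h : H}
    (h1 : IsPGroup r S) (h2 : x ∈ S) (h3 : y ∈ S) (h4 : x ^ r = 1) (h5 : y ^ r = 1) (h6 : z = ⁅x, y⁆) (h7 : z ∉ N)
    (h8 : Commute z x) (h9 : Commute z y) (h10 : t * t = 1) (h11 : t ∉ N) (h12 : t * x * t⁻¹ = x⁻¹)
    (h13 : t * y * t⁻¹ = y⁻¹) (h14 : ∀ s ∈ S, t * s * t⁻¹ ∈ S) (h15 : n = z * z' * z) (h16 : n * z * n⁻¹ = z')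
    (h17 : n * n = t) (h18 : Subgroup.closure (insert n (S : Set H)) = ⊤) (h19 : h * z * h⁻¹ = z⁻¹) :
    HD (H ⧸ N) r := by
  let f := QuotientGroup.mk' N
  refine ⟨S.map f, f x, f y, f z, f z', f t, f n, f h, h1.map f, ⟨x, h2, rfl⟩, ⟨y, h3, rfl⟩,
    by rw [← map_pow, h4, map_one], by rw [← map_pow, h5, map_one], by rw [h6, map_commutatorElement],
    fun e => h7 ((QuotientGroup.eq_one_iff z).1 e), h8.map f, h9.map f, by rw [← map_mul, h10, map_one],
    fun e => h11 ((QuotientGroup.eq_one_iff t).1 e), congrArg f h12, congrArg f h13, ?_, congrArg f h15,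
    congrArg f h16, congrArg f h17, ?_, congrArg f h19⟩
  · rintro _ ⟨s, hs, rfl⟩
    exact ⟨_, h14 s hs, rfl⟩
  · rw [Subgroup.coe_map, ← Set.image_insert_eq, ← MonoidHom.map_closure, h18]
    exact Subgroup.map_top_of_surjective f (QuotientGroup.mk'_surjective N)

variable {K : Type} [Field K]

/-- An upper unitriangular matrix. -/
def ut (a b c : K) : SpecialLinearGroup (Fin 3) K := ⟨!![1, a, c; 0, 1, b; 0, 0, 1], by simp [det_fin_three]⟩

theorem ut_val (a b c : K) : (ut a b c : Matrix (Fin 3) (Fin 3) K) = !![1, a, c; 0, 1, b; 0, 0, 1] := rfl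

theorem ut_mul (a b c a' b' c' : K) : ut a b c * ut a' b' c' = ut (a + a') (b + b') (c + c' + a * b') := by
  ext i j
  fin_cases i <;> fin_cases j <;> simp [ut_val, Matrix.mul_apply, Fin.sum_univ_three] <;> ring

theorem ut_zero : ut (0 : K) 0 0 = 1 := by
  ext i j
  fin_cases i <;> fin_cases j <;> simp [ut_val]

theorem ut_inv (a b c : K) : (ut a b c)⁻¹ = ut (-a) (-b) (a * b - c) := by
  rw [inv_eq_iff_mul_eq_one, ut_mul, ← ut_zero]
  congr 1 <;> ring

theorem ut_pow (a b c : K) (n : ℕ) : ut a b c ^ n = ut (n * a) (n * b) (n * c + n.choose 2 * (a * b)) := by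
  induction n with
  | zero => simp [ut_zero]
  | succ n ih =>
    rw [pow_succ, ih, ut_mul, Nat.choose_succ_succ' n 1, Nat.choose_one_right]
    congr 1 <;> push_cast <;> ring

/-- The upper unitriangular group. -/
def UT (K : Type) [Field K] : Subgroup (SpecialLinearGroup (Fin 3) K) where
  carrier := {g | ∃ a b c, g = ut a b c}
  one_mem' := ⟨0, 0, 0, ut_zero.symm⟩
  mul_mem' := by
    rintro _ _ ⟨a, b, c, rfl⟩ ⟨a', b', c', rfl⟩
    exact ⟨_, _, _, ut_mul ..⟩
  inv_mem' := by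
    rintro _ ⟨a, b, c, rfl⟩
    exact ⟨_, _, _, ut_inv ..⟩

/-- The Weyl element. -/
def wn : SpecialLinearGroup (Fin 3) K := ⟨!![0, 0, 1; 0, 1, 0; -1, 0, 0], by simp [det_fin_three]⟩

/-- Its square. -/
def wt : SpecialLinearGroup (Fin 3) K := ⟨!![-1, 0, 0; 0, 1, 0; 0, 0, -1], by simp [det_fin_three]⟩

/-- An element inverting the centre of the unitriangular group. -/
def wh : SpecialLinearGroup (Fin 3) K := ⟨!![-1, 0, 0; 0, -1, 0; 0, 0, 1], by simp [det_fin_three]⟩

/-- The opposite root element. -/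
def wz : SpecialLinearGroup (Fin 3) K := ⟨!![1, 0, 0; 0, 1, 0; -1, 0, 1], by simp [det_fin_three]⟩

theorem wn_val : ((wn : SpecialLinearGroup (Fin 3) K) : Matrix (Fin 3) (Fin 3) K) = !![0, 0, 1; 0, 1, 0; -1, 0, 0] := rfl

theorem wt_val : ((wt : SpecialLinearGroup (Fin 3) K) : Matrix (Fin 3) (Fin 3) K) = !![-1, 0, 0; 0, 1, 0; 0, 0, -1] := rfl

theorem wh_val : ((wh : SpecialLinearGroup (Fin 3) K) : Matrix (Fin 3) (Fin 3) K) = !![-1, 0, 0; 0, -1, 0; 0, 0, 1] := rfl

theorem wz_val : ((wz : SpecialLinearGroup (Fin 3) K) : Matrix (Fin 3) (Fin 3) K) = !![1, 0, 0; 0, 1, 0; -1, 0, 1] := rfl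

theorem wt_conj (a b c : K) : wt * ut a b c * wt⁻¹ = ut (-a) (-b) c := by
  rw [mul_inv_eq_iff_eq_mul]
  ext i j
  fin_cases i <;> fin_cases j <;> simp [ut_val, wt_val, Matrix.mul_apply, Fin.sum_univ_three]

theorem closure_eq_top : Subgroup.closure (insert wn (UT K : Set (SpecialLinearGroup (Fin 3) K))) = ⊤ := by
  set C := Subgroup.closure (insert wn (UT K : Set (SpecialLinearGroup (Fin 3) K)))
  have hn : wn ∈ C := Subgroup.subset_closure (Set.mem_insert _ _)
  have hu : ∀ a b c : K, ut a b c ∈ C := fun a b c => Subgroup.subset_closure (Set.mem_insert_of_mem _ ⟨a, b, c, rfl⟩)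
  have h1 : ∀ {g : SpecialLinearGroup (Fin 3) K} (a b c : K), g.val = (ut a b c).val → g ∈ C := fun a b c e =>
    Subtype.ext e ▸ hu a b c
  have h2 : ∀ {g : SpecialLinearGroup (Fin 3) K} (a b c : K), g.val * wn.val = wn.val * (ut a b c).val → g ∈ C :=
    fun {g} a b c e => by
      rw [show g = wn * ut a b c * wn⁻¹ from eq_mul_inv_of_mul_eq (Subtype.ext e)]
      exact C.mul_mem (C.mul_mem hn (hu a b c)) (C.inv_mem hn)
  refine eq_top_of_transvection_mem C fun i j hij c => ?_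
  fin_cases i <;> fin_cases j <;> first | exact absurd rfl hij | skip
  · refine h1 c 0 0 ?_
    ext i j
    fin_cases i <;> fin_cases j <;> simp [ut_val, SpecialLinearGroup.transvection, Matrix.transvection]
  · refine h1 0 0 c ?_
    ext i j
    fin_cases i <;> fin_cases j <;> simp [ut_val, SpecialLinearGroup.transvection, Matrix.transvection]
  · refine h2 0 c 0 ?_
    ext i j
    fin_cases i <;> fin_cases j <;>
      simp [ut_val, wn_val, SpecialLinearGroup.transvection, Matrix.transvection, Matrix.mul_apply, Fin.sum_univ_three]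
  · refine h1 0 c 0 ?_
    ext i j
    fin_cases i <;> fin_cases j <;> simp [ut_val, SpecialLinearGroup.transvection, Matrix.transvection]
  · refine h2 0 0 (-c) ?_
    ext i j
    fin_cases i <;> fin_cases j <;>
      simp [ut_val, wn_val, SpecialLinearGroup.transvection, Matrix.transvection, Matrix.mul_apply, Fin.sum_univ_three]
  · refine h2 (-c) 0 0 ?_
    ext i j
    fin_cases i <;> fin_cases j <;>
      simp [ut_val, wn_val, SpecialLinearGroup.transvection, Matrix.transvection, Matrix.mul_apply, Fin.sum_univ_three]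

end HDc

open HDc in
theorem dataHL : DataHL := by
  intro K _ _ hK
  have hp : ((ringChar K : ℕ) : K) = 0 := ringChar.Nat.cast_ringChar
  have h2 : (2 : K) ≠ 0 := fun h => by
    have h3 : ringChar K ∣ 2 := (ringChar.spec K 2).1 (by exact_mod_cast h)
    have := FiniteField.even_card_of_char_two (F := K)
      ((Nat.prime_dvd_prime_iff_eq (CharP.char_is_prime K _) Nat.prime_two).1 h3)
    rw [Nat.odd_iff] at hK
    omega
  have hc : ∀ {g : SpecialLinearGroup (Fin 3) K}, g ∈ Subgroup.center _ → ∀ l : SpecialLinearGroup (Fin 3) K,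
      l.val * g.val = g.val * l.val := fun hg l => congrArg Subtype.val (Subgroup.mem_center_iff.1 hg l)
  refine hd_quot _ (S := UT K) (x := ut 1 0 0) (y := ut 0 1 0) (z := ut 0 0 1) (z' := wz) (t := wt) (n := wn)
    (h := wh) ?_ ⟨_, _, _, rfl⟩ ⟨_, _, _, rfl⟩ (by simp [ut_pow, ut_zero]) (by simp [ut_pow, ut_zero]) ?_ ?_ ?_ ?_ ?_ ?_
    (by simp [wt_conj, ut_inv]) (by simp [wt_conj, ut_inv]) ?_ ?_ ?_ ?_ closure_eq_top ?_
  · rintro ⟨_, a, b, c, rfl⟩
    refine ⟨2, Subtype.ext ?_⟩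
    show ut a b c ^ ringChar K ^ 2 = 1
    simp [pow_two, pow_mul, ut_pow, ut_zero]
  · simp [commutatorElement_def, ut_inv, ut_mul]
  · intro h
    simpa [ut_val, wn_val, Matrix.mul_apply, Fin.sum_univ_three] using congrFun (congrFun (hc h wn) 0) 0
  · simp [Commute, SemiconjBy, ut_mul]
  · simp [Commute, SemiconjBy, ut_mul]
  · ext i j
    fin_cases i <;> fin_cases j <;> simp [wt_val, Matrix.mul_apply, Fin.sum_univ_three]
  · intro h
    have := congrFun (congrFun (hc h (ut 1 0 0)) 0) 1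
    simp [ut_val, wt_val, Matrix.mul_apply, Fin.sum_univ_three] at this
    exact h2 (by linear_combination this)
  · rintro _ ⟨a, b, c, rfl⟩
    exact ⟨_, _, _, wt_conj ..⟩
  · ext i j
    fin_cases i <;> fin_cases j <;> simp [ut_val, wn_val, wz_val, Matrix.mul_apply, Fin.sum_univ_three]
  · rw [mul_inv_eq_iff_eq_mul]
    ext i j
    fin_cases i <;> fin_cases j <;> simp [ut_val, wn_val, wz_val, Matrix.mul_apply, Fin.sum_univ_three]
  · ext i j
    fin_cases i <;> fin_cases j <;> simp [wn_val, wt_val, Matrix.mul_apply, Fin.sum_univ_three]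
  · rw [mul_inv_eq_iff_eq_mul, ut_inv]
    ext i j
    fin_cases i <;> fin_cases j <;> simp [ut_val, wh_val, Matrix.mul_apply, Fin.sum_univ_three]

end CL.Low5
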