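/-
Project LOW5: the Heisenberg data in the defining characteristic (`SubHDd`).
-/
import Cfsg.Agent.Low5.HDc

set_option autoImplicit false

namespace CL.Low5

open Matrix Cfsg Cfsg.Geo CL.Asch CL.SLn CL.Low Module
open scoped commutatorElement

universe u

namespace HDd

theorem exists_pgroup_lift {H K : Type*} [Group H] [Finite H] [Group K] (f : H →* K) (hf : Function.Surjective f)
    {r : ℕ} [Fact r.Prime] {S : Subgroup K} (hS : IsPGroup r S) : ∃ T : Subgroup H, IsPGroup r T ∧ T.map f = S := by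
  obtain ⟨T⟩ : Nonempty (Sylow r (S.comap f)) := inferInstance
  have hs := f.subgroupComap_surjective_of_surjective S hf
  have h1 : (T : Subgroup _).map (f.subgroupComap S) = ⊤ := ((T.mapSurjective hs).3 (hS.to_subgroup ⊤) le_top).symm
  refine ⟨(T : Subgroup _).map (S.comap f).subtype, T.2.map _, le_antisymm ?_ fun s hs' => ?_⟩
  · rintro _ ⟨_, ⟨g, -, rfl⟩, rfl⟩
    exact g.2
  · obtain ⟨g, hg, e⟩ : (⟨s, hs'⟩ : S) ∈ (T : Subgroup _).map (f.subgroupComap S) := h1 ▸ Subgroup.mem_top _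
    exact ⟨g, ⟨g, hg, rfl⟩, congrArg Subtype.val e⟩

/-- Two quadratic elements with the braid relation: where `n² = 1` also `n = 1`. -/
theorem braid {R : Type*} [Ring R] {A B p : R} (h2 : ∀ w : R, w + w = 0 → w = 0) (hA : A * A = 0) (hB : B * B = 0)
    (hb : (1 + A) * (1 + B) * (1 + A) = (1 + B) * (1 + A) * (1 + B))
    (hn : (1 + A) * (1 + B) * (1 + A) * ((1 + A) * (1 + B) * (1 + A)) * p = p) :
    (1 + A) * (1 + B) * (1 + A) * p = p := by
  have e0 : A + A * B * A = B + B * A * B := by linear_combination (norm := noncomm_ring) hb - hA + hB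
  have e1 : A * B + A * B * A * B = 0 := by linear_combination (norm := noncomm_ring) hA + hA * (B * A) - A * e0
  have e2 : B * A + B * A * B * A = 0 := by linear_combination (norm := noncomm_ring) B * e0 + hB + hB * (A * B)
  set n := (1 + A) * (1 + B) * (1 + A) with hdef
  have a1 : A * n = A + A * B + A * B * A := by
    linear_combination (norm := noncomm_ring) A * hdef + hA * ((1 + B) * (1 + A)) + hA
  have b1 : B * n = B + B * A + B * A * B := by
    linear_combination (norm := noncomm_ring) B * hb + hB * ((1 + A) * (1 + B)) + hB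
  have a2 : A * (n * n) = A + (A * B * A + A * B * A) := by
    linear_combination (norm := noncomm_ring) a1 * n + a1 + A * b1 + A * B * a1 + e1 + e1 + e1 * A
  have b2 : B * (n * n) = B + (B * A * B + B * A * B) := by
    linear_combination (norm := noncomm_ring) b1 * n + b1 + B * a1 + B * A * b1 + e2 + e2 + e2 * B
  have a3 : A * B * A * p = 0 := h2 _ (by linear_combination (norm := noncomm_ring) A * hn - a2 * p)
  have b3 : B * A * B * p = 0 := h2 _ (by linear_combination (norm := noncomm_ring) B * hn - b2 * p)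
  have a4 : A * B * p = 0 := by linear_combination (norm := noncomm_ring) e1 * p - A * b3
  have b4 : B * A * p = 0 := by linear_combination (norm := noncomm_ring) e2 * p - B * a3
  have ab : B * p = A * p := by linear_combination (norm := noncomm_ring) a3 - b3 - e0 * p
  have n1 : n * p = p + (A + A + A) * p := by
    linear_combination (norm := noncomm_ring) hdef * p + hA * p + ab + a4 + b4 + a3
  have n2 : n * A * p = A * p := by
    linear_combination (norm := noncomm_ring) hdef * (A * p) + (1 + A) * (1 + B) * hA * p + hA * p + b4 + a3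
  have n3 : (A + A + A) * p = 0 :=
    h2 _ (by linear_combination (norm := noncomm_ring) hn - n * n1 - n1 - n2 - n2 - n2)
  rw [n1, n3, add_zero]

theorem sq_zero {F : Type*} [Field F] (h2 : (2 : F) ≠ 0) {X Y Z : Matrix (Fin 5) (Fin 5) F}
    (hX : ∀ i j, j ≤ i → X i j = if i = j then 1 else 0) (hY : ∀ i j, j ≤ i → Y i j = if i = j then 1 else 0)
    (hZ : ∀ i j, j ≤ i → Z i j = if i = j then 1 else 0) (h1 : X * Y = Z * (Y * X)) (hx : Z * X = X * Z)
    (hy : Z * Y = Y * Z) : (Z - 1) * (Z - 1) = 0 := by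
  have key : ∀ {W : Matrix (Fin 5) (Fin 5) F}, (∀ i j, j ≤ i → W i j = if i = j then 1 else 0) →
      ∃ a b c d e f g h k l : F, W = !![1, a, b, c, d; 0, 1, e, f, g; 0, 0, 1, h, k; 0, 0, 0, 1, l; 0, 0, 0, 0, 1] :=
    fun {W} hW => ⟨W 0 1, W 0 2, W 0 3, W 0 4, W 1 2, W 1 3, W 1 4, W 2 3, W 2 4, W 3 4, by
      ext i j
      fin_cases i <;> fin_cases j <;> first | rfl | exact hW _ _ (by decide)⟩
  obtain ⟨x01, x02, x03, x04, x12, x13, x14, x23, x24, x34, rfl⟩ := key hX
  obtain ⟨y01, y02, y03, y04, y12, y13, y14, y23, y24, y34, rfl⟩ := key hY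
  obtain ⟨z01, z02, z03, z04, z12, z13, z14, z23, z24, z34, rfl⟩ := key hZ
  have a01 := congrFun (congrFun h1 0) 1
  have a12 := congrFun (congrFun h1 1) 2
  have a23 := congrFun (congrFun h1 2) 3
  have a34 := congrFun (congrFun h1 3) 4
  have a02 := congrFun (congrFun h1 0) 2
  have a13 := congrFun (congrFun h1 1) 3
  have a24 := congrFun (congrFun h1 2) 4
  have b03 := congrFun (congrFun hx 0) 3
  have c03 := congrFun (congrFun hy 0) 3
  simp [Matrix.mul_apply, Fin.sum_univ_five] at a01 a12 a23 a34 a02 a13 a24 b03 c03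
  obtain rfl : z01 = 0 := by linear_combination -a01
  obtain rfl : z12 = 0 := by linear_combination -a12
  obtain rfl : z23 = 0 := by linear_combination -a23
  obtain rfl : z34 = 0 := by linear_combination -a34
  have h3 : z02 * z13 = 0 := (mul_eq_zero.1 (show 2 * (z02 * z13) = 0 by
    linear_combination (-z02) * a13 - z13 * a02 + x12 * c03 - y12 * b03)).resolve_left h2
  have h4 : z02 * z24 = z13 * (x01 * y34 - y01 * x34) := by
    linear_combination (-z02) * a24 + y34 * b03 - x34 * c03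
  have h5 : z02 * z24 = 0 := by
    by_cases h : z02 = 0
    · rw [h, zero_mul]
    · rw [h4, (mul_eq_zero.1 h3).resolve_left h, zero_mul]
  ext i j
  fin_cases i <;> fin_cases j <;> simp [Matrix.mul_apply, Fin.sum_univ_five, Matrix.one_apply, h5]

section Lin

variable {F W H : Type*} [Field F] [AddCommGroup W] [Module F W] [Finite W] [Group H] {r : ℕ} [Fact r.Prime]

theorem exists_fixed (h0 : (r : F) = 0) (hH : IsPGroup r H) (ρ : H →* End F W) [Nontrivial W] :
    ∃ v : W, v ≠ 0 ∧ ∀ g, ρ g v = v := by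
  letI : MulAction H W := MulAction.compHom W ρ
  obtain ⟨v, hv⟩ := exists_ne (0 : W)
  have h1 : addOrderOf v = r := addOrderOf_eq_prime (by rw [← Nat.cast_smul_eq_nsmul F, h0, zero_smul]) hv
  obtain ⟨w, hw, hw0⟩ := hH.exists_fixed_point_of_prime_dvd_card_of_fixed_point W (h1 ▸ addOrderOf_dvd_natCard v)
    (a := 0) fun g => map_zero (ρ g)
  exact ⟨w, hw0.symm, hw⟩

theorem exists_flag (h0 : (r : F) = 0) (hH : IsPGroup r H) (ρ : H →* End F W) (k : ℕ) (hk : k ≤ finrank F W) :
    ∃ b : Fin k → W, LinearIndependent F b ∧ ∀ g i, ρ g (b i) - b i ∈ Submodule.span F (b '' Set.Iio i) := by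
  induction k with
  | zero => exact ⟨Fin.elim0, linearIndependent_empty_type, fun _ i => i.elim0⟩
  | succ k ih =>
    obtain ⟨b, hb, h⟩ := ih (by omega)
    set U := Submodule.span F (Set.range b) with hU
    have hle : ∀ g, U ≤ U.comap (ρ g) := fun g => Submodule.span_le.2 (by
      rintro _ ⟨i, rfl⟩
      have := U.add_mem (Submodule.span_mono (Set.image_subset_range _ _) (h g i)) (Submodule.subset_span ⟨i, rfl⟩)
      rwa [sub_add_cancel] at this)
    have hne : U ≠ ⊤ := fun e => by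
      have := finrank_span_eq_card hb
      rw [← hU, e, finrank_top, Fintype.card_fin] at this
      omega
    haveI : Nontrivial (W ⧸ U) := Submodule.Quotient.nontrivial_iff.2 hne
    haveI : Finite (W ⧸ U) := Finite.of_surjective _ U.mkQ_surjective
    obtain ⟨w, hw, h'⟩ := exists_fixed h0 hH (Representation.quotient ρ U hle)
    obtain ⟨w, rfl⟩ := U.mkQ_surjective w
    refine ⟨Fin.snoc b w, linearIndependent_finSnoc.2 ⟨hb, fun e => hw ((Submodule.Quotient.mk_eq_zero U).2 e)⟩,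
      fun g i => ?_⟩
    refine Fin.lastCases ?_ (fun i => ?_) i
    · rw [Fin.snoc_last]
      refine Submodule.span_mono ?_ ((Submodule.Quotient.eq U).1 (h' g))
      rintro _ ⟨j, rfl⟩
      exact ⟨j.castSucc, Fin.castSucc_lt_last j, Fin.snoc_castSucc ..⟩
    · rw [Fin.snoc_castSucc]
      refine Submodule.span_mono ?_ (h g i)
      rintro _ ⟨j, hj, rfl⟩
      exact ⟨j.castSucc, Fin.castSucc_lt_castSucc_iff.2 hj, Fin.snoc_castSucc ..⟩

theorem exists_mem_ker (h5 : finrank F W = 5) {A B : End F W} (hA : A * A = 0) (hB : B * B = 0) :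
    ∃ u : W, u ≠ 0 ∧ A u = 0 ∧ B u = 0 := by
  haveI : FiniteDimensional F W := Module.Finite.of_finite
  have key : ∀ {A : End F W}, A * A = 0 → 3 ≤ finrank F (LinearMap.ker A) := fun {A} hA => by
    have h1 := Submodule.finrank_mono (LinearMap.range_le_ker_iff.2 hA)
    have h2 := LinearMap.finrank_range_add_finrank_ker A
    omega
  by_contra hn
  push Not at hn
  have h1 := Submodule.finrank_add_finrank_le_of_disjoint (s := LinearMap.ker A) (t := LinearMap.ker B)
    (Submodule.disjoint_def.2 fun u h1 h2 => by_contra fun h => hn u h h1 h2)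
  have := key hA
  have := key hB
  omega

theorem core (h0 : (r : F) = 0) (h2 : (2 : F) ≠ 0) (hr : Odd r) (h5 : finrank F W = 5) (ρ : H →* End F W)
    {T : Subgroup H} (hT : IsPGroup r T) {x y z z' t n c : H} {γ : F} (hx : x ∈ T) (hy : y ∈ T) (hxr : x ^ r = 1)
    (hyr : y ^ r = 1) (hz : z = ⁅x, y⁆) (hzx : Commute z x) (hzy : Commute z y) (ht : t * t = 1)
    (htx : t * x * t⁻¹ = x⁻¹) (hty : t * y * t⁻¹ = y⁻¹) (htT : ∀ s ∈ T, t * s * t⁻¹ ∈ T) (hn : n = z * z' * z)
    (hz' : n * z * n⁻¹ = z') (hc : n * n = t * c) (hγ : ∀ v, ρ c v = γ • v) (hc1 : γ * γ = 1 → c = 1)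
    (hirr : ∀ U : Submodule F W, (∀ s ∈ T, ∀ v ∈ U, ρ s v ∈ U) → (∀ v ∈ U, ρ n v ∈ U) → U = ⊥ ∨ U = ⊤)
    (hdim : finrank F ((ρ t).eigenspace (-1)) ≤ 2) :
    ∃ (u : W) (φ : Dual F W), φ ≠ 0 ∧ φ u = 0 ∧ ∀ v, ρ z v = v + φ v • u := by
  haveI : FiniteDimensional F W := Module.Finite.of_finite
  have hmul : ∀ g h v, ρ (g * h) v = ρ g (ρ h v) := fun g h v => by rw [map_mul, End.mul_apply]
  have hhalf : ∀ v : W, v + v = 0 → v = 0 := fun v hv => by
    rwa [← two_smul F, smul_eq_zero_iff_right h2] at hv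
  have hzT : z ∈ T := hz ▸ T.mul_mem (T.mul_mem (T.mul_mem hx hy) (T.inv_mem hx)) (T.inv_mem hy)
  have hti : t⁻¹ = t := inv_eq_of_mul_eq_one_right ht
  have htt : ∀ v, ρ t (ρ t v) = v := fun v => by rw [← hmul, ht, map_one, End.one_apply]
  -- the flag
  obtain ⟨b₀, hb₀, hfl⟩ := exists_flag h0 hT (ρ.comp T.subtype) 5 h5.ge
  let b := basisOfLinearIndependentOfCardEqFinrank hb₀ (by simp [h5])
  have hb : b₀ = b := (coe_basisOfLinearIndependentOfCardEqFinrank _ _).symm
  rw [hb] at hfl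
  have hM : ∀ s ∈ T, ∀ i j, j ≤ i → b.repr (ρ s (b j)) i = if i = j then 1 else 0 := fun s hs i j hij => by
    have h1 : b.repr (ρ s (b j) - b j) i = 0 := by
      by_contra h
      exact absurd (b.mem_span_image.1 (hfl ⟨s, hs⟩ j) (Finsupp.mem_support_iff.2 h)) (not_lt.2 hij)
    rw [map_sub, Finsupp.sub_apply, sub_eq_zero] at h1
    rw [h1, b.repr_self, Finsupp.single_apply]
    exact if_congr eq_comm rfl rfl
  -- `z` is quadratic
  have hA : (ρ z - 1) * (ρ z - 1) = 0 := by
    let M := LinearMap.toMatrixAlgEquiv b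
    have h1 : ∀ s ∈ T, ∀ i j, j ≤ i → M (ρ s) i j = if i = j then 1 else 0 := fun s hs i j hij => by
      rw [← hM s hs i j hij]
      exact LinearMap.toMatrixAlgEquiv_apply b _ i j
    have h3 := sq_zero h2 (h1 x hx) (h1 y hy) (h1 z hzT)
      (by simp only [← map_mul]; rw [hz, commutatorElement_def]; congr 2; group)
      (by simp only [← map_mul, hzx.eq]) (by simp only [← map_mul, hzy.eq])
    exact M.injective (by simpa using h3)
  have hB : (ρ z' - 1) * (ρ z' - 1) = 0 := by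
    have h1 : ρ n⁻¹ * ρ n = 1 := by rw [← map_mul, inv_mul_cancel, map_one]
    have h3 : ρ z' - 1 = ρ n * (ρ z - 1) * ρ n⁻¹ := by
      rw [mul_sub, sub_mul, mul_one, ← map_mul, ← map_mul, ← map_mul, hz', mul_inv_cancel, map_one]
    rw [h3, mul_assoc, mul_assoc, ← mul_assoc (ρ n⁻¹), ← mul_assoc (ρ n⁻¹), h1, one_mul, ← mul_assoc (ρ z - 1), hA,
      zero_mul, mul_zero]
  obtain rfl : c = 1 := by
    obtain ⟨u, hu, h1, h3⟩ := exists_mem_ker h5 hA hB
    rw [LinearMap.sub_apply, End.one_apply, sub_eq_zero] at h1 h3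
    have h4 : ρ n u = u := by rw [hn, hmul, hmul, h1, h3, h1]
    have h6 : γ • ρ t u = u := by rw [← map_smul, ← hγ, ← hmul, ← hc, hmul, h4, h4]
    have h7 : γ • u = ρ t u := by rw [← congrArg (ρ t) h6, map_smul, htt]
    refine hc1 (smul_left_injective F hu ?_)
    show (γ * γ) • u = (1 : F) • u
    rw [mul_smul, h7, h6, one_smul]
  rw [mul_one] at hc
  have htn : ∀ v, ρ t (ρ n v) = ρ n (ρ t v) := fun v => by rw [← hmul, ← hmul, ← hc, mul_assoc]
  -- `n` is trivial on the fixed space of `t`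
  have hnp : ∀ v, ρ n (v + ρ t v) = v + ρ t v := fun v => by
    have h1 : z * z' * z = z' * z * z' := by
      rw [mul_inv_eq_iff_eq_mul, hn, ← mul_assoc, ← mul_assoc] at hz'
      exact mul_right_cancel hz'
    have h3 := braid (p := 1 + ρ t) (fun w hw => by rwa [← two_smul F, smul_eq_zero_iff_right h2] at hw) hA hB
      (by simp only [add_sub_cancel, ← map_mul, h1])
      (by simp only [add_sub_cancel, ← map_mul, ← hn, hc]; rw [mul_add, mul_one, ← map_mul, ht, map_one, add_comm])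
    simp only [add_sub_cancel, ← map_mul, ← hn] at h3
    exact LinearMap.congr_fun h3 v
  -- the fixed vector and the fixed form
  obtain ⟨w, hw⟩ : ∃ w, w = b 0 := ⟨_, rfl⟩
  obtain ⟨φ, hφ⟩ : ∃ φ, φ = b.coord 4 := ⟨_, rfl⟩
  have hw0 : w ≠ 0 := hw ▸ b.ne_zero 0
  have hφw : φ w = 0 := by simp [hw, hφ]
  have hφ1 : φ (b 4) = 1 := by simp [hφ]
  have hφ0 : φ ≠ 0 := fun e => by simp [e] at hφ1
  have hwT : ∀ s ∈ T, ρ s w = w := fun s hs => by
    have := hfl ⟨s, hs⟩ 0
    rw [show Set.Iio (0 : Fin 5) = ∅ from Set.Iio_bot, Set.image_empty, Submodule.span_empty, Submodule.mem_bot,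
      sub_eq_zero] at this
    exact hw ▸ this
  have hφT : ∀ s ∈ T, ∀ v, φ (ρ s v) = φ v := fun s hs v =>
    LinearMap.congr_fun (b.ext (f₁ := φ ∘ₗ ρ s) (f₂ := φ) fun j => by
      rw [LinearMap.comp_apply, hφ, b.coord_apply, b.coord_apply, hM s hs 4 j (Fin.le_last j), b.repr_self,
        Finsupp.single_apply]
      exact if_congr eq_comm rfl rfl) v
  have hst : ∀ s v, ρ s (ρ t v) = ρ t (ρ (t * s * t⁻¹) v) := fun s v => by
    rw [← hmul, ← hmul, hti, ← mul_assoc, ← mul_assoc, ht, one_mul]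
  have hts : ∀ s v, ρ t (ρ s v) = ρ (t * s * t⁻¹) (ρ t v) := fun s v => by
    rw [← hmul, ← hmul, inv_mul_cancel_right]
  have htw : ρ t w = -w := by
    rcases hirr (F ∙ (w + ρ t w)) (fun s hs v hv => by
      obtain ⟨a, rfl⟩ := Submodule.mem_span_singleton.1 hv
      rwa [map_smul, map_add, hwT s hs, hst, hwT _ (htT s hs)]) (fun v hv => by
      obtain ⟨a, rfl⟩ := Submodule.mem_span_singleton.1 hv
      rwa [map_smul, hnp]) with h | h
    · exact eq_neg_of_add_eq_zero_right (Submodule.span_singleton_eq_bot.1 h)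
    · have := finrank_span_le_card (R := F) ({w + ρ t w} : Set W)
      rw [h, finrank_top, h5] at this
      simp at this
  have hφt : ∀ v, φ (ρ t v) = -φ v := by
    rcases hirr (LinearMap.ker (φ + φ ∘ₗ ρ t)) (fun s hs v hv => by
      simp only [LinearMap.mem_ker, LinearMap.add_apply, LinearMap.comp_apply] at hv ⊢
      rwa [hφT s hs, hts, hφT _ (htT s hs)]) (fun v hv => by
      simp only [LinearMap.mem_ker, LinearMap.add_apply, LinearMap.comp_apply] at hv ⊢
      rwa [htn, ← map_add, ← map_add, hnp, map_add]) with h | h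
    · refine absurd ?_ hw0
      rw [← Submodule.mem_bot F, ← h]
      simp [htw, hφw]
    · exact fun v => eq_neg_of_add_eq_zero_right (LinearMap.congr_fun (LinearMap.ker_eq_top.1 h) v)
  -- the action on the kernel of the form
  have hE : ∀ v, v - ρ t v ∈ (ρ t).eigenspace (-1) := fun v => by
    rw [End.mem_eigenspace_iff, map_sub, htt, neg_one_smul, neg_sub]
  have hK : (F ∙ w) = (ρ t).eigenspace (-1) ⊓ LinearMap.ker φ := by
    refine Submodule.eq_of_le_of_finrank_le ((Submodule.span_singleton_le_iff_mem _ _).2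
      ⟨End.mem_eigenspace_iff.2 (by rw [htw, neg_one_smul]), hφw⟩) ?_
    have h1 : (ρ t).eigenspace (-1) ⊓ LinearMap.ker φ < (ρ t).eigenspace (-1) := inf_lt_left.2 fun h => h2 (by
      have := h (hE (b 4))
      rw [LinearMap.mem_ker, map_sub, hφt, hφ1] at this
      linear_combination this)
    have := Submodule.finrank_lt_finrank_of_lt h1
    rw [finrank_span_singleton hw0]
    omega
  have hQ : ∀ g ∈ T, g ^ r = 1 → t * g * t⁻¹ = g⁻¹ → ∀ v, φ v = 0 → ∃ a : F, ρ g v = v + a • w :=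
    fun g hg hgr htg => by
    have h1 : ∀ v, φ v = 0 → ∃ a : F, ρ t v = v + a • w := fun v hv => by
      obtain ⟨a, ha⟩ := Submodule.mem_span_singleton.1 (hK ▸ ⟨hE v, by rw [SetLike.mem_coe, LinearMap.mem_ker,
        map_sub, hφt, hv, neg_zero, sub_zero]⟩ : v - ρ t v ∈ F ∙ w)
      exact ⟨-a, by rw [neg_smul, ha]; abel⟩
    have h3 : ∀ v, φ v = 0 → ∃ a : F, ρ (g * g) v = v + a • w := fun v hv => by
      obtain ⟨a, ha⟩ := h1 v hv
      obtain ⟨a', ha'⟩ := h1 (ρ g⁻¹ v) (by rw [hφT _ (T.inv_mem hg), hv])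
      have h4 : g * g = g * t * g⁻¹ * t := by
        rw [mul_assoc, mul_assoc, ← htg, hti, ← mul_assoc t, ← mul_assoc t, ← mul_assoc t, ht, one_mul, mul_assoc, ht,
          mul_one]
      refine ⟨a' - a, ?_⟩
      rw [h4, hmul, ha, map_add, map_smul, hmul, hmul, hmul, hmul, ha', hwT _ (T.inv_mem hg), htw, map_add, map_smul,
        map_neg, hwT g hg, ← hmul, mul_inv_cancel, map_one, End.one_apply, sub_smul, smul_neg]
      abel
    have h4 : ∀ (k : ℕ) v, φ v = 0 → ∃ a : F, ρ ((g * g) ^ k) v = v + a • w := fun k v hv => by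
      induction k with
      | zero => exact ⟨0, by simp⟩
      | succ k ih =>
        obtain ⟨a, ha⟩ := ih
        obtain ⟨a', ha'⟩ := h3 v hv
        exact ⟨a' + a, by rw [pow_succ', hmul, ha, map_add, ha', map_smul, hwT _ (T.mul_mem hg hg), add_smul, add_assoc]⟩
    obtain ⟨k, rfl⟩ := hr
    have h6 : (g * g) ^ (k + 1) = g := by
      rw [← pow_two, ← pow_mul, mul_add, mul_one, show 2 * k + 2 = 2 * k + 1 + 1 from rfl, pow_succ, hgr, one_mul]
    exact h6 ▸ h4 (k + 1)
  have hzv : ∀ v, φ v = 0 → ρ z v = v := fun v hv => by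
    have h1 : φ (ρ (y * x)⁻¹ v) = 0 := by rw [hφT _ (T.inv_mem (T.mul_mem hy hx)), hv]
    obtain ⟨a, ha⟩ := hQ x hx hxr htx _ h1
    obtain ⟨a', ha'⟩ := hQ y hy hyr hty _ h1
    have h3 : ρ (x * y) (ρ (y * x)⁻¹ v) = ρ (y * x) (ρ (y * x)⁻¹ v) := by
      rw [hmul, hmul, ha, ha', map_add, map_add, ha, ha', map_smul, map_smul, hwT x hx, hwT y hy, add_right_comm]
    rwa [← hmul, ← hmul, mul_inv_cancel, map_one, End.one_apply,
      show x * y * (y * x)⁻¹ = z by rw [hz, commutatorElement_def]; group] at h3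
  refine ⟨ρ z (b 4) - b 4, φ, hφ0, by rw [map_sub, hφT z hzT, sub_self], fun v => ?_⟩
  have := hzv (v - φ v • b 4) (by rw [map_sub, map_smul, hφ1, smul_eq_mul, mul_one, sub_self])
  rw [map_sub, map_smul, sub_eq_iff_eq_add] at this
  rw [this, smul_sub]
  abel

end Lin

end HDd

open HDc HDd in
theorem subHDd : SubHDd.{u} := by
  rintro F _ _ P r hr hr2 hF h hTv hI ⟨S, x, y, z, z', t, n, g, hS, hx, hy, hxr, hyr, rfl, hz1, hzx, hzy, ht, ht1, htx,
    hty, htS, hn, hz', hnn, hcl, -⟩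
  classical
  haveI := Fact.mk hr
  have hodd : Odd r := hr.odd_of_ne_two hr2
  have h2 : (2 : F) ≠ 0 := fun h2 => by
    obtain ⟨k, rfl⟩ := hodd
    push_cast at hF
    rw [h2, zero_mul, zero_add] at hF
    exact one_ne_zero hF
  have hZ := scalars_subgroupOf_le_center P
  have hc2 := QS.coprime h (r := 2) (by norm_num)
  have hcr := coprime_card_scalars_char P hr hF
  obtain ⟨T, hT, rfl⟩ := exists_pgroup_lift (QuotientGroup.mk' _) (QuotientGroup.mk'_surjective _) hS
  have hmem : ∀ (g : P) (k : ℕ), g ^ r ^ k = 1 → (g : PQ P) ∈ T.map (QuotientGroup.mk' _) → g ∈ T := by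
    rintro g k hg ⟨s, hs, e⟩
    obtain ⟨l, hl⟩ := hT ⟨s, hs⟩
    have hl' : s ^ r ^ l = 1 := congrArg Subtype.val hl
    rwa [← lift_unique hZ (hcr.pow_right (l + k)) e (by rw [pow_add, pow_mul, hl', one_pow])
      (by rw [add_comm, pow_add, pow_mul, hg, one_pow])]
  obtain ⟨x, rfl, hxr'⟩ := exists_lift hcr x hxr
  obtain ⟨y, rfl, hyr'⟩ := exists_lift hcr y hyr
  obtain ⟨t, rfl, ht'⟩ := exists_lift hc2 t (by rw [pow_two, ht])
  obtain ⟨n₀, rfl⟩ := QuotientGroup.mk_surjective n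
  obtain ⟨hx', hy', -⟩ := heis_lift hZ hc2 hzx hzy htx hty hxr
  have e : ((⁅x, y⁆ : P) : PQ P) = ⁅(x : PQ P), (y : PQ P)⁆ := map_commutatorElement (QuotientGroup.mk' _) x y
  rw [← e] at hz1 hn hz'
  set z : P := ⁅x, y⁆ with hzdef
  rw [← hz'] at hn
  obtain ⟨n, hn'⟩ : ∃ n, n = z * (n₀ * z * n₀⁻¹) * z := ⟨_, rfl⟩
  have e0 : (n₀ : PQ P) = n := hn.trans (by rw [hn']; rfl)
  have e1 : n * z * n⁻¹ = n₀ * z * n₀⁻¹ := by
    obtain ⟨c, -, rfl, hc⟩ := exists_central hZ e0
    rw [mul_assoc n₀, ← hc]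
    group
  rw [e0] at hnn hcl
  obtain ⟨c, hcZ, hc, -⟩ := exists_central hZ (a := t) (a' := n * n) hnn.symm
  obtain ⟨γ, hγ⟩ := mem_scalars_iff'.1 (Subgroup.mem_subgroupOf.1 hcZ)
  have hinv : ∀ {g : P}, g ^ r = 1 → (t : PQ P) * g * (t : PQ P)⁻¹ = (g : PQ P)⁻¹ → t * g * t⁻¹ = g⁻¹ := fun hg e =>
    lift_unique hZ hcr e (by rw [conj_pow, hg, mul_one, mul_inv_cancel]) (by rw [inv_pow, hg, inv_one])
  let ρ : P →* End F (V F) := (DistribMulAction.toModuleEnd F (V F)).comp P.subtype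
  have hρ : ∀ (g : P) v, ρ g v = (g : G F) • v := fun _ _ => rfl
  rw [pow_two] at ht'
  obtain ⟨v, φ, hφ, h0, hv⟩ := core hF h2 hodd (by simp) ρ hT (hmem x 1 (by rwa [pow_one]) hx)
    (hmem y 1 (by rwa [pow_one]) hy) hxr' hyr' hzdef hx' hy' ht' (hinv hxr' htx) (hinv hyr' hty) (fun s hs => by
      obtain ⟨l, hl⟩ := hT ⟨s, hs⟩
      have hl' : s ^ r ^ l = 1 := congrArg Subtype.val hl
      exact hmem _ l (by rw [conj_pow, hl', mul_one, mul_inv_cancel]) (htS _ ⟨s, hs, rfl⟩)) hn' e1 hc (γ := γ)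
    (fun v => by rw [hρ, gsmul_def, hγ, smul_mulVec, one_mulVec])
    (fun h1 => eq_one_of_pow_of_coprime hc2 hcZ (Subtype.ext (Units.ext (by
      rw [pow_two]
      show (c : G F).val * (c : G F).val = 1
      rw [hγ, smul_mul_smul_comm, h1, one_mul, one_smul]))))
    (fun U hU hU' => irr_iff.1 h.irr U fun l hl w hw => by
      have h1 : ⊤ ≤ ((subspaceStabilizer U).subgroupOf P).map (QuotientGroup.mk' ((scalars (Fin 5) F).subgroupOf P)) := by
        rw [← hcl, Subgroup.closure_le]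
        rintro _ (rfl | ⟨s, hs, rfl⟩)
        · exact ⟨n, mem_subspaceStabilizer_of_mapsTo hU', rfl⟩
        · exact ⟨s, mem_subspaceStabilizer_of_mapsTo (hU s hs), rfl⟩
      obtain ⟨q, hq, e⟩ := h1 (Subgroup.mem_top ((⟨l, hl⟩ : P) : PQ P))
      obtain ⟨d, hd, e', -⟩ := exists_central hZ e
      obtain ⟨δ, hδ⟩ := mem_scalars_iff'.1 (Subgroup.mem_subgroupOf.1 hd)
      have e2 : l = (q : G F) * d := congrArg Subtype.val e'
      rw [e2, Units.val_mul, ← mulVec_mulVec, hδ, smul_mulVec, one_mulVec]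
      exact (CL.Asch.mem_subspaceStabilizer.1 hq _).1 (U.smul_mem δ hw))
    (by
      obtain ⟨e, ξ, -, hs⟩ := hI t t.2 (congrArg Subtype.val ht') fun h1 => ht1 (by rw [show t = 1 from Subtype.ext h1]; rfl)
      refine (Submodule.finrank_mono (t := Submodule.span F (Set.range e)) fun v hv => ?_).trans
        ((finrank_range_le_card (R := F) e).trans (by simp))
      rw [End.mem_eigenspace_iff, hρ, hs] at hv
      have h1 : (2 : F) • v = (2 : F) • pr e ξ v := by linear_combination (norm := module) hv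
      rw [smul_right_injective _ h2 h1]
      exact Submodule.sum_mem _ fun i _ => Submodule.smul_mem _ _ (Submodule.subset_span ⟨i, rfl⟩))
  refine hTv ⟨z, z.2, v, φ, fun h1 => hz1 ?_, hφ, h0, hv⟩
  rw [show z = 1 from Subtype.ext (gext fun w => by rw [← hρ, hv, h1, smul_zero, add_zero]; exact (one_smul _ w).symm)]
  rfl

end CL.Low5
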