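/-
Project LOW5: the reflection groups `2 × 3 A₆` and `2 × 3 A₇` in dimension three.
-/
import Cfsg.Agent.Low5.Emb
import Cfsg.Agent.Low.DataB
import Cfsg.Agent.Low.Homol

set_option autoImplicit false

namespace CL.Low5

open Matrix Cfsg Cfsg.Geo CL.Asch CL.SLn CL.Low Module
open scoped commutatorElement

universe u

namespace A67

/-- no quaternion group acts faithfully on fewer than eight points -/
theorem no_q8 {Ω : Type} [Fintype Ω] (hΩ : Fintype.card Ω < 8) {a b : Equiv.Perm Ω} (h4 : a ^ 4 = 1)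
    (hb : b * a * b⁻¹ = a⁻¹) (h2 : b * b = a * a) : a * a = 1 := by
  by_contra hne
  obtain ⟨x, hx⟩ : ∃ x, (a * a) • x ≠ x := by
    by_contra! h
    exact hne (Equiv.ext h)
  have k1 : ∀ y : Ω, (a * a) • y ≠ y → ∀ i j : Fin 4, a ^ (i : ℕ) • y = a ^ (j : ℕ) • y → i = j := fun y hy i j e => by
    by_contra ne
    obtain ⟨m, hm⟩ : ∃ m : ℕ, (4 - j + i) * m ≡ 2 [MOD 4] := by
      have : ∀ i j : Fin 4, i ≠ j → ∃ m : Fin 3, (4 - (j : ℕ) + i) * m ≡ 2 [MOD 4] := by decide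
      obtain ⟨m, hm⟩ := this i j ne
      exact ⟨m, hm⟩
    have h1 : a ^ (4 - j + i : ℕ) ∈ MulAction.stabilizer _ y := by
      rw [MulAction.mem_stabilizer_iff, pow_add, mul_smul, e, ← mul_smul, ← pow_add, Nat.sub_add_cancel j.2.le, h4, one_smul]
    have h3 := pow_mem h1 m
    rw [← pow_mul, pow_eq_pow_of_modEq hm h4, pow_two] at h3
    exact hy h3
  have k2 : ∀ i j : Fin 4, a ^ (i : ℕ) • b • x ≠ a ^ (j : ℕ) • x := fun i j e => by
    have h1 : a ^ (4 - j + i : ℕ) * b ∈ MulAction.stabilizer _ x := by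
      rw [MulAction.mem_stabilizer_iff, pow_add, mul_smul, mul_smul, e, ← mul_smul, ← pow_add, Nat.sub_add_cancel j.2.le,
        h4, one_smul]
    have h3 := mul_mem h1 h1
    generalize (4 - j + i : ℕ) = n at h3
    rw [show a ^ n * b * (a ^ n * b) = a ^ n * (b * a * b⁻¹) ^ n * (b * b) by rw [conj_pow]; group, hb, inv_pow,
      mul_inv_cancel, one_mul, h2] at h3
    exact hx h3
  have k3 : (a * a) • b • x ≠ b • x := fun e => hx (by
    rw [← h2, ← mul_smul, mul_assoc, mul_smul, h2] at e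
    exact MulAction.injective b e)
  have := Fintype.card_le_of_injective (Sum.elim (fun i : Fin 4 => a ^ (i : ℕ) • x) fun i : Fin 4 => a ^ (i : ℕ) • b • x)
    fun | .inl i, .inl j, e => congrArg _ (k1 x hx i j e)
        | .inl i, .inr j, e => absurd e.symm (k2 j i)
        | .inr i, .inl j, e => absurd e (k2 i j)
        | .inr i, .inr j, e => congrArg _ (k1 _ k3 i j e)
  simp only [Fintype.card_sum, Fintype.card_fin] at this
  omega

theorem cyc22 {t : alternatingGroup (Fin 6)} (h2 : t * t = 1) (h1 : t ≠ 1) :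
    (t : Equiv.Perm (Fin 6)).cycleType = Multiset.replicate 2 2 := by
  have e := Equiv.Perm.cycleType_of_pow_prime_eq_one (p := 2) (σ := t) (by rw [pow_two]; exact congrArg Subtype.val h2)
  have a1 := (t : Equiv.Perm (Fin 6)).sum_cycleType_le
  have a2 := (Equiv.Perm.mem_alternatingGroup.1 t.2).symm.trans (Equiv.Perm.sign_of_cycleType _)
  have a3 := Equiv.Perm.card_cycleType_pos.2 (show (t : Equiv.Perm (Fin 6)) ≠ 1 from fun e => h1 (Subtype.ext e))
  generalize (t : Equiv.Perm (Fin 6)).cycleType.card = n at *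
  rw [e, Multiset.sum_replicate, smul_eq_mul] at a1 a2
  rw [Fintype.card_fin] at a1
  obtain rfl | rfl | rfl : n = 1 ∨ n = 2 ∨ n = 3 := by omega
  exacts [absurd a2 (by decide), e, absurd a2 (by decide)]

theorem cent_v4 : ∀ n : Equiv.Perm (Fin 6), n * j6 = j6 * n → n * (x6 * j6 * x6⁻¹ :) = (x6 * j6 * x6⁻¹ :) * n →
    n * n = 1 := by decide +kernel

/-- every involution of `A₆` lies in a self-centralising four-group of conjugates -/
theorem alt6 {t : alternatingGroup (Fin 6)} (h2 : t * t = 1) (h1 : t ≠ 1) : ∃ c, t * (c * t * c⁻¹) = c * t * c⁻¹ * t ∧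
    c * t * c⁻¹ ≠ t ∧ ∀ n, n * t = t * n → n * (c * t * c⁻¹) = c * t * c⁻¹ * n → n * n = 1 := by
  obtain ⟨y, rfl⟩ := exists_alt_conj (x₀ := j6) (x := t) (Equiv.Perm.isConj_iff_cycleType_eq.2
    ((cyc22 (by decide) (by decide)).trans (cyc22 h2 h1).symm)) (c := Equiv.swap 0 1) (by decide) (by decide)
  refine ⟨y * x6 * y⁻¹, ?_, ?_, fun n => ?_⟩ <;> rw [conj_inv, conj_mul, conj_mul]
  · rw [conj_mul, conj_mul, show j6 * (x6 * j6 * x6⁻¹) = x6 * j6 * x6⁻¹ * j6 by decide]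
  · exact fun e => absurd (mul_left_cancel (mul_right_cancel e)) (by decide)
  · obtain ⟨n, rfl⟩ : ∃ m, n = y * m * y⁻¹ := ⟨y⁻¹ * n * y, by group⟩
    simp only [conj_mul, mul_left_inj, mul_right_inj, conj_eq_one_iff]
    exact fun a b => Subtype.ext (cent_v4 n (congrArg Subtype.val a) (congrArg Subtype.val b))

variable {F : Type u} [Field F] {P : Subgroup (GL (Fin 3) F)} {g k : GL (Fin 3) F} {c : Fin 3 → F}
  {ψ : Dual F (Fin 3 → F)} {a : F}

theorem nq {Ω : Type} [Fintype Ω] [DecidableEq Ω] (hΩ : Fintype.card Ω < 8) {π : P →* alternatingGroup Ω} (cv : Cov π)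
    (hP : QS P) : ∀ a ∈ P, ∀ b ∈ P, a ^ 4 = 1 → b * a * b⁻¹ = a⁻¹ → b * b = a * a → a * a = 1 := fun a ha b hb h4 h1 h2 => by
  lift a to P using ha
  lift b to P using hb
  norm_cast at h4 h1 h2 ⊢
  let f := (alternatingGroup Ω).subtype.comp π
  have := no_q8 hΩ (a := f a) (b := f b) (by rw [← map_pow, h4, map_one]) (by simpa using congrArg f h1)
    (by simpa using congrArg f h2)
  exact cv.lift_unique hP (r := 2) (by decide) (Subtype.ext (by simpa [f] using this)) (by rw [← pow_two, ← pow_mul, h4])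
    (one_pow 2)

theorem hm_comm (h1 : ψ c = 1) {t : GL (Fin 3) F} {p q p' q' : F} (ht : Hm t c ψ p q) (hpq : p ≠ q) (hg : Hm g c ψ p' q')
    (hk : k * t = t * k) : k * g = g * k := by
  obtain ⟨l, e1, e2⟩ := ht.of_comm h1 hpq hk
  refine gext fun y => ?_
  rw [mul_smul, mul_smul, hg, hg, smul_add, gsmul_smul, gsmul_smul, e1, e2, smul_smul]
  congr 2
  ring

theorem hm_tr (h1 : ψ c = 1) (hg : Hm g c ψ 1 a) : tr g = 2 + a ∧ (mx g).det = a := by
  have e : mx g = 1 + vecMulVec c fun j => (a - 1) * ψ (Pi.single j 1) := by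
    ext i j
    have := congrFun (hg (Pi.single j 1)) i
    rw [gsmul_def, mulVec_single_one] at this
    simpa [vecMulVec_apply, mul_comm, Matrix.one_apply, Pi.single_apply] using this
  have h2 : ∑ j, c j * ((a - 1) * ψ (Pi.single j 1)) = a - 1 := by
    rw [pi_eq_sum_univ' c, map_sum] at h1
    refine Eq.trans ?_ ((congrArg ((a - 1) * ·) h1).trans (mul_one _))
    rw [Finset.mul_sum]
    exact Finset.sum_congr rfl fun j _ => by rw [map_smul, smul_eq_mul]; ring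
  constructor
  · change (mx g).trace = _
    rw [e, trace_add, trace_one, trace_vecMulVec, dotProduct, h2, Fintype.card_fin]
    ring
  · rw [e, vecMulVec_eq Unit, det_one_add_replicateCol_mul_replicateRow, dotProduct_comm, dotProduct, h2]
    ring

/-- a homology in `P` times the scalars -/
theorem hom_data (hP : QS P) (h1 : ψ c = 1) (hg : Hm g c ψ 1 a) (hm : g ∈ P ⊔ scalars (Fin 3) F) :
    ∃ l ∈ P, ∃ d : F, d ^ 3 = a ∧ mx g = d • mx l ∧ d * tr l = 2 + a ∧ a * tr l⁻¹ = d * (2 * a + 1) := by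
  obtain ⟨l, hl, z, hz, rfl⟩ := Subgroup.mem_sup_of_normal_right.1 hm
  obtain ⟨d, hd⟩ := mem_scalars_iff'.1 hz
  have ha := hg.right_ne_zero h1
  obtain ⟨g', hg'⟩ := exists_homology h1 (inv_ne_zero ha)
  replace hg' : Hm g' c ψ 1 a⁻¹ := fun y => by rw [hg', one_smul]
  have e1 : l * z * g' = 1 := gext fun y => by simpa [ha] using hg.mul h1 hg' y
  have e2 : mx (l * z) = d • mx l := by rw [mx, Units.val_mul, hd, Matrix.mul_smul, Matrix.mul_one]
  refine ⟨l, hl, d, ?_, e2, by rw [← (hm_tr h1 hg).1, tr_mul_scalar hd], ?_⟩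
  · rw [← (hm_tr h1 hg).2, e2, det_smul, mem_specialLinear_iff.1 (hP.le_SL hl), mul_one, Fintype.card_fin]
  · rw [mul_assoc, ← Subgroup.mem_center_iff.1 (scalars_le_center hz) g'] at e1
    rw [inv_eq_of_mul_eq_one_right e1, tr_mul_scalar hd, (hm_tr h1 hg').1]
    field_simp

/-- the square of a normalising homology of order four does not lie in `3 A₆` times the scalars -/
theorem not_sq {π : P →* alternatingGroup (Fin 6)} (cv : Cov π) (hP : QS P) (h2 : (2 : F) ≠ 0) (ha : a ^ 2 = -1)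
    (h1 : ψ c = 1) (hg : Hm g c ψ 1 a) (hn : ∀ l ∈ P, g * l * g⁻¹ ∈ P) : g * g ∉ P ⊔ scalars (Fin 3) F := fun hm => by
  have g2 : Hm (g * g) c ψ 1 (-1) := by simpa only [mul_one, ← pow_two, ha, one_pow] using hg.mul h1 hg
  have g4 : g * g * (g * g) = 1 := gext fun y => by simpa using g2.mul h1 g2 y
  have ne : (1 : F) ≠ -1 := fun e => h2 (by linear_combination e)
  obtain ⟨l, hl, d, hd, e, -⟩ := hom_data hP h1 g2 hm
  have ht : -(g * g) ∈ P := by
    have : -(g * g) = l ^ 3 := Units.ext (by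
      have e3 : mx ((g * g) ^ 3) = d ^ 3 • mx (l ^ 3) := by rw [mx, mx, Units.val_pow_eq_pow_val, Units.val_pow_eq_pow_val,
        show (g * g : GL (Fin 3) F).1 = _ from e, smul_pow]
      rw [pow_three, g4, mul_one, hd, neg_one_smul] at e3
      rw [Units.val_neg, show (g * g : GL (Fin 3) F).1 = _ from e3, neg_neg])
    exact this ▸ P.pow_mem hl 3
  have tt : (⟨_, ht⟩ : P) * ⟨_, ht⟩ = 1 := Subtype.ext ((neg_mul_neg _ _).trans g4)
  obtain ⟨b, b1, b2, b3⟩ := alt6 (t := π ⟨_, ht⟩) (by rw [← map_mul, tt, map_one]) fun e => by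
    have e1 := congrArg Subtype.val (cv.lift_unique hP (r := 2) (by decide) (e.trans (map_one π).symm)
      (by rw [pow_two, tt]) (one_pow 2))
    obtain ⟨y, y0, y1, -⟩ := exists_ker_ker ψ ψ
    have e2 := g2.axis y1
    rw [show g * g = -1 from neg_eq_iff_eq_neg.1 e1, neg_gsmul, one_smul, ← neg_one_smul F] at e2
    exact ne (smul_left_injective F y0 e2).symm
  obtain ⟨b, rfl⟩ := cv.surj b
  have c1 : (⟨_, ht⟩ : P) * (b * ⟨_, ht⟩ * b⁻¹) * (⟨_, ht⟩ : P)⁻¹ = b * ⟨_, ht⟩ * b⁻¹ :=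
    cv.lift_unique hP (r := 2) (by decide) (by simpa only [map_mul, map_inv, mul_inv_eq_iff_eq_mul] using b1)
      (by rw [conj_pow, conj_pow, pow_two, tt]; group) (by rw [conj_pow, pow_two, tt]; group)
  have c2 : g * g * (b * (g * g) * (b : GL (Fin 3) F)⁻¹) = b * (g * g) * (b : GL (Fin 3) F)⁻¹ * (g * g) := by
    simpa using congrArg Subtype.val (mul_inv_eq_iff_eq_mul.1 c1)
  have c3 : Commute g (b * g * (b : GL (Fin 3) F)⁻¹) :=
    hm_comm (by simpa using h1) (g2.conj b) ne (hg.conj b) (hm_comm h1 g2 ne hg c2.symm).symm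
  have hnP : g * (b * g * (b : GL (Fin 3) F)⁻¹)⁻¹ ∈ P := by
    simpa [mul_assoc] using P.mul_mem (hn _ b.2) (P.inv_mem b.2)
  have e5 : (b : GL (Fin 3) F) * -(g * g) * (b : GL (Fin 3) F)⁻¹ = -(b * g * (b : GL (Fin 3) F)⁻¹ * (b * g * (b : GL (Fin 3) F)⁻¹)) := by
    rw [conj_mul, mul_neg, neg_mul]
  have n1 : (⟨_, hnP⟩ : P) * ⟨_, ht⟩ = ⟨_, ht⟩ * ⟨_, hnP⟩ := Subtype.ext
    (((Commute.refl g).mul_right (Commute.refl g)).mul_left (c3.symm.mul_right c3.symm).inv_left).neg_right.eq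
  have n2 : (⟨_, hnP⟩ : P) * (b * ⟨_, ht⟩ * b⁻¹) = b * ⟨_, ht⟩ * b⁻¹ * ⟨_, hnP⟩ := Subtype.ext (by
    simp only [Subgroup.coe_mul, Subgroup.coe_inv, e5]
    exact ((c3.mul_right c3).mul_left ((Commute.refl _).mul_right (Commute.refl _)).inv_left).neg_right.eq)
  have n3 : (⟨_, hnP⟩ : P) * ⟨_, hnP⟩ * (b * ⟨_, ht⟩ * b⁻¹) = ⟨_, ht⟩ := Subtype.ext (by
    simp only [Subgroup.coe_mul, Subgroup.coe_inv, e5]
    generalize (b : GL (Fin 3) F) * g * (b : GL (Fin 3) F)⁻¹ = h at c3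
    rw [mul_neg, c3.inv_right.symm.mul_mul_mul_comm, ← _root_.mul_inv_rev, inv_mul_cancel_right])
  have n4 := congrArg π n3
  rw [map_mul, map_mul, b3 _ (by simpa only [map_mul] using congrArg π n1)
    (by simpa only [map_mul, map_inv] using congrArg π n2), one_mul, map_mul, map_mul, map_inv] at n4
  exact b2 n4

theorem nrm_comm {K : Subgroup (GL (Fin 3) F)} (hg : Nrm K g) : ∀ l ∈ ⁅K, K⁆, g * l * g⁻¹ ∈ ⁅K, K⁆ := fun l hl => by
  have h : K.map (MulAut.conj g).toMonoidHom ≤ K := by rintro _ ⟨a, ha, rfl⟩; exact hg a ha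
  exact Subgroup.commutator_mono h h
    (Subgroup.map_commutator K K (MulAut.conj g).toMonoidHom ▸ Subgroup.mem_map_of_mem (MulAut.conj g).toMonoidHom hl)

/-- the common shape of the two cases -/
theorem jw {K : Subgroup (GL (Fin 3) F)} (hg : RfGen K) {e : Fin 3 → Fin 3 → F} {x : Fin 3 → Dual F (Fin 3 → F)}
    (hb : Bi e x) (h3 : (3 : F) ≠ 0) (hk : ∀ a : F, a ^ 2 = -1 ∨ a ^ 2 + a + 1 = 0 → ∀ g c ψ, ψ c = 1 → Hm g c ψ 1 a →
      (∀ l ∈ ⁅K, K⁆, g * l * g⁻¹ ∈ ⁅K, K⁆) → False)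
    (hω : ∃ ω : F, ω ^ 2 + ω + 1 = 0 ∧ ∃ l ∈ ⁅K, K⁆, mx l = ω • 1) : JW K e x := by
  have key : ∀ a : F, a ^ 2 = -1 ∨ a ^ 2 + a + 1 = 0 → NH K e x a := fun a ha c ψ g _ h1 h hn =>
    hk a ha g c ψ h1 (fun y => by rw [h, one_smul]) (nrm_comm (KG_eq_of_card hg hb (by simp) ▸ hn))
  obtain ⟨ω, h1, l, hl, h2⟩ := hω
  refine ⟨h3, fun i hi => key i (Or.inl hi), fun w hw => key w (Or.inr hw), ω, h1, l, (Subgroup.commutator_le.2
    fun a ha b hb => mul_mem (mul_mem (mul_mem ha hb) (inv_mem ha)) (inv_mem hb)) hl, fun y => ?_⟩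
  rw [hb.pr_eq_self (by simp), gsmul_def, show (l : Matrix (Fin 3) (Fin 3) F) = _ from h2, smul_mulVec, one_mulVec]
  module

end A67

open A67 in
theorem subA67 : SubA67.{u} := by
  intro d6 d7 F _ _ K h2 hg hP hc e x hb
  have h4 : (4 : F) ≠ 0 := fun h => mul_ne_zero h2 h2 (by linear_combination h)
  rcases hc with ⟨h3, ⟨E⟩⟩ | ⟨h5, ⟨E⟩⟩ <;> obtain ⟨π, cv⟩ := exists_cov E
  · obtain ⟨⟨ω, τ, hω, -, hl, -, htr⟩, -, hn⟩ := d6 F _ hP h3 ⟨E⟩
    refine ⟨nq (by simp) cv hP, jw hg hb h3 (fun a ha g c ψ h1 h hN => ?_) ⟨ω, hω, hl⟩⟩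
    have kill : g ∉ ⁅K, K⁆ ⊔ scalars (Fin 3) F := fun hm => by
      obtain ⟨l, hl, d, e1, -, e2, e3⟩ := hom_data hP h1 h hm
      obtain ⟨i, t, -, e4, e5⟩ := htr l hl
      have w3 : (ω ^ i) ^ 3 = 1 := by
        rw [← pow_mul, mul_comm, pow_mul, show ω ^ 3 = 1 by linear_combination (ω - 1) * hω, one_pow]
      have e6 : tr l ^ 3 = tr l⁻¹ ^ 3 := by
        rw [e4, e5, mul_comm 2, pow_mul, mul_pow, mul_pow, pow_right_comm _ 2, w3, one_pow]
      have e7 : a * (2 + a) ^ 3 = (2 * a + 1) ^ 3 := mul_left_cancel₀ (h.right_ne_zero h1) (by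
        have := congrArg (· ^ 3) e3
        simp only [mul_pow, e1] at this
        rw [← this, ← e6, ← e2, mul_pow, e1]; ring)
      rcases ha with ha | ha
      · exact h4 (by linear_combination -a * e7 + (a ^ 3 - 2 * a ^ 2 - a + 4) * ha)
      · exact mul_ne_zero h3 h3 (by linear_combination -(a + 2) * e7 + (a ^ 3 - a ^ 2 - 4 * a + 7) * ha)
    have sq : g * g ∈ ⁅K, K⁆ ⊔ scalars (Fin 3) F := ((hn g g hN hN).resolve_left kill).resolve_left kill
    rcases ha with ha | ha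
    · exact not_sq cv hP h2 ha h1 h hN sq
    · have g3 : g ^ 3 = 1 := gext fun y => by
        simpa [show a ^ 3 = 1 by linear_combination (a - 1) * ha] using h.pow h1 3 y
      have := mul_mem sq sq
      rw [← mul_assoc, ← pow_three', g3, one_mul] at this
      exact kill this
  · obtain ⟨-, hn, htr⟩ := d7 F _ hP h5 ⟨E⟩
    have h3 : (3 : F) ≠ 0 := fun h => one_ne_zero (α := F) (by linear_combination 2 * h - h5)
    refine ⟨nq (by simp) cv hP, jw hg hb h3 (fun a ha g c ψ h1 h hN => ?_) ?_⟩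
    · obtain ⟨l, hl, d, e1, -, e2, e3⟩ := hom_data hP h1 h (hn g hN)
      have e7 : (2 + a) ^ 5 = a * (2 * a + 1) := mul_left_cancel₀ (h.right_ne_zero h1) (by
        rw [← e2, mul_pow, htr l hl, mul_left_comm, e3, ← e1]; ring)
      rcases ha with ha | ha
      · exact h4 (by linear_combination e7 - (a ^ 3 + 10 * a ^ 2 + 39 * a + 68) * ha + (8 - 8 * a) * h5)
      · exact h3 (by linear_combination e7 - (a ^ 3 + 9 * a ^ 2 + 30 * a + 39) * ha + (2 - 2 * a) * h5)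
    · obtain ⟨a, ha⟩ := cv.surj x7
      obtain ⟨b, hb⟩ := cv.surj y7
      obtain ⟨ω, hω, hz⟩ := hP.exists_omega ((cv.ker ⁅a, b⁆).1 (by
        rw [map_commutatorElement, commutatorElement_eq_one_iff_mul_comm, ha, hb, rel7.1]))
        (cv.comm_ne_one hP h3 (y := i7) (by rw [ha, hb]; exact E7))
      exact ⟨ω, hω, _, (⁅a, b⁆ : (⁅K, K⁆ : Subgroup _)).2, hz⟩

end CL.Low5
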