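/-
Project LOW5, characteristic two: the fusion data of a Sylow 2-subgroup in normal form.
-/
import Cfsg.Agent.Low5.Defs2

set_option autoImplicit false
set_option linter.unusedSectionVars false

namespace CL.Low5

open Matrix Cfsg Cfsg.Geo CL.Asch CL.SLn CL.Low Module
open scoped commutatorElement

universe u

namespace B1

variable {F : Type u} [Field F] {P : Subgroup (G F)} {S : Sylow 2 P} {s t : P}
  {a d g h b e k f a' d' g' h' b' e' k' f' : F}

theorem utm_mul : utm a d g h b e k f * utm a' d' g' h' b' e' k' f' =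
    utm (a + a') (d + d' + a * b') (g + g' + a * e') (h + h' + a * k' + d * f' + g * a') (b + b') (e + e')
      (k + k' + b * f' + e * a') (f + f') := by
  ext i j
  fin_cases i <;> fin_cases j <;> simp [utm, Matrix.mul_apply, Fin.sum_univ_five] <;> ring

theorem utm_inj (H : utm a d g h b e k f = utm a' d' g' h' b' e' k' f') :
    a = a' ∧ d = d' ∧ g = g' ∧ h = h' ∧ b = b' ∧ e = e' ∧ k = k' ∧ f = f' :=
  ⟨congrFun₂ H 0 1, congrFun₂ H 0 2, congrFun₂ H 0 3, congrFun₂ H 0 4, congrFun₂ H 1 2, congrFun₂ H 1 3,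
    congrFun₂ H 1 4, congrFun₂ H 2 4⟩

theorem utm_zero : (utm 0 0 0 0 0 0 0 0 : Matrix (Fin 5) (Fin 5) F) = 1 := by
  ext i j
  fin_cases i <;> fin_cases j <;> simp [utm]

theorem utm_vec (x : V F) : utm a d g h b e k f *ᵥ x = x + ![a * x 1 + d * x 2 + g * x 3 + h * x 4,
    b * x 2 + e * x 3 + k * x 4, f * x 4, a * x 4, 0] := by
  ext i
  fin_cases i <;> simp [utm, Matrix.mulVec, dotProduct, Fin.sum_univ_five] <;> ring

/-- the matrix of `s` -/
def M (s : P) (a d g h b e k f : F) : Prop := (s : G F).val = utm a d g h b e k f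

theorem M.mul (h1 : M s a d g h b e k f) (h2 : M t a' d' g' h' b' e' k' f') :
    M (s * t) (a + a') (d + d' + a * b') (g + g' + a * e') (h + h' + a * k' + d * f' + g * a') (b + b') (e + e')
      (k + k' + b * f' + e * a') (f + f') := by
  rw [M, ← utm_mul, ← h1, ← h2]; rfl

theorem M.inj (h1 : M s a d g h b e k f) (h2 : M s a' d' g' h' b' e' k' f') :
    a = a' ∧ d = d' ∧ g = g' ∧ h = h' ∧ b = b' ∧ e = e' ∧ k = k' ∧ f = f' := utm_inj (h1.symm.trans h2)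

theorem M.one : M (1 : P) 0 0 0 0 0 0 0 0 := utm_zero.symm

theorem M.ext (h1 : M s a d g h b e k f) (h2 : M t a' d' g' h' b' e' k' f')
    (H : a = a' ∧ d = d' ∧ g = g' ∧ h = h' ∧ b = b' ∧ e = e' ∧ k = k' ∧ f = f') : s = t := by
  obtain ⟨rfl, rfl, rfl, rfl, rfl, rfl, rfl, rfl⟩ := H
  exact Subtype.ext (Units.ext (h1.trans h2.symm))

theorem M.vec (h1 : M s a d g h b e k f) (x : V F) : (s : G F) • x = x + ![a * x 1 + d * x 2 + g * x 3 + h * x 4,
    b * x 2 + e * x 3 + k * x 4, f * x 4, a * x 4, 0] := by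
  rw [gsmul_def, h1, utm_vec]

/-- a row as a functional -/
def row (d g h : F) : Dual F (V F) := d • LinearMap.proj 2 + g • LinearMap.proj 3 + h • LinearMap.proj 4

theorem row_apply (x : V F) : row d g h x = d * x 2 + g * x 3 + h * x 4 := rfl

theorem M.dep (hT : ¬ HasTv P) (h1 : M s 0 d g h b e k 0) {φ : Dual F (V F)} {p q : F} (h0 : p ≠ 0 ∨ q ≠ 0)
    (hφ : φ ![p, q, 0, 0, 0] = 0) (hp : ∀ x, row d g h x = φ x * p) (hq : ∀ x, row b e k x = φ x * q) : s = 1 := by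
  have h2 : ∀ x, (s : G F) • x = x + φ x • ![p, q, 0, 0, 0] := fun x => by
    rw [h1.vec]
    congr 1
    ext i
    fin_cases i <;> simp [← hp, ← hq, row_apply]
  rcases not_tv hT s.2 hφ h2 with h3 | rfl
  · exact absurd ⟨congrFun h3 0, congrFun h3 1⟩ (not_and_or.2 h0)
  · exact Subtype.ext (gext fun x => by simp [h2])

theorem M.rng (hT : ¬ HasTv P) (h1 : M s 0 d g h b e k 0) (h0 : s ≠ 1) (p q : F) :
    ∃ x : V F, (s : G F) • x = x + ![p, q, 0, 0, 0] := by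
  obtain ⟨x, hx⟩ : ∃ x, row b e k x ≠ 0 := by
    by_contra h2
    push Not at h2
    exact h0 (h1.dep hT (φ := row d g h) (p := 1) (q := 0) (Or.inl one_ne_zero) (by simp [row_apply]) (by simp)
      (by simp [h2]))
  obtain ⟨y, hy⟩ : ∃ y, row d g h y * row b e k x - row b e k y * row d g h x ≠ 0 := by
    by_contra h2
    push Not at h2
    exact h0 (h1.dep hT (φ := row b e k) (p := row d g h x / row b e k x) (q := 1) (Or.inr one_ne_zero)
      (by simp [row_apply]) (fun y => by field_simp; linear_combination h2 y) (by simp))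
  obtain ⟨z, h3, h4⟩ : ∃ z, row d g h z = p ∧ row b e k z = q := by
    refine ⟨(row d g h y * row b e k x - row b e k y * row d g h x)⁻¹ • ((p * row b e k x - q * row d g h x) • y +
      (q * row d g h y - p * row b e k y) • x), ?_, ?_⟩ <;>
    · simp only [map_smul, map_add, smul_eq_mul]
      field_simp
      ring
  exact ⟨z, by rw [h1.vec, ← h3, ← h4]; simp [row_apply]⟩

theorem M.eq (hT : ¬ HasTv P) (h1 : M s a d g h b e k f) (h2 : M t a' d' g' h' b' e' k' f')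
    (H : a = a' ∧ b = b' ∧ e = e' ∧ k = k' ∧ f = f') : s = t := by
  obtain ⟨rfl, rfl, rfl, rfl, rfl⟩ := H
  have h3 : M (s⁻¹ * t) 0 (d' - d) (g' - g) (h' - h) 0 0 0 0 := by
    have : (t : G F).val = (s : G F).val * utm 0 (d' - d) (g' - g) (h' - h) 0 0 0 0 := by
      rw [h1, h2, utm_mul]; simp
    change (s : G F)⁻¹.val * (t : G F).val = _
    rw [this, Units.inv_mul_cancel_left]
  exact inv_mul_eq_one.1 (h3.dep hT (φ := row (d' - d) (g' - g) (h' - h)) (p := 1) (q := 0) (Or.inl one_ne_zero)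
    (by simp [row_apply]) (by simp) (by simp [row_apply]))

variable {E B : Subgroup P}

theorem memE (H : IsEB P S E B) (hs : s ∈ (S : Subgroup P)) (h1 : M s a d g h b e k f) : s ∈ E ↔ a = 0 := by
  rw [H.1, h1]; exact and_iff_right hs

theorem memB (H : IsEB P S E B) (hs : s ∈ (S : Subgroup P)) (h1 : M s a d g h b e k f) : s ∈ B ↔ b = 0 ∧ e = 0 := by
  rw [H.2, h1]; exact and_iff_right hs

theorem formE (U : UTS P S) (H : IsEB P S E B) (hs : s ∈ E) : ∃ d g h b e k : F, M s 0 d g h b e k 0 := by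
  obtain ⟨a, d, g, h, b, e, k, f, h1, h2⟩ := U.form s ((H.1 s).1 hs).1
  obtain rfl := (memE H ((H.1 s).1 hs).1 h1).1 hs
  obtain rfl := h2 rfl
  exact ⟨d, g, h, b, e, k, h1⟩

theorem formB (U : UTS P S) (H : IsEB P S E B) (hs : s ∈ B) : ∃ a d g h k f : F, M s a d g h 0 0 k f := by
  obtain ⟨a, d, g, h, b, e, k, f, h1, -⟩ := U.form s ((H.2 s).1 hs).1
  obtain ⟨rfl, rfl⟩ := (memB H ((H.2 s).1 hs).1 h1).1 hs
  exact ⟨a, d, g, h, k, f, h1⟩

theorem sqE (U : UTS P S) (H : IsEB P S E B) (hs : s ∈ E) : s * s = 1 := by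
  obtain ⟨d, g, h, b, e, k, h1⟩ := formE U H hs
  have := U.two
  exact (h1.mul h1).ext M.one (by grind)

theorem sqB (U : UTS P S) (H : IsEB P S E B) (hs : s ∈ B) : s * s = 1 := by
  obtain ⟨a, d, g, h, k, f, h1⟩ := formB U H hs
  have := U.two
  exact M.eq U.noTv (h1.mul h1) M.one (by grind)

/-- the ranges of `δ - 1` -/
theorem rng (U : UTS P S) (H : IsEB P S E B) (hs : s ∈ E) (h1 : s ≠ 1) (ht : t ∈ E) (w : V F) :
    ∃ x : V F, (s : G F) • x - x = (t : G F) • w - w := by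
  obtain ⟨d, g, h, b, e, k, h2⟩ := formE U H hs
  obtain ⟨d', g', h', b', e', k', h3⟩ := formE U H ht
  obtain ⟨x, hx⟩ := h2.rng U.noTv h1 (d' * w 2 + g' * w 3 + h' * w 4) (b' * w 2 + e' * w 3 + k' * w 4)
  exact ⟨x, by rw [hx, h3.vec]; simp⟩

theorem img (U : UTS P S) (H : IsEB P S E B) {y δ : P} (h1 : δ ≠ 1) (h2 : y⁻¹ * δ * y ∈ E) (h3 : δ ∈ E) (hs : s ∈ E)
    (h4 : y * s * y⁻¹ ∈ (S : Subgroup P)) : y * s * y⁻¹ ∈ E := by
  obtain ⟨d, g, h, b, e, k, m1⟩ := formE U H h3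
  obtain ⟨d', g', h', b', e', k', m2⟩ := formE U H h2
  obtain ⟨d'', g'', h'', b'', e'', k'', m3⟩ := formE U H hs
  obtain ⟨a₄, d₄, g₄, h₄, b₄, e₄, k₄, f₄, m4, -⟩ := U.form _ h4
  obtain ⟨x, hx⟩ := m1.rng U.noTv h1 0 1
  have h5 := m2.vec ((y : G F)⁻¹ • x)
  rw [Subgroup.coe_mul, Subgroup.coe_mul, mul_smul, smul_inv_smul, mul_smul, hx, smul_add, Subgroup.coe_inv,
    add_right_inj] at h5
  have h6 := M.vec m4 ![0, 1, 0, 0, 0]
  rw [Subgroup.coe_mul, Subgroup.coe_mul, mul_smul, mul_smul, Subgroup.coe_inv, m3.vec, smul_add, smul_inv_smul,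
    add_right_inj, h5] at h6
  rw [memE H h4 m4]
  simpa [show (![0, 0, 0, 0, 0] : V F) = 0 from funext fun i => by fin_cases i <;> rfl] using (congrFun h6 0).symm

end B1

open B1 in
theorem subB1 : SubB1.{u} := by
  intro F _ _ P S U
  have h2 := U.two
  have hi : ∀ s ∈ (S : Subgroup P), ((s⁻¹ : P) : G F).val 0 1 = (s : G F).val 0 1 ∧
      ((s⁻¹ : P) : G F).val 1 2 = (s : G F).val 1 2 ∧ ((s⁻¹ : P) : G F).val 1 3 = (s : G F).val 1 3 := fun s hs => by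
    obtain ⟨a, d, g, h, b, e, k, f, m1, -⟩ := U.form s hs
    obtain ⟨a', d', g', h', b', e', k', f', m2, -⟩ := U.form _ (inv_mem hs)
    have := (M.mul m1 m2).inj (mul_inv_cancel s ▸ M.one)
    rw [m1, m2]
    change a' = a ∧ b' = b ∧ e' = e
    grind
  have hm : ∀ s ∈ (S : Subgroup P), ∀ t ∈ (S : Subgroup P),
      ((s * t : P) : G F).val 0 1 = (s : G F).val 0 1 + (t : G F).val 0 1 ∧
      ((s * t : P) : G F).val 1 2 = (s : G F).val 1 2 + (t : G F).val 1 2 ∧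
      ((s * t : P) : G F).val 1 3 = (s : G F).val 1 3 + (t : G F).val 1 3 := fun s hs t ht => by
    obtain ⟨a, d, g, h, b, e, k, f, m1, -⟩ := U.form s hs
    obtain ⟨a', d', g', h', b', e', k', f', m2, -⟩ := U.form _ ht
    rw [M.mul m1 m2, m1, m2]
    exact ⟨rfl, rfl, rfl⟩
  let E : Subgroup P :=
    { carrier := {s | s ∈ (S : Subgroup P) ∧ (s : G F).val 0 1 = 0}
      mul_mem' := fun {s t} hs ht => ⟨mul_mem hs.1 ht.1, by rw [(hm s hs.1 t ht.1).1, hs.2, ht.2, add_zero]⟩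
      one_mem' := ⟨one_mem _, rfl⟩
      inv_mem' := fun {s} hs => ⟨inv_mem hs.1, (hi s hs.1).1.trans hs.2⟩ }
  let B : Subgroup P :=
    { carrier := {s | s ∈ (S : Subgroup P) ∧ (s : G F).val 1 2 = 0 ∧ (s : G F).val 1 3 = 0}
      mul_mem' := fun {s t} hs ht => ⟨mul_mem hs.1 ht.1, by rw [(hm s hs.1 t ht.1).2.1, hs.2.1, ht.2.1, add_zero],
        by rw [(hm s hs.1 t ht.1).2.2, hs.2.2, ht.2.2, add_zero]⟩
      one_mem' := ⟨one_mem _, rfl, rfl⟩
      inv_mem' := fun {s} hs => ⟨inv_mem hs.1, (hi s hs.1).2.1.trans hs.2.1, (hi s hs.1).2.2.trans hs.2.2⟩ }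
  have H : IsEB P S E B := ⟨fun _ => Iff.rfl, fun _ => Iff.rfl⟩
  refine ⟨E, B, H, fun s hs => hs.1, fun s hs => hs.1, fun s => sqE U H, fun s => sqB U H, fun δ hδ s hs => ?_,
    fun s hs t ht => ?_, fun s hs h1 => ?_, fun δ hδ h1 s hs h3 h4 => ?_, fun δ hδ h1 s hs h3 h4 => ?_, ?_,
    fun g δ hδ h1 h3 s hs h4 => ⟨fun h5 => img U H (δ := g * δ * g⁻¹) (by simpa using h1) (by simpa [mul_assoc] using hδ)
      h3 h5 h4, fun h5 => by
        simpa [mul_assoc] using img U H (y := g⁻¹) h1 (by simpa using h3) hδ h5 (by simpa [mul_assoc] using hs)⟩⟩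
  · obtain ⟨d, g, h, b, e, k, m1⟩ := formE U H hδ.1
    obtain ⟨rfl, rfl⟩ := (memB H hδ.1.1 m1).1 hδ.2
    obtain ⟨a', d', g', h', b', e', k', f', m2, -⟩ := U.form _ hs
    exact M.eq U.noTv (m1.mul m2) (M.mul m2 m1) (by grind)
  · have hc : ⁅s, t⁆ ∈ (S : Subgroup P) := mul_mem (mul_mem (mul_mem hs ht) (inv_mem hs)) (inv_mem ht)
    have h3 := hm _ hc _ (mul_mem ht hs)
    rw [show ⁅s, t⁆ * (t * s) = s * t by simp [commutatorElement_def]] at h3
    have h4 := hm s hs t ht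
    have h5 := hm t ht s hs
    exact ⟨⟨hc, by linear_combination h4.1 - h3.1 - h5.1⟩, hc, by linear_combination h4.2.1 - h3.2.1 - h5.2.1,
      by linear_combination h4.2.2 - h3.2.2 - h5.2.2⟩
  · obtain ⟨a, d, g, h, b, e, k, f, m1, -⟩ := U.form s hs
    have := (M.mul m1 m1).inj (h1 ▸ M.one)
    rw [memE H hs m1, memB H hs m1]
    grind
  · obtain ⟨d, g, h, b, e, k, m1⟩ := formE U H hδ
    obtain ⟨a', d', g', h', b', e', k', f', m2, -⟩ := U.form _ hs
    have := (m1.mul m2).inj (h4.eq ▸ M.mul m2 m1)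
    rw [memB H hδ.1 m1] at h1
    rw [memE H hs m2] at h3
    grind
  · obtain ⟨a, d, g, h, k, f, m1⟩ := formB U H hδ
    obtain ⟨a', d', g', h', b', e', k', f', m2, -⟩ := U.form _ hs
    have := (m1.mul m2).inj (h4.eq ▸ M.mul m2 m1)
    rw [memE H hδ.1 m1] at h1
    rw [memB H hs m2] at h3
    grind
  · obtain ⟨z, hz, m⟩ := U.zz
    exact ⟨z, ⟨(memE H hz m).2 rfl, (memB H hz m).2 ⟨rfl, rfl⟩⟩, fun e =>
      one_ne_zero (M.inj m (e ▸ M.one)).2.2.1⟩

open B1 in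
theorem subKey : SubKey.{u} := by
  intro F _ _ P S U E B H y h1 h2 h3
  have two := U.two
  have hE : ∀ s ∈ E, s ∈ (S : Subgroup P) := fun s hs => ((H.1 s).1 hs).1
  have hB : ∀ s ∈ B, s ∈ (S : Subgroup P) := fun s hs => ((H.2 s).1 hs).1
  have cov : ∀ s ∈ (S : Subgroup P), ∀ {a d g h b e k f : F}, M s a d g h b e k f →
      ∃ δ ∈ E, ∃ d g h k : F, M (y * δ * y⁻¹) a d g h 0 0 k f := fun s hs a d g h b e k f m => by
    obtain ⟨δ, hδ, h4⟩ := h2 s hs
    obtain ⟨a', d', g', h', k', f', m1⟩ := formB U H (h1 δ hδ)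
    obtain ⟨d'', g'', h'', b'', e'', k'', m2⟩ := formE U H h4
    have := (m.mul m2).inj ((mul_inv_cancel_left s (y * δ * y⁻¹)).symm ▸ m1)
    refine ⟨δ, hδ.1, d', g', h', k', ?_⟩
    convert m1 using 1 <;> grind
  have lam : ∀ s ∈ (S : Subgroup P), ∀ t ∈ (S : Subgroup P), ∀ {a d g h b e k f a' d' g' h' b' e' k' f' : F},
      M s a d g h b e k f → M t a' d' g' h' b' e' k' f' → a ≠ 0 → a * f' = a' * f := by
    intro s hs t ht a d g h b e k f a' d' g' h' b' e' k' f' m m' ha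
    obtain ⟨δ, hδ, d₁, g₁, h₁, k₁, m1⟩ := cov s hs m
    obtain ⟨δ', hδ', d₂, g₂, h₂, k₂, m2⟩ := cov t ht m'
    obtain ⟨x, hx⟩ := rng U H hδ (by
      rintro rfl
      exact ha (m1.inj (by simpa using M.one)).1) hδ' ((y : G F)⁻¹ • ![0, 0, 0, 0, 1])
    have h4 := m1.vec ((y : G F) • x)
    have h5 := m2.vec ![0, 0, 0, 0, 1]
    simp only [Subgroup.coe_mul, Subgroup.coe_inv, mul_smul, inv_smul_smul] at h4 h5
    have h6 := congrArg ((y : G F) • ·) hx
    simp only [smul_sub, smul_inv_smul, h4, h5, add_sub_cancel_left] at h6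
    have h7 := congrFun h6 2
    have h8 := congrFun h6 3
    simp at h7 h8
    grind
  have com : ∀ ε ∈ E, ε ∉ B → ∀ {d g h b e k : F}, M ε 0 d g h b e k 0 → ∀ δ ∈ E ⊓ B, ∃ β ∈ (S : Subgroup P),
      ∃ a d' g' h' k' f : F, M β a d' g' h' 0 0 k' f ∧
        M δ 0 (a * b) (a * e) (a * k + d * f + g * a + a * (b * f + e * a)) 0 0 (b * f + e * a) 0 :=
    fun ε hε hε' d g h b e k m δ hδ => by
      obtain ⟨β, hβ, rfl⟩ := h3 ε hε hε' δ hδ
      obtain ⟨a', d', g', h', k', f', m1⟩ := formB U H hβ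
      have h4 := (m1.mul m1).inj (sqB U H hβ ▸ M.one)
      refine ⟨β, hB β hβ, a', d', g', h', k', f', m1, ?_⟩
      rw [show ⁅ε, β⁆ = ε * β * (ε * β) by
        rw [commutatorElement_def, ← eq_inv_of_mul_eq_one_left (sqE U H hε), ← eq_inv_of_mul_eq_one_left (sqB U H hβ),
          mul_assoc]]
      convert (m.mul m1).mul (m.mul m1) using 1 <;> grind
  by_contra hc
  rw [not_or] at hc
  obtain ⟨hl, hr⟩ := hc
  push Not at hr
  obtain ⟨ε, hε, ε', hε', n1, n2, n3⟩ := hr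
  obtain ⟨d, g, h, b, e, k, m⟩ := formE U H hε
  obtain ⟨d', g', h', b', e', k', m'⟩ := formE U H hε'
  obtain ⟨z, hz, mz⟩ := U.zz
  have hzD : z ∈ E ⊓ B := ⟨(memE H hz mz).2 rfl, (memB H hz mz).2 ⟨rfl, rfl⟩⟩
  obtain ⟨β₀, hβ₀, a₀, _, _, _, _, f₀, m₀, z₀⟩ := com ε hε n1 m z hzD
  obtain ⟨β₁, hβ₁, a₁, _, _, _, _, f₁, m₁, z₁⟩ := com ε' hε' n2 m' z hzD
  have e₀ := z₀.inj mz
  have e₁ := z₁.inj mz
  have ha₀ : a₀ ≠ 0 := by grind
  obtain rfl : b = 0 := by grind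
  obtain rfl : b' = 0 := by grind
  rw [memB H (hE _ (mul_mem hε hε')) (m.mul m')] at n3
  have key : ∀ δ ∈ E ⊓ B, δ ≠ 1 → ∃ a f : F, M δ 0 0 (a * e) (a * k + d * f + g * a + a * (e * a)) 0 0 (e * a) 0 ∧
      a₀ * f = a * f₀ ∧ a₀ * (e + e') * (a * e) =
        (a₀ * k + d * f₀ + g * a₀) * e' + (a₀ * k' + d' * f₀ + g' * a₀) * e := fun δ hδ h4 => by
    obtain ⟨β, hβ, a, _, _, _, _, f, n, z⟩ := com ε hε n1 m δ hδ
    obtain ⟨β', hβ', a', _, _, _, _, f', n', z'⟩ := com ε' hε' n2 m' δ hδ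
    have l1 := lam _ hβ₀ _ hβ m₀ n ha₀
    have l2 := lam _ hβ₀ _ hβ' m₀ n' ha₀
    have l3 := z.inj z'
    have ha : a ≠ 0 := fun e0 => h4 (z.ext M.one (by grind))
    refine ⟨a, f, by simpa using z, l1, mul_left_cancel₀ ha ?_⟩
    grind
  refine hl fun δ hδ δ' hδ' h4 h5 => ?_
  obtain ⟨a, f, n, l1, l2⟩ := key δ hδ h4
  obtain ⟨a', f', n', l1', l2'⟩ := key δ' hδ' h5
  obtain rfl : a = a' := by grind
  obtain rfl : f = f' := by grind
  exact Subtype.ext (Units.ext (n.trans n'.symm))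

end CL.Low5
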