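/-
Project LOW5, job B2 (helper51): a strongly closed abelian subgroup or a dihedral Sylow 2-subgroup.
-/
import Cfsg.Agent.Low5.Defs2
import Cfsg.Agent.Low.TSys

set_option autoImplicit false
set_option linter.unusedSectionVars false

namespace CL.Low5

open Matrix Cfsg Cfsg.Geo CL.Asch CL.SLn CL.Low Module
open scoped commutatorElement

universe u

namespace B2

open Subgroup

variable {H : Type u} [Group H] [Finite H]

theorem comm_of_sq {X : Subgroup H} (h : ∀ a ∈ X, a * a = 1) {a b : H} (ha : a ∈ X) (hb : b ∈ X) : Commute a b := by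
  have h1 := h _ (mul_mem ha hb)
  rw [mul_eq_one_iff_eq_inv, _root_.mul_inv_rev, ← eq_inv_of_mul_eq_one_left (h a ha),
    ← eq_inv_of_mul_eq_one_left (h b hb)] at h1
  exact h1

theorem card_mul_le {X Y W : Subgroup H} (hX : X ≤ W) (hY : Y ≤ W) (hd : Disjoint X Y) :
    Nat.card X * Nat.card Y ≤ Nat.card W ∧ (Nat.card W ≤ Nat.card X * Nat.card Y → ∀ w ∈ W, ∃ x ∈ X, ∃ y ∈ Y, w = x * y) := by
  let f : X × Y → W := fun p => ⟨p.1 * p.2, mul_mem (hX p.1.2) (hY p.2.2)⟩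
  have hf : Function.Injective f := fun p q e => mul_injective_of_disjoint hd (congrArg Subtype.val e)
  refine ⟨Nat.card_prod X Y ▸ Nat.card_le_card_of_injective f hf, fun hle w hw => ?_⟩
  obtain ⟨p, hp⟩ := (hf.bijective_of_nat_card_le (Nat.card_prod X Y ▸ hle)).2 ⟨w, hw⟩
  exact ⟨_, p.1.2, _, p.2.2, (congrArg Subtype.val hp).symm⟩

theorem exists_conj (S : Sylow 2 H) {P : Subgroup H} (hP : IsPGroup 2 P) : ∃ k : H, ∀ x ∈ P, k * x * k⁻¹ ∈ (S : Subgroup H) := by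
  have := Fact.mk Nat.prime_two
  obtain ⟨Q, hQ⟩ := hP.exists_le_sylow
  obtain ⟨k, rfl⟩ := MulAction.exists_smul_eq H Q S
  exact ⟨k, fun x hx => smul_mem_pointwise_smul x (MulAut.conj k) _ (hQ hx)⟩

theorem isP_of_sq {X : Subgroup H} (h : ∀ a ∈ X, a * a = 1) : IsPGroup 2 X := fun a =>
  ⟨1, Subtype.ext (by simpa [pow_two] using h a a.2)⟩

theorem isP_zpowers {a : H} (ha : a * a = 1) : IsPGroup 2 (zpowers a) := isP_of_sq (by
  rintro _ ⟨n, rfl⟩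
  rw [← (Commute.refl a).mul_zpow, ha, _root_.one_zpow])

theorem conj_two (S : Sylow 2 H) {a b : H} (ha : a * a = 1) (hb : b * b = 1) (h : Commute a b) :
    ∃ k : H, k * a * k⁻¹ ∈ (S : Subgroup H) ∧ k * b * k⁻¹ ∈ (S : Subgroup H) := by
  obtain ⟨k, hk⟩ := exists_conj S ((isP_zpowers ha).to_sup_of_normal_left' (isP_zpowers hb) (zpowers_le.2
    (centralizer_le_normalizer _ (by rintro _ ⟨n, rfl⟩; exact h.zpow_left n))))
  exact ⟨k, hk _ (mem_sup_left (mem_zpowers _)), hk _ (mem_sup_right (mem_zpowers _))⟩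

/-- fusion between two weakly closed elementary abelian subgroups -/
theorem fus (S : Sylow 2 H) {X Y : Subgroup H} (lX : X ≤ S) (sX : ∀ a ∈ X, a * a = 1) (sY : ∀ a ∈ Y, a * a = 1)
    (wX : ∀ g : H, (∀ x ∈ X, g * x * g⁻¹ ∈ (S : Subgroup H)) → g ∈ normalizer (X : Set H))
    (wY : ∀ g : H, (∀ x ∈ Y, g * x * g⁻¹ ∈ (S : Subgroup H)) → g ∈ normalizer (Y : Set H))
    (inv : ∀ s ∈ (S : Subgroup H), s * s = 1 → s ∈ X ∨ s ∈ Y) (hn : ¬ IsStronglyClosed X S) :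
    ∃ y ∈ normalizer (Y : Set H), ∃ δ ∈ X ⊓ Y, y * δ * y⁻¹ ∉ X := by
  have := Fact.mk Nat.prime_two
  simp only [IsStronglyClosed, lX, true_and, not_forall] at hn
  obtain ⟨x, hx, g, hu, hu'⟩ := hn
  have huY := (inv _ hu (by rw [conj_mul, sX x hx]; simp)).resolve_left hu'
  set u := g * x * g⁻¹ with hudef
  obtain ⟨T, hT⟩ := ((isP_of_sq sY).comap_subtype (K := centralizer {u})).exists_le_sylow
  obtain ⟨c, hc⟩ := exists_conj T (((isP_of_sq sX).map (MulAut.conj g).toMonoidHom).comap_subtype (K := centralizer {u}))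
  obtain ⟨k, hk⟩ := exists_conj S (T.isPGroup'.map (centralizer {u}).subtype)
  have h1 := wY k fun y hy => hk y ⟨⟨y, mem_centralizer_singleton_iff.2 (comm_of_sq sY hy huY)⟩, hT hy, rfl⟩
  have h2 := wX (k * c * g) fun a ha => by
    have h3 : g * a * g⁻¹ ∈ centralizer {u} := mem_centralizer_singleton_iff.2 (by
      rw [hudef, conj_mul, conj_mul, comm_of_sq sX ha hx])
    have := hk _ ⟨_, hc ⟨_, h3⟩ ⟨a, ha, rfl⟩, rfl⟩
    simpa [mul_assoc] using this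
  have h4 : k * c * g * x * (k * c * g)⁻¹ = k * u * k⁻¹ := by
    calc _ = k * (c * (g * x * g⁻¹) * (c : H)⁻¹) * k⁻¹ := by group
      _ = _ := by rw [← hudef, mem_centralizer_singleton_iff.1 c.2, mul_inv_cancel_right]
  refine ⟨k⁻¹, inv_mem h1, k * u * k⁻¹, ⟨h4 ▸ (mem_normalizer_iff.1 h2 x).1 hx, (mem_normalizer_iff.1 h1 u).1 huY⟩, ?_⟩
  rwa [show k⁻¹ * (k * u * k⁻¹) * k⁻¹⁻¹ = u by group]

variable {S E B : Subgroup H} (h : UF S E B)
include h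

theorem cm_mul {s s' u : H} (hs : s ∈ S) (hs' : s' ∈ S) (hu : u ∈ S) : ⁅s * s', u⁆ = ⁅s, u⁆ * ⁅s', u⁆ := by
  have h1 := h.cen _ (h.com s' hs' u hu)
  calc ⁅s * s', u⁆ = s * ⁅s', u⁆ * s⁻¹ * ⁅s, u⁆ := by simp only [commutatorElement_def]; group
    _ = _ := by rw [← (h1 s hs).eq, mul_inv_cancel_right, (h1 _ (h.leE (h.com s hs u hu).1)).eq]

/-- counting with the homomorphism `s ↦ ⁅s, u⁆` -/
theorem cnt {X K : Subgroup H} (hX : X ≤ S) {u : H} (hu : u ∈ S) (hKX : K ≤ X) (hK : ∀ x ∈ X, Commute x u ↔ x ∈ K) :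
    Nat.card X ≤ Nat.card K * Nat.card (E ⊓ B : Subgroup H) ∧
      (Nat.card K * Nat.card (E ⊓ B : Subgroup H) ≤ Nat.card X → ∀ δ ∈ E ⊓ B, ∃ x ∈ X, ⁅x, u⁆ = δ) := by
  let f : X →* (E ⊓ B : Subgroup H) := MonoidHom.mk' (fun x => ⟨⁅(x : H), u⁆, h.com _ (hX x.2) _ hu⟩)
    fun a b => Subtype.ext (cm_mul h (hX a.2) (hX b.2) hu)
  have h1 : f.ker = K.subgroupOf X := by
    ext x
    rw [MonoidHom.mem_ker, mem_subgroupOf, ← hK x x.2, ← commutatorElement_eq_one_iff_commute, Subtype.ext_iff]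
    rfl
  have h2 := f.ker.card_mul_index
  rw [index_ker, h1, Nat.card_congr (subgroupOfEquivOfLe hKX).toEquiv] at h2
  refine ⟨h2 ▸ Nat.mul_le_mul_left _ (Nat.card_le_card_of_injective _ f.range.subtype_injective), fun hle δ hδ => ?_⟩
  rw [← h2] at hle
  have h3 : f.range = ⊤ := eq_top_of_le_card _ (Nat.le_of_mul_le_mul_left hle Nat.card_pos)
  obtain ⟨x, hx⟩ : (⟨δ, hδ⟩ : (E ⊓ B : Subgroup H)) ∈ f.range := h3 ▸ mem_top _
  exact ⟨x, x.2, congrArg Subtype.val hx⟩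

theorem cE {ε s : H} (hε : ε ∈ E) (hε' : ε ∉ B) (hs : s ∈ S) : Commute s ε ↔ s ∈ E :=
  ⟨fun c => by_contra fun n => h.ncE ε hε hε' s hs n c.symm, fun hs => comm_of_sq h.sqE hs hε⟩
theorem cB {β s : H} (hβ : β ∈ B) (hβ' : β ∉ E) (hs : s ∈ S) : Commute s β ↔ s ∈ B :=
  ⟨fun c => by_contra fun n => h.ncB β hβ hβ' s hs n c.symm, fun hs => comm_of_sq h.sqB hs hβ⟩
theorem cntB {ε : H} (hε : ε ∈ E) (hε' : ε ∉ B) :
    Nat.card B ≤ Nat.card (E ⊓ B : Subgroup H) * Nat.card (E ⊓ B : Subgroup H) ∧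
      (Nat.card (E ⊓ B : Subgroup H) * Nat.card (E ⊓ B : Subgroup H) ≤ Nat.card B → ∀ δ ∈ E ⊓ B, ∃ x ∈ B, ⁅x, ε⁆ = δ) :=
  cnt h h.leB (h.leE hε) inf_le_right fun _ hx => (cE h hε hε' (h.leB hx)).trans ⟨fun e => ⟨e, hx⟩, fun e => e.1⟩

theorem wE {ε : H} (hε : ε ∈ E) (hε' : ε ∉ B) (g : H) (hg : ∀ x ∈ E, g * x * g⁻¹ ∈ S) : g ∈ normalizer (E : Set H) := by
  refine mem_normalizer_fintype fun x hx => ?_
  by_cases h1 : ∃ δ ∈ E, δ ≠ 1 ∧ g * δ * g⁻¹ ∈ E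
  · obtain ⟨δ, hδ, h2, h3⟩ := h1
    exact (h.img g δ hδ h2 h3 x (h.leE hx) (hg x hx)).1 hx
  push Not at h1
  have h2 := (card_mul_le (X := E.map (MulAut.conj g).toMonoidHom) (Y := E ⊓ B) (W := B) (by
    rintro _ ⟨a, ha, rfl⟩
    by_cases e : a = 1
    · rw [e, map_one]; exact one_mem _
    · exact (h.inv _ (hg a ha) (by rw [conj_mul, h.sqE a ha]; simp)).resolve_left (h1 a ha e)) inf_le_right
    (disjoint_def.2 (by
      rintro _ ⟨a, ha, rfl⟩ hb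
      by_contra e
      exact h1 a ha (fun e' => e (by rw [e', map_one])) hb.1))).1
  rw [card_map_of_injective (MulAut.conj g).injective] at h2
  have h3 := Nat.le_of_mul_le_mul_right (h2.trans (cntB h hε hε').1) Nat.card_pos
  exact (hε' ((eq_of_le_of_card_ge inf_le_left h3).ge hε).2).elim

theorem wB {β : H} (hβ : β ∈ B) (hβ' : β ∉ E) (g : H) (hg : ∀ x ∈ B, g * x * g⁻¹ ∈ S) : g ∈ normalizer (B : Set H) := by
  refine mem_normalizer_fintype fun x hx => by_contra fun h1 => ?_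
  have h2 := (h.inv _ (hg x hx) (by rw [conj_mul, h.sqB x hx]; simp)).resolve_right h1
  have h3 : ∀ b ∈ B, g * b * g⁻¹ ∈ E := fun b hb => (cE h h2 h1 (hg b hb)).1 (by
    rw [Commute, SemiconjBy, conj_mul, conj_mul, comm_of_sq h.sqB hb hx])
  obtain ⟨δ, hδ, h4⟩ := h.ne
  exact hβ' ((h.img g δ hδ.1 h4 (h3 δ hδ.2) β (h.leB hβ) (hg β hβ)).2 (h3 β hβ))

theorem dih {ε β : H} (hε : ε ∈ E) (hε' : ε ∉ B) (hβ : β ∈ B) (hβ' : β ∉ E)
    (h2 : ∀ δ ∈ E ⊓ B, ∀ δ' ∈ E ⊓ B, δ ≠ 1 → δ' ≠ 1 → δ = δ') : Nonempty (S ≃* DihedralGroup 4) := by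
  have := Fact.mk Nat.prime_two
  have sε := h.leE hε
  have sβ := h.leB hβ
  have iε := eq_inv_of_mul_eq_one_left (h.sqE ε hε)
  have iβ := eq_inv_of_mul_eq_one_left (h.sqB β hβ)
  have nc : ¬ Commute ε β := h.ncE ε hε hε' β sβ hβ'
  have hz := h.com ε sε β sβ
  have z1 : ⁅ε, β⁆ ≠ 1 := fun e => nc (commutatorElement_eq_one_iff_commute.1 e)
  have zz := h.sqE _ hz.1
  have hD : ∀ δ ∈ E ⊓ B, δ = 1 ∨ δ = ⁅ε, β⁆ := fun δ hδ => or_iff_not_imp_left.2 fun e => h2 δ hδ _ hz e z1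
  have sq : (ε * β) ^ 2 = ⁅ε, β⁆ := by rw [commutatorElement_def, ← iε, ← iβ, pow_two]; group
  have k0 : ∀ g ∈ S, ⁅g, ε⁆ = 1 → ⁅g, β⁆ = 1 → g ∈ zpowers (ε * β) := fun g hg e e' => by
    rcases hD g ⟨(cE h hε hε' hg).1 (commutatorElement_eq_one_iff_commute.1 e),
      (cB h hβ hβ' hg).1 (commutatorElement_eq_one_iff_commute.1 e')⟩ with rfl | rfl
    exacts [one_mem _, sq ▸ pow_mem (mem_zpowers _) 2]
  have c1 : ⁅β, ε⁆ = ⁅ε, β⁆ := by rw [← commutatorElement_inv, inv_eq_of_mul_eq_one_left zz]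
  have k1 : ∀ g ∈ S, ⁅g, ε⁆ = ⁅g, β⁆ → g ∈ zpowers (ε * β) := fun g hg e => by
    rcases hD _ (h.com g hg β sβ) with e' | e'
    · exact k0 g hg (e.trans e') e'
    · exact (mul_mem_cancel_right (mem_zpowers (ε * β))).1 (k0 _ (mul_mem hg (mul_mem sε sβ))
        (by rw [cm_mul h hg (mul_mem sε sβ) sε, cm_mul h sε sβ sε, e, e', c1, commutatorElement_self, one_mul, zz])
        (by rw [cm_mul h hg (mul_mem sε sβ) sβ, cm_mul h sε sβ sβ, e', commutatorElement_self, mul_one, zz]))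
  refine dih_of_sub S (a := ε * β) (s := ε) (mul_mem sε sβ) sε
    (orderOf_eq_prime_pow (p := 2) (n := 1) (by rwa [pow_one, sq]) (by
      rw [show 2 ^ (1 + 1) = 2 * 2 by rfl, pow_mul, sq, pow_two, zz])) (h.sqE ε hε)
    (by rw [← mul_assoc, h.sqE ε hε, one_mul, _root_.mul_inv_rev, ← iβ]) ?_ fun g hg => ?_
  · rintro ⟨n, hn⟩
    have h3 : Commute ε (ε * β) := by
      have := (Commute.refl (ε * β)).zpow_left n
      rwa [show (ε * β) ^ n = ε from hn] at this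
    exact nc (by simpa using (Commute.refl ε).inv_right.mul_right h3)
  · by_cases e : ⁅g, ε⁆ = ⁅g, β⁆
    · exact .inl (k1 g hg e)
    refine .inr (k1 _ (mul_mem sε hg) ?_)
    rw [cm_mul h sε hg sε, cm_mul h sε hg sβ, commutatorElement_self, one_mul]
    rcases hD _ (h.com g hg ε sε) with e1 | e1 <;> rcases hD _ (h.com g hg β sβ) with e2 | e2 <;> rw [e1, e2] at e ⊢
    exacts [(e rfl).elim, zz.symm, (mul_one _).symm, (e rfl).elim]

theorem le_norm : S ≤ normalizer (E : Set H) := fun s hs => mem_normalizer_fintype fun e he => by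
  rw [show s * e * s⁻¹ = ⁅s, e⁆ * e by simp [commutatorElement_def]]
  exact mul_mem (h.com s hs e (h.leE he)).1 he

end B2

open B2 Subgroup

variable {H : Type u} [Group H] [Finite H]

theorem B2.index_two {S : Sylow 2 H} {E B : Subgroup H} (h : UF (S : Subgroup H) E B) {ε m δ δ₁ : H} (hε : ε ∈ E)
    (hε' : ε ∉ B) (hm : m ∈ normalizer (E : Set H)) (hδ : δ ∈ E ⊓ B) (hδ' : m * δ * m⁻¹ ∉ B) (h1 : δ₁ ∈ E ⊓ B)
    (h1' : δ₁ ≠ 1) (h0 : m * δ₁ * m⁻¹ ∈ B) (sur : ∀ δ ∈ E ⊓ B, ∃ x ∈ B, ⁅x, ε⁆ = δ)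
    (h2 : ∀ ε ∈ E, ∀ ε' ∈ E, ε ∉ B → ε' ∉ B → ε * ε' ∈ B) : False := by
  have := Fact.mk Nat.prime_two
  have hN := le_norm h
  have act : ∀ d ∈ E ⊓ B, d ≠ 1 → ∃ s ∈ B, s ∉ E ∧ ∀ e ∈ E, s * e * s⁻¹ = e ∨ s * e * s⁻¹ = d * e := fun d hd d1 => by
    obtain ⟨s, hs, e⟩ := sur d hd
    refine ⟨s, hs, fun hE => d1 (e ▸ commutatorElement_eq_one_iff_commute.2 (comm_of_sq h.sqE hE hε)), fun a ha => ?_⟩
    by_cases hb : a ∈ B
    · exact .inl (mul_inv_eq_iff_eq_mul.2 (comm_of_sq h.sqB hs hb))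
    · refine .inr ?_
      have h3 := comm_of_sq h.sqB hs (h2 ε hε a ha hε' hb)
      have h4 : a = ε⁻¹ * (ε * a) := by group
      have h5 := eq_inv_of_mul_eq_one_left (h.sqE ε hε)
      calc _ = s * ε⁻¹ * s⁻¹ * (s * (ε * a) * s⁻¹) := by group
        _ = s * ε * s⁻¹ * (ε⁻¹ * a) := by rw [h3.eq, mul_inv_cancel_right, ← h5]
        _ = _ := by rw [← e, commutatorElement_def]; group
  have mE := fun a => (mem_normalizer_iff.1 hm a).1
  have h0' : m * δ₁ * m⁻¹ ∈ E ⊓ B := ⟨mE _ h1.1, h0⟩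
  obtain ⟨s, hs, hs', as⟩ := act _ h0' (fun e => h1' (conj_eq_one_iff.1 e))
  obtain ⟨t, ht, ht', at'⟩ := act _ h1 h1'
  set d := m * δ₁ * m⁻¹ with hd
  have as' : ∀ e ∈ E, m * t * m⁻¹ * e * (m * t * m⁻¹)⁻¹ = e ∨ m * t * m⁻¹ * e * (m * t * m⁻¹)⁻¹ = d * e := fun e he => by
    have h3 : m * t * m⁻¹ * e * (m * t * m⁻¹)⁻¹ = m * (t * (m⁻¹ * e * m) * t⁻¹) * m⁻¹ := by group
    rcases at' _ ((mem_normalizer_iff''.1 hm e).1 he) with h4 | h4 <;> rw [h3, h4]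
    exacts [.inl (by group), .inr (by rw [hd]; group)]
  have c1 : s * d * s⁻¹ = d := by rw [← (h.cen d h0' s (h.leB hs)).eq, mul_inv_cancel_right]
  have c2 : m * t * m⁻¹ * d * (m * t * m⁻¹)⁻¹ = d := by
    rw [hd, conj_mul, conj_inv, conj_mul, ← (h.cen δ₁ h1 t (h.leB ht)).eq, mul_inv_cancel_right]
  have n1 : s ∈ normalizer (E : Set H) := hN (h.leB hs)
  have n2 : m * t * m⁻¹ ∈ normalizer (E : Set H) := mul_mem (mul_mem hm (hN (h.leB ht))) (inv_mem hm)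
  let f := E.normalizerMonoidHom.rangeRestrict
  have fe : ∀ a b : normalizer (E : Set H), f a = f b ↔ ∀ e ∈ E, (a : H) * e * (a : H)⁻¹ = b * e * (b : H)⁻¹ :=
    fun a b => ⟨fun e x hx => congrArg (fun φ : E.normalizerMonoidHom.range => ((φ : MulAut E) ⟨x, hx⟩ : H)) e,
      fun e => Subtype.ext (MulEquiv.ext fun x => Subtype.ext (e x x.2))⟩
  obtain ⟨k, k1, k2⟩ := conj_two ((S.subtype hN).mapSurjective E.normalizerMonoidHom.rangeRestrict_surjective)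
    (a := f ⟨s, n1⟩) (b := f ⟨_, n2⟩)
    (by rw [← map_mul, ← f.map_one]; exact congrArg f (Subtype.ext (h.sqB s hs)))
    (by rw [← map_mul, ← f.map_one]; exact congrArg f (Subtype.ext (by simp [h.sqB t ht]))) (by
      rw [Commute, SemiconjBy, ← map_mul, ← map_mul, fe]
      intro e he
      have h3 : ∀ a b : H, a * b * e * (a * b)⁻¹ = a * (b * e * b⁻¹) * a⁻¹ := fun a b => by group
      simp only [coe_mul]
      rw [h3, h3 (m * t * m⁻¹)]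
      rcases as e he with h4 | h4 <;> rcases as' e he with h5 | h5 <;>
        simp only [h4, h5, ← conj_mul (a := d), c1, c2])
  obtain ⟨n, rfl⟩ := E.normalizerMonoidHom.rangeRestrict_surjective k
  have nE := fun a => (mem_normalizer_iff''.1 n.2 a).1
  have key : ∀ (a : normalizer (E : Set H)) (K : H → Prop), (∀ e ∈ E, Commute (a : H) e ↔ K e) → (∃ e ∈ E, ¬ K e) →
      f n * f a * (f n)⁻¹ ∈ ((S.subtype hN).mapSurjective E.normalizerMonoidHom.rangeRestrict_surjective :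
        Subgroup E.normalizerMonoidHom.range) → ∀ e ∈ E, e ∈ B ↔ K ((n : H)⁻¹ * e * n) := by
    rintro a K hK ⟨e0, he0, hK0⟩ ⟨r, hr, e⟩
    rw [← map_inv, ← map_mul, ← map_mul] at e
    replace e := (fe _ _).1 e
    have h3 : ∀ x ∈ E, Commute (r : H) x ↔ K ((n : H)⁻¹ * x * n) := fun x hx => by
      rw [← hK _ (nE x hx), Commute, SemiconjBy, ← mul_inv_eq_iff_eq_mul, e x hx, Commute, SemiconjBy]
      simp only [coe_mul, coe_inv]
      constructor <;> intro h4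
      · calc _ = (n : H)⁻¹ * (n * a * (n : H)⁻¹ * x * (n * a * (n : H)⁻¹)⁻¹) * n * a := by group
          _ = _ := by rw [h4]
      · calc _ = n * (a * ((n : H)⁻¹ * x * n)) * (a : H)⁻¹ * (n : H)⁻¹ := by group
          _ = _ := by rw [h4]; group
    have h4 : (r : H) ∉ E := fun hr' => hK0 (by
      have h5 := (mem_normalizer_iff.1 n.2 e0).1 he0
      simpa [mul_assoc] using (h3 _ h5).1 (comm_of_sq h.sqE hr' h5))
    exact fun x hx => Iff.trans ⟨fun hb => (h.cen x ⟨hx, hb⟩ r hr).symm,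
      fun c => by_contra fun hb => h.ncE x hx hb r hr h4 c.symm⟩ (h3 x hx)
  have r1 := key ⟨s, n1⟩ (· ∈ B) (fun e he => commute_iff_eq _ _ |>.trans (eq_comm.trans (cB h hs hs' (h.leE he))))
    ⟨ε, hε, hε'⟩ k1
  have r2 := key ⟨_, n2⟩ (fun e => m⁻¹ * e * m ∈ B) (fun e he => by
    rw [← cB h ht ht' (h.leE ((mem_normalizer_iff''.1 hm e).1 he))]
    constructor <;> intro h4
    · calc m⁻¹ * e * m * t = m⁻¹ * (e * (m * t * m⁻¹)) * m := by group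
        _ = _ := by rw [← h4.eq]; group
    · calc m * t * m⁻¹ * e = m * (t * (m⁻¹ * e * m)) * m⁻¹ := by group
        _ = _ := by rw [← h4.eq]; group) ⟨m * ε * m⁻¹, mE _ hε, by simpa [mul_assoc] using hε'⟩ k2
  have h5 := (mem_normalizer_iff.1 n.2 _).1 (mE _ hδ.1)
  exact hδ' (by simpa [mul_assoc] using (r1 _ h5).1 ((r2 _ h5).2 (by simpa [mul_assoc] using hδ.2)))

theorem B2.main {S : Sylow 2 H} {E B : Subgroup H} (h : UF (S : Subgroup H) E B) (hk : UKey (S : Subgroup H) E B) :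
    (∃ A : Subgroup H, A ≠ ⊥ ∧ IsMulCommutative A ∧ IsStronglyClosed A (S : Subgroup H)) ∨
      Nonempty ((S : Subgroup H) ≃* DihedralGroup 4) := by
  obtain ⟨δ₀, hδ₀, h0⟩ := h.ne
  by_cases sE : IsStronglyClosed E S
  · exact .inl ⟨E, fun e => h0 (mem_bot.1 (e ▸ hδ₀.1)), ⟨⟨fun a b => Subtype.ext (comm_of_sq h.sqE a.2 b.2)⟩⟩, sE⟩
  by_cases sB : IsStronglyClosed B S
  · exact .inl ⟨B, fun e => h0 (mem_bot.1 (e ▸ hδ₀.2)), ⟨⟨fun a b => Subtype.ext (comm_of_sq h.sqB a.2 b.2)⟩⟩, sB⟩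
  obtain ⟨β, hβ, hβ'⟩ : ∃ β ∈ B, β ∉ E := by
    by_contra! hle
    exact sE ⟨h.leE, fun x hx g hg => (h.inv _ hg (by rw [conj_mul, h.sqE x hx]; simp)).elim id (hle _)⟩
  obtain ⟨ε, hε, hε'⟩ : ∃ ε ∈ E, ε ∉ B := by
    by_contra! hle
    exact sB ⟨h.leB, fun x hx g hg => (h.inv _ hg (by rw [conj_mul, h.sqB x hx]; simp)).elim (hle _) id⟩
  obtain ⟨y, hy, δ, hδ, hδ'⟩ := fus S h.leE h.sqE h.sqB (wE h hε hε') (wB h hβ hβ') h.inv sE
  obtain ⟨m, hm, γ, hγ, hγ'⟩ := fus S h.leB h.sqB h.sqE (wB h hβ hβ') (wE h hε hε')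
    (fun s hs e => (h.inv s hs e).symm) sB
  have l1 : (E ⊓ B).map (MulAut.conj y).toMonoidHom ≤ B := by
    rintro _ ⟨a, ha, rfl⟩
    exact (mem_normalizer_iff.1 hy a).1 ha.2
  have d1 : Disjoint ((E ⊓ B).map (MulAut.conj y).toMonoidHom) E := disjoint_def.2 (by
    rintro _ ⟨a, ha, rfl⟩ hb
    by_contra e
    exact hδ' ((h.img y a ha.1 (fun e' => e (by rw [e', map_one])) hb δ (h.leE hδ.1)
      (h.leB (l1 ⟨δ, hδ, rfl⟩))).1 hδ.1))
  have c1 := (card_mul_le l1 inf_le_right (d1.mono_right inf_le_left)).1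
  have c2 := (card_mul_le (l1.trans h.leB) h.leE d1).2
  rw [card_map_of_injective (MulAut.conj y).injective] at c1 c2
  replace c2 := c2 ((cnt h le_rfl (h.leE hε) h.leE fun _ hx => cE h hε hε' hx).1.trans_eq (mul_comm _ _))
  rcases hk y (fun a ha => l1 ⟨a, ha, rfl⟩) (fun s hs => by
      obtain ⟨_, ⟨a, ha, rfl⟩, e, he, rfl⟩ := c2 s hs
      exact ⟨a, ha, by simpa [mul_assoc] using he⟩) (fun e he he' d hd => by
      obtain ⟨x, hx, e1⟩ := (cntB h he he').2 c1 d hd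
      exact ⟨x, hx, by rw [← commutatorElement_inv, e1, inv_eq_of_mul_eq_one_left (h.sqE d hd.1)]⟩) with h2 | h2
  · exact .inr (dih h hε hε' hβ hβ' h2)
  by_cases h3 : ∀ δ ∈ E ⊓ B, ∀ δ' ∈ E ⊓ B, δ ≠ 1 → δ' ≠ 1 → δ = δ'
  · exact .inr (dih h hε hε' hβ hβ' h3)
  push Not at h3
  obtain ⟨a, ha, b, hb, a1, b1, ab⟩ := h3
  have key := fun d hd d1 d0 => index_two (δ₁ := d) h hε hε' hm ⟨hγ.2, hγ.1⟩ hγ' hd d1 d0 ((cntB h hε hε').2 c1) h2
  refine (key (a * b) (mul_mem ha hb) (fun e => ab (by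
    rw [eq_inv_of_mul_eq_one_left e, inv_eq_of_mul_eq_one_left (h.sqE b hb.1)])) ?_).elim
  rw [← conj_mul]
  exact h2 _ ((mem_normalizer_iff.1 hm a).1 ha.1) _ ((mem_normalizer_iff.1 hm b).1 hb.1) (key a ha a1) (key b hb b1)

theorem subB2 : SubB2.{u} := by
  intro H _ _ S E B h hk Z _ hZ hc
  have := Fact.mk Nat.prime_two
  rcases B2.main h hk with ⟨A, hA, hc', hs⟩ | hd
  · have pw : ∀ s ∈ (S : Subgroup H), s ^ Nat.card (S : Subgroup H) = 1 := fun s hs =>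
      congrArg Subtype.val (pow_card_eq_one' (G := (S : Subgroup H)) (x := ⟨s, hs⟩))
    obtain ⟨n, hn⟩ := S.isPGroup'.exists_card_eq
    have hr : (Nat.card Z).Coprime (Nat.card (S : Subgroup H)) := hn ▸ hc.pow_right n
    refine ⟨S.mapSurjective (QuotientGroup.mk'_surjective Z), .inl ⟨A.map (QuotientGroup.mk' Z), fun e => hA ?_,
      inferInstance, map_mono hs.1, ?_⟩⟩
    · refine eq_bot_iff.2 fun a ha => ?_
      have h1 : QuotientGroup.mk' Z a ∈ A.map (QuotientGroup.mk' Z) := ⟨a, ha, rfl⟩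
      rw [e] at h1
      exact eq_one_of_pow_of_coprime hr ((QuotientGroup.eq_one_iff _).1 h1) (pw a (hs.1 ha))
    · rintro _ ⟨x, hx, rfl⟩ g ⟨s, hs', e⟩
      obtain ⟨g, rfl⟩ := QuotientGroup.mk_surjective g
      have h1 : g * x * g⁻¹ = s := lift_unique hZ hr e.symm (by rw [conj_pow, pw x (hs.1 hx)]; simp) (pw s hs')
      exact ⟨_, hs.2 x hx g (h1 ▸ hs'), rfl⟩
  · exact ⟨S.mapSurjective (QuotientGroup.mk'_surjective Z), .inr
      (DihSyl.quot hc (fun P => ⟨(P.equiv S).trans hd.some⟩) _)⟩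

end CL.Low5
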