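/-
Project LOW5: irreducibility, extension of asymmetric systems, the lemma `DL` and the monomial induction.
-/
import Cfsg.Agent.Low5.Basic

set_option autoImplicit false
set_option linter.unusedSectionVars false

namespace CL.Low5

open Matrix Cfsg Cfsg.Geo CL.Asch CL.SLn CL.Low Module

universe u

variable {ι : Type} [Fintype ι] [DecidableEq ι] {F : Type u} [Field F] {k : ℕ} {Γ : Subgroup (GL ι F)}
  {u v w : ι → F} {φ ψ χ : Dual F (ι → F)} {e e' : Fin k → ι → F} {x x' : Fin k → Dual F (ι → F)}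

/-- Induction over a group generated by reflections. -/
theorem RfGen.induction (hg : RfGen Γ) {P : GL ι F → Prop} (h1 : P 1) (hmul : ∀ a b, P a → P b → P (a * b))
    (hrf : ∀ g v φ, Rf Γ v φ → (∀ y, g • y = y - φ y • v) → P g) {g : GL ι F} (h : g ∈ Γ) : P g := by
  have key : ∀ g ∈ Subgroup.closure {g | ∃ v φ, Rf Γ v φ ∧ ∀ y, g • y = y - φ y • v}, P g ∧ P g⁻¹ := fun g h => by
    induction h using Subgroup.closure_induction with
    | mem g h =>
      obtain ⟨v, φ, h, eg⟩ := h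
      rw [rf_inv h.two eg]
      exact ⟨hrf g v φ h eg, hrf g v φ h eg⟩
    | one => simpa using h1
    | mul a b _ _ ha hb => exact ⟨hmul _ _ ha.1 hb.1, by rw [_root_.mul_inv_rev]; exact hmul _ _ hb.2 ha.2⟩
    | inv a _ ha => exact ⟨ha.2, by simpa using ha.1⟩
  exact (key g (hg h)).1

theorem rfGen_KG : RfGen (KG Γ e x) :=
  Subgroup.closure_mono fun _ ⟨v, φ, h1, h2, h3⟩ => ⟨v, φ, h1.KG h2, h3⟩

theorem irr_rf (hg : RfGen Γ) (hi : Irr Γ) (W : Submodule F (ι → F))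
    (hW : ∀ v φ, Rf Γ v φ → ∀ y ∈ W, φ y • v ∈ W) : W = ⊥ ∨ W = ⊤ :=
  irr_iff.1 hi W fun g hg' => hg.induction (P := fun g => ∀ y ∈ W, g • y ∈ W) (by simp)
    (fun a b ha hb y hy => by rw [mul_smul]; exact ha _ (hb y hy))
    (fun g v φ h eg y hy => by rw [eg]; exact W.sub_mem hy (hW v φ h y hy)) hg'

/-- The span of `e`. -/
def US (e : Fin k → ι → F) (x : Fin k → Dual F (ι → F)) : Submodule F (ι → F) where
  carrier := {y | pr e x y = y}
  add_mem' := fun ha hb => by rw [Set.mem_ofPred_eq, pr_add, ha, hb]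
  zero_mem' := pr_zero
  smul_mem' := fun a _ h => by rw [Set.mem_ofPred_eq, pr_smul, h]

theorem mem_US {y : ι → F} : y ∈ US e x ↔ pr e x y = y := Iff.rfl

theorem prD_eq_zero_iff (hb : Bi e x) : prD e x φ = 0 ↔ ∀ i, φ (e i) = 0 :=
  ⟨fun h i => by rw [← hb.prD_e, h, LinearMap.zero_apply], fun h => by simp [prD, h]⟩

theorem pr_eq_zero_iff (hb : Bi e x) : pr e x v = 0 ↔ ∀ i, x i v = 0 :=
  ⟨fun h i => by rw [← hb.x_pr, h, map_zero], fun h => by simp [pr, h]⟩

theorem Bi.e_ne (hb : Bi e x) (i : Fin k) : e i ≠ 0 := fun h => by simpa [h] using hb.diag i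

theorem Bi.card_eq (hb : Bi e x) (h : ∀ y, pr e x y = y) : k = Fintype.card ι := by
  refine le_antisymm hb.le_card ?_
  have : ⊤ ≤ Submodule.span F (Set.range e) := fun y _ => by
    rw [← h y]; exact Submodule.sum_mem _ fun i _ => Submodule.smul_mem _ _ (Submodule.subset_span ⟨i, rfl⟩)
  simpa using finrank_le_of_span_eq_top (top_le_iff.1 this)

/-- Some reflection does not stabilise the span of `e`. -/
theorem exists_moving (hg : RfGen Γ) (hi : Irr Γ) (hb : Bi e x) (h0 : 0 < k) (hk : k ≠ Fintype.card ι) :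
    ∃ v φ, Rf Γ v φ ∧ prD e x φ ≠ 0 ∧ pr e x v ≠ v := by
  by_contra hne
  push Not at hne
  rcases irr_rf hg hi (US e x) (fun v φ h y hy => by
    by_cases h1 : prD e x φ = 0
    · rw [← mem_US.1 hy, ← prD_apply, h1, LinearMap.zero_apply, zero_smul]; exact Submodule.zero_mem _
    · exact Submodule.smul_mem _ _ (hne v φ h h1)) with h | h
  · exact hb.e_ne ⟨0, h0⟩ ((Submodule.mem_bot F).1 (h ▸ hb.pr_e _))
  · exact hk (hb.card_eq fun y => mem_US.1 (h ▸ Submodule.mem_top))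

/-- A biorthogonal system can be extended. -/
theorem Bi.exists_snoc (hb : Bi e x) (hk : k ≠ Fintype.card ι) :
    ∃ (d : ι → F) (χ : Dual F (ι → F)), (∀ i, x i d = 0) ∧ (∀ i, χ (e i) = 0) ∧ χ d = 1 := by
  obtain ⟨y, hy⟩ : ∃ y, pr e x y ≠ y := by
    by_contra h
    push Not at h
    exact hk (hb.card_eq h)
  obtain ⟨η, hη⟩ := exists_dual_eq_one (F := F) (sub_ne_zero.2 hy.symm)
  exact ⟨y - pr e x y, η - prD e x η, fun i => by simp [hb.x_pr], fun i => by simp [hb.prD_e],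
    by simp [prD_apply, pr_sub, hb.pr_pr, -map_sub, hη]⟩

/-- Reflections with an invertible Cartan matrix. -/
theorem exists_bi {a : Fin k → ι → F} {η : Fin k → Dual F (ι → F)} (h : (Matrix.of fun i j => η i (a j)).det ≠ 0) :
    ∃ x, Bi a x ∧ ∀ i, In a x (a i) (η i) := by
  set C : Matrix (Fin k) (Fin k) F := Matrix.of fun i j => η i (a j) with hC
  have hu : IsUnit C.det := isUnit_iff_ne_zero.2 h
  have key : ∀ i j, (∑ l, C⁻¹ i l • η l) (a j) = (1 : Matrix (Fin k) (Fin k) F) i j := fun i j => by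
    rw [← nonsing_inv_mul C hu, mul_apply]
    simp [hC]
  have hb : Bi a fun i => ∑ l, C⁻¹ i l • η l :=
    ⟨fun i => by rw [key, one_apply_eq], fun i j hij => by rw [key, one_apply_ne hij]⟩
  refine ⟨_, hb, fun i => ⟨hb.pr_e i, ?_⟩⟩
  have h2 : ∀ l, ∑ j, η i (a j) * C⁻¹ j l = (1 : Matrix (Fin k) (Fin k) F) i l := fun l => by
    rw [← mul_nonsing_inv C hu, mul_apply]
    simp [hC]
  simp only [prD, Finset.smul_sum, smul_smul]
  rw [Finset.sum_comm]
  simp [← Finset.sum_smul, h2, one_apply]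

theorem exists_bi_pair (h1 : φ v = 2) (h2 : ψ w = 2) (h : φ w * ψ v ≠ 4) :
    ∃ x, Bi ![v, w] x ∧ In ![v, w] x v φ ∧ In ![v, w] x w ψ := by
  obtain ⟨x, hb, hi⟩ := exists_bi (a := ![v, w]) (η := ![φ, ψ]) fun e => h (by
    simp [det_fin_two, h1, h2] at e
    linear_combination -e)
  exact ⟨x, hb, hi 0, hi 1⟩

theorem exists_bi_triple (h1 : φ u = 2) (h2 : ψ v = 2) (h3 : χ w = 2) (h : cdet u φ v ψ w χ ≠ 0) :
    ∃ x, Bi ![u, v, w] x ∧ In ![u, v, w] x u φ ∧ In ![u, v, w] x v ψ ∧ In ![u, v, w] x w χ := by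
  obtain ⟨x, hb, hi⟩ := exists_bi (a := ![u, v, w]) (η := ![φ, ψ, χ]) fun e => h (by
    simp [det_fin_three, h1, h2, h3] at e
    rw [cdet]
    linear_combination e)
  exact ⟨x, hb, hi 0, hi 1, hi 2⟩

/-- Two systems are the same if one lies in the other. -/
theorem same_of_le (hb : Bi e x) (hb' : Bi e' x') (h1 : ∀ i, pr e x (e' i) = e' i) (h2 : ∀ i, prD e x (x' i) = x' i) :
    Same e x e' x' := by
  let A : Matrix (Fin k) (Fin k) F := Matrix.of fun i j => x' i (e j)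
  let B : Matrix (Fin k) (Fin k) F := Matrix.of fun i j => x i (e' j)
  have hAB : A * B = 1 := Matrix.ext fun i j => by
    have := hb'.apply i j
    rw [← h1 j, apply_pr] at this
    simpa [A, B, mul_apply, one_apply] using this
  have hBA : ∀ i j, ∑ l, x i (e' l) * x' l (e j) = if i = j then 1 else 0 := fun i j => by
    have : (B * A) i j = (1 : Matrix (Fin k) (Fin k) F) i j := by rw [mul_eq_one_comm.1 hAB]
    simpa [A, B, mul_apply, one_apply] using this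
  intro y
  have h3 : pr e x (pr e' x' y) = pr e' x' y := by
    conv_lhs => rw [show pr e' x' y = ∑ i, x' i y • e' i from rfl, pr_sum]
    simp only [pr_smul, h1]
    rfl
  rw [← h3]
  refine Finset.sum_congr rfl fun i _ => ?_
  congr 1
  have h4 : ∀ l, x' l y = ∑ j, x' l (e j) * x j y := fun l => by rw [← apply_pr, ← prD_apply, h2]
  rw [apply_pr]
  simp only [h4, Finset.mul_sum, ← mul_assoc]
  rw [Finset.sum_comm]
  simp [← Finset.sum_mul, hBA]

/-- A non-degenerate family of `k` pairs lying in a `k`-dimensional system determines it. -/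
theorem same_of_det {a : Fin k → ι → F} {η : Fin k → Dual F (ι → F)} (hb : Bi e x) (hb' : Bi e' x')
    (h : (Matrix.of fun i j => η i (a j)).det ≠ 0) (h1 : ∀ i, In e x (a i) (η i)) (h2 : ∀ i, In e' x' (a i) (η i)) :
    Same e x e' x' := by
  obtain ⟨z, hz, hi⟩ := exists_bi h
  have key : ∀ {e : Fin k → ι → F} {x : Fin k → Dual F (ι → F)}, Bi e x → (∀ i, In e x (a i) (η i)) →
      Same e x a z := fun {e x} hb h1 => same_of_le hb hz (fun i => (h1 i).1) fun i => LinearMap.ext fun y => by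
    have h3 : (Matrix.of fun i j => η i (a j)) *ᵥ (fun j => z j (pr e x y) - z j y) = 0 := funext fun l => by
      have h4 := (in_iff.1 (hi l)).2
      simp only [mulVec, dotProduct, of_apply, mul_sub, Finset.sum_sub_distrib, ← apply_pr, h4, (in_iff.1 (h1 l)).2,
        sub_self, Pi.zero_apply]
    rw [prD_apply, ← sub_eq_zero]
    exact congrFun (eq_zero_of_mulVec_eq_zero h h3) i
  exact fun y => (key hb' h2 y).symm.trans (key hb h1 y)

theorem same_of_cdet {e e' : Fin 3 → ι → F} {x x' : Fin 3 → Dual F (ι → F)} (hb : Bi e x) (hb' : Bi e' x')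
    (h1 : φ u = 2) (h2 : ψ v = 2) (h3 : χ w = 2) (h : cdet u φ v ψ w χ ≠ 0)
    (a1 : In e x u φ) (a2 : In e x v ψ) (a3 : In e x w χ) (b1 : In e' x' u φ) (b2 : In e' x' v ψ) (b3 : In e' x' w χ) :
    Same e x e' x' :=
  same_of_det (a := ![u, v, w]) (η := ![φ, ψ, χ]) hb hb' (fun e => h (by
    simp [det_fin_three, h1, h2, h3] at e
    rw [cdet]
    linear_combination e)) (fun i => by fin_cases i <;> assumption) fun i => by fin_cases i <;> assumption

theorem same_of_pair {e e' : Fin 2 → ι → F} {x x' : Fin 2 → Dual F (ι → F)} (hb : Bi e x) (hb' : Bi e' x')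
    (h1 : φ v = 2) (h2 : ψ w = 2) (h : φ w * ψ v ≠ 4) (a1 : In e x v φ) (a2 : In e x w ψ) (b1 : In e' x' v φ)
    (b2 : In e' x' w ψ) : Same e x e' x' :=
  same_of_det (a := ![v, w]) (η := ![φ, ψ]) hb hb' (fun e => h (by
    simp [det_fin_two, h1, h2] at e
    linear_combination -e)) (fun i => by fin_cases i <;> assumption) fun i => by fin_cases i <;> assumption

/-- A pair lying in a plane with two pairs of a system lies in that system. -/
theorem in_of_plane {e₀ : Fin 2 → ι → F} {x₀ : Fin 2 → Dual F (ι → F)} (hb : Bi e₀ x₀) (h1 : φ v = 2) (h2 : ψ w = 2)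
    (h : φ w * ψ v ≠ 4) (a1 : In e₀ x₀ v φ) (a2 : In e₀ x₀ w ψ) (a3 : In e₀ x₀ u χ) (b1 : In e x v φ)
    (b2 : In e x w ψ) : In e x u χ := by
  obtain ⟨z, hz, c1, c2⟩ := exists_bi_pair h1 h2 h
  have hs := same_of_pair hb hz h1 h2 h a1 a2 c1 c2
  refine (hs.in_iff.2 a3).of_sub (fun i => by fin_cases i; exacts [b1.1, b2.1]) fun i => LinearMap.ext fun y => ?_
  have h3 : !![2, φ w; ψ v, 2] *ᵥ (fun j => z j (pr e x y) - z j y) = 0 := by
    have e1 := (in_iff.1 c1).2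
    have e2 := (in_iff.1 c2).2
    simp only [apply_pr, Fin.sum_univ_two, cons_val_zero, cons_val_one, h1, h2] at e1 e2
    funext l
    fin_cases l
    · simpa [mulVec, dotProduct] using by linear_combination e1 (pr e x y) - e1 y + (in_iff.1 b1).2 y
    · simpa [mulVec, dotProduct] using by linear_combination e2 (pr e x y) - e2 y + (in_iff.1 b2).2 y
  rw [prD_apply, ← sub_eq_zero]
  exact congrFun (eq_zero_of_mulVec_eq_zero (fun e => h (by
    rw [det_fin_two_of] at e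
    linear_combination -e)) h3) i

/-- Three pairs in a plane have a singular Cartan matrix. -/
theorem cdet_of_plane {e₀ : Fin 2 → ι → F} {x₀ : Fin 2 → Dual F (ι → F)} (h1 : φ u = 2) (h2 : ψ v = 2) (h3 : χ w = 2)
    (a1 : In e₀ x₀ u φ) (a2 : In e₀ x₀ v ψ) (a3 : In e₀ x₀ w χ) : cdet u φ v ψ w χ = 0 := by
  have key : ∀ (η : Dual F (ι → F)) {y}, pr e₀ x₀ y = y → η y = η (e₀ 0) * x₀ 0 y + η (e₀ 1) * x₀ 1 y :=
    fun η y hy => by rw [← hy, apply_pr, hy, Fin.sum_univ_two]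
  have : cdet u φ v ψ w χ = φ u * ψ v * χ w - φ u * ψ w * χ v - φ v * ψ u * χ w + φ v * ψ w * χ u +
      φ w * ψ u * χ v - φ w * ψ v * χ u := by rw [cdet, h1, h2, h3]; ring
  rw [this, key φ a1.1, key φ a2.1, key φ a3.1, key ψ a1.1, key ψ a2.1, key ψ a3.1, key χ a1.1, key χ a2.1, key χ a3.1]
  ring

namespace AI

theorem congr (h : AI Γ e x) (hb : Bi e' x') (hs : Same e x e' x') : AI Γ e' x' := by
  refine ⟨hb, fun W h1 h2 => ?_, by simpa only [hs.in_iff] using h.asym⟩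
  refine (h.irr W (fun y hy => by rw [← hs, h1 y hy]) fun v φ h3 h4 => h2 v φ h3 (hs.in_iff.2 h4)).imp id fun h3 i => ?_
  rw [← hb.pr_e i, hs]
  exact W.sum_mem fun j _ => W.smul_mem _ (h3 j)

/-- The orbit of a non-zero vector spans. -/
theorem orbit (h : AI Γ e x) (hw : pr e x w = w) (h0 : w ≠ 0) (hψ : prD e x ψ ≠ 0) :
    ∃ g ∈ KG Γ e x, ψ (g • w) ≠ 0 := by
  by_contra hne
  push Not at hne
  let W := Submodule.span F {y | ∃ g ∈ KG Γ e x, y = g • w}
  have h1 : ∀ a ∈ KG Γ e x, ∀ y ∈ W, a • y ∈ W := fun a ha y hy => by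
    induction hy using Submodule.span_induction with
    | mem y hy =>
      obtain ⟨g, hg, rfl⟩ := hy
      exact Submodule.subset_span ⟨a * g, mul_mem ha hg, (mul_smul _ _ _).symm⟩
    | zero => simp
    | add a b _ _ ha hb => rw [smul_add]; exact W.add_mem ha hb
    | smul c a _ ha => rw [gsmul_smul]; exact W.smul_mem c ha
  rcases h.irr W (fun y hy => mem_US.1 ((Submodule.span_le (p := US e x)).2 (by
      rintro _ ⟨g, hg, rfl⟩
      exact mem_US.2 (by rw [(pr_smul_of_mem hg h.bi w).1, hw])) hy)) (fun v φ h2 h3 y hy => by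
      obtain ⟨g, hg, eg⟩ := (h2.KG h3).mem
      simpa [eg] using W.sub_mem hy (h1 g hg y hy)) with h2 | h2
  · exact h0 ((Submodule.mem_bot F).1 (h2 ▸ Submodule.subset_span ⟨1, one_mem _, (one_smul _ _).symm⟩))
  · refine hψ ((prD_eq_zero_iff h.bi).2 fun i => (Submodule.span_le (p := LinearMap.ker ψ)).2 ?_ (h2 i))
    rintro _ ⟨g, hg, rfl⟩
    exact hne g hg

/-- The vectors of the reflections on the span of `e` span it. -/
theorem exists_vec (h : AI Γ e x) (hψ : prD e x ψ ≠ 0) : ∃ v φ, Rf Γ v φ ∧ In e x v φ ∧ ψ v ≠ 0 := by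
  obtain ⟨u, φ, -, -, -, -, h1, -, -, h2, -⟩ := h.asym
  obtain ⟨g, hg, h3⟩ := h.orbit h2.1 h1.ne hψ
  refine ⟨_, _, h1.conj (KG_le hg), in_iff.2 ⟨by rw [(pr_smul_of_mem hg h.bi u).1, h2.1], fun y => ?_⟩, h3⟩
  rw [dact_apply, dact_apply, ← (pr_smul_of_mem (inv_mem hg) h.bi y).1, (in_iff.1 h2).2]

/-- The functionals of the reflections on the span of `e` separate it. -/
theorem exists_fun (h : AI Γ e x) (hw : pr e x w ≠ 0) : ∃ v φ, Rf Γ v φ ∧ In e x v φ ∧ φ w ≠ 0 := by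
  obtain ⟨u, φ, -, -, -, -, h1, -, -, h2, -⟩ := h.asym
  obtain ⟨g, hg, h3⟩ := h.orbit (h.bi.pr_pr w) hw (h2.2.symm ▸ h1.ne')
  have hg' := inv_mem hg
  refine ⟨_, _, h1.conj (KG_le hg'), in_iff.2 ⟨by rw [(pr_smul_of_mem hg' h.bi u).1, h2.1], fun y => ?_⟩, ?_⟩
  · rw [dact_apply, dact_apply, inv_inv, ← (pr_smul_of_mem hg h.bi y).1, (in_iff.1 h2).2]
  · rwa [dact_apply, inv_inv, ← (in_iff.1 h2).2, (pr_smul_of_mem hg h.bi w).1]

theorem pr_eq_zero_iff (h : AI Γ e x) (hz : ZSym Γ) (hv : Rf Γ v φ) : pr e x v = 0 ↔ prD e x φ = 0 := by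
  constructor <;> intro h0 <;> by_contra hne
  · obtain ⟨w, ψ, h1, h2, h3⟩ := h.exists_vec hne
    exact h3 (hz _ _ _ _ h1 hv (by rw [← (in_iff.1 h2).2, h0, map_zero]))
  · obtain ⟨w, ψ, h1, h2, h3⟩ := h.exists_fun hne
    exact h3 (hz _ _ _ _ hv h1 (by rw [← h2.1, ← prD_apply, h0, LinearMap.zero_apply]))

/-- Adding a reflection in non-degenerate position (`φ (pr v) ≠ 2`). -/
theorem snoc (h : AI Γ e x) (hv : Rf Γ v φ) (h1 : pr e x v ≠ 0) (h2 : prD e x φ ≠ 0) (h3 : φ (pr e x v) ≠ 2) :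
    ∃ (d : ι → F) (χ : Dual F (ι → F)), (∀ i, x i d = 0) ∧ (∀ i, χ (e i) = 0) ∧ χ d = 1 ∧
      AI Γ (Fin.snoc e d : Fin (k + 1) → ι → F) (Fin.snoc x χ : Fin (k + 1) → Dual F (ι → F)) ∧
      In (Fin.snoc e d : Fin (k + 1) → ι → F) (Fin.snoc x χ : Fin (k + 1) → Dual F (ι → F)) v φ := by
  have hb := h.bi
  have ht : φ (v - pr e x v) ≠ 0 := by rw [map_sub, hv.two]; exact sub_ne_zero.2 h3.symm
  set d := v - pr e x v with hd
  set χ := (φ d)⁻¹ • (φ - prD e x φ) with hχ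
  have e0 : pr e x d = 0 := by rw [hd, pr_sub, hb.pr_pr, sub_self]
  have e1 : ∀ i, x i d = 0 := (CL.Low5.pr_eq_zero_iff hb).1 e0
  have e2 : ∀ i, χ (e i) = 0 := fun i => by simp [hχ, hb.prD_e]
  have e3 : χ d = 1 := by simp [hχ, prD_apply, e0, ht]
  have e4 : ∀ y, φ d * χ y = φ y - φ (pr e x y) := fun y => by simp [hχ, prD_apply, ht]
  have e5 : χ v = 1 := mul_left_cancel₀ ht (by rw [e4, mul_one, hd, map_sub])
  have hi : In (Fin.snoc e d : Fin (k + 1) → ι → F) (Fin.snoc x χ : Fin (k + 1) → Dual F (ι → F)) v φ :=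
    in_iff.2 ⟨by rw [pr_snoc, e5, one_smul, hd, add_sub_cancel], fun y => by
      rw [pr_snoc, map_add, map_smul, smul_eq_mul, mul_comm, e4, add_sub_cancel]⟩
  refine ⟨d, χ, e1, e2, e3, ⟨hb.snoc e1 e2 e3, fun W hW hR => ?_, ?_⟩, hi⟩
  · by_cases h4 : ∃ y ∈ W, pr e x y ≠ 0
    · obtain ⟨y, hy, h4⟩ := h4
      obtain ⟨w, ψ, a1, a2, a3⟩ := h.exists_fun h4
      have a4 : w ∈ W := (W.smul_mem_iff a3).1 (hR w ψ a1 (a2.snoc e1 e2) y hy)
      have a5 : ∀ i, e i ∈ W := fun i => by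
        refine (((h.irr (W ⊓ US e x) (fun y hy => hy.2) fun w ψ a1 a2 y hy =>
          ⟨hR w ψ a1 (a2.snoc e1 e2) y hy.1, Submodule.smul_mem _ _ a2.1⟩).resolve_left fun e => a1.ne ?_) i).1
        exact (Submodule.mem_bot F).1 (e ▸ ⟨a4, a2.1⟩)
      obtain ⟨i, a6⟩ : ∃ i, φ (e i) ≠ 0 := not_forall.1 fun e => h2 ((prD_eq_zero_iff hb).2 e)
      have a7 : v ∈ W := (W.smul_mem_iff a6).1 (hR v φ hv hi _ (a5 i))
      refine Or.inr fun i => ?_
      induction i using Fin.lastCases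
      · rw [Fin.snoc_last]
        exact W.sub_mem a7 (W.sum_mem fun j _ => W.smul_mem (x j v) (a5 j))
      · simpa using a5 _
    · push Not at h4
      refine Or.inl (eq_bot_iff.2 fun y hy => ?_)
      have a1 := hW y hy
      rw [pr_snoc, h4 y hy, zero_add] at a1
      have a2 := h4 _ (hR v φ hv hi y hy)
      rw [pr_smul, smul_eq_zero, or_iff_left h1, ← a1, map_smul, smul_eq_mul, mul_eq_zero, or_iff_left ht] at a2
      rw [← a1, a2, zero_smul]
      exact Submodule.zero_mem _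
  · obtain ⟨u, φ, v, ψ, w, η, a1, a2, a3, a4, a5, a6, a7⟩ := h.asym
    exact ⟨u, φ, v, ψ, w, η, a1, a2, a3, a4.snoc e1 e2, a5.snoc e1 e2, a6.snoc e1 e2, a7⟩

/-- No pair `(w, ψ)` on the span of `e` has a real matrix coefficient. -/
theorem not_sym (h : AI Γ e x) (hw : pr e x w = w) (hw0 : w ≠ 0) (hψ : prD e x ψ ≠ 0) :
    ¬ ∀ g ∈ KG Γ e x, ψ (g • w) = ψ (g⁻¹ • w) := fun hs => by
  have k1 : ∀ v φ, Rf Γ v φ → In e x v φ → ∀ a ∈ KG Γ e x, ∀ b ∈ KG Γ e x,
      ψ (a⁻¹ • v) * φ (b • w) = ψ (b⁻¹ • v) * φ (a • w) := fun v φ h1 h2 a ha b hb => by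
    obtain ⟨r, hr, er⟩ := (h1.KG h2).mem
    have a1 := hs _ (mul_mem (mul_mem (inv_mem ha) hr) hb)
    have a2 := hs _ (mul_mem (inv_mem ha) hb)
    simp only [_root_.mul_inv_rev, inv_inv, rf_inv h1.two er, mul_smul, er, smul_sub, gsmul_smul, map_sub, map_smul,
      smul_eq_mul] at a1 a2
    linear_combination a2 - a1
  have k2 : ∀ v φ, Rf Γ v φ → In e x v φ → ∀ v' φ', Rf Γ v' φ' → In e x v' φ' → ∀ a ∈ KG Γ e x, ∀ b ∈ KG Γ e x,
      ψ (a⁻¹ • v) * φ' (b • w) * φ v' = ψ (b⁻¹ • v') * φ (a • w) * φ' v := fun v φ h1 h2 v' φ' h1' h2' a ha b hb => by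
    obtain ⟨r, hr, er⟩ := (h1.KG h2).mem
    obtain ⟨s, hs', es⟩ := (h1'.KG h2').mem
    have a1 := hs _ (mul_mem (mul_mem (mul_mem (inv_mem ha) hr) hs') hb)
    have a2 := hs _ (mul_mem (inv_mem ha) hb)
    simp only [_root_.mul_inv_rev, inv_inv, rf_inv h1.two er, rf_inv h1'.two es, mul_smul, er, es, smul_sub, gsmul_smul,
      map_sub, map_smul, smul_eq_mul] at a1 a2
    linear_combination a1 - a2 + k1 v φ h1 h2 a ha b hb + k1 v' φ' h1' h2' a ha b hb
  have k3 : ∀ v φ, Rf Γ v φ → In e x v φ → ∃ a ∈ KG Γ e x, ψ (a⁻¹ • v) ≠ 0 ∧ φ (a • w) ≠ 0 := fun v φ h1 h2 => by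
    obtain ⟨a, ha, a1⟩ := h.orbit hw hw0 (h2.2.symm ▸ h1.ne')
    obtain ⟨b, hb, a2⟩ := h.orbit h2.1 h1.ne hψ
    refine ⟨a, ha, fun e => ?_, a1⟩
    have := k1 v φ h1 h2 a ha _ (inv_mem hb)
    rw [e, zero_mul, inv_inv] at this
    exact mul_ne_zero a2 a1 this.symm
  obtain ⟨u, φ, v, η, z, χ, a1, a2, a3, b1, b2, b3, hA⟩ := h.asym
  obtain ⟨a, ha, c1, d1⟩ := k3 _ _ a1 b1
  obtain ⟨b, hb, c2, d2⟩ := k3 _ _ a2 b2
  obtain ⟨c, hc, c3, d3⟩ := k3 _ _ a3 b3
  have f1 := k2 _ _ a1 b1 _ _ a2 b2 a ha b hb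
  have f2 := k2 _ _ a2 b2 _ _ a3 b3 b hb c hc
  have f3 := k2 _ _ a3 b3 _ _ a1 b1 c hc a ha
  refine hA (mul_left_cancel₀ (mul_ne_zero (mul_ne_zero (mul_ne_zero c1 d1) (mul_ne_zero c2 d2)) (mul_ne_zero c3 d3)) ?_)
  have := congrArg₂ (· * ·) (congrArg₂ (· * ·) f1 f2) f3
  linear_combination this

end AI

/-- `DL`: a scalar on an asymmetric irreducible span normalises `Γ`; degenerate reflections lie on the span. -/
theorem dl (h2 : (2 : F) ≠ 0) (hT : ¬ HasTv Γ) (hA : AI Γ e x) {a : F} {h : GL ι F} (hs : Sc e x a h) (hh : Nrm Γ h)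
    (ha : a ≠ 1) (hv : Rf Γ v φ) (h0 : φ (pr e x v) = 2) : In e x v φ := by
  have hb := hA.bi
  set w := pr e x v with hw
  set ψ := prD e x φ with hψ
  set d := v - w with hd
  set χ := φ - ψ with hχ
  have e0 : pr e x w = w := hb.pr_pr v
  have e1 : pr e x d = 0 := by rw [hd, pr_sub, e0, sub_self]
  have e2 : ∀ y, ψ (pr e x y) = ψ y := fun y => by rw [hψ, prD_apply, prD_apply, hb.pr_pr]
  have e3 : ∀ y, χ (pr e x y) = 0 := fun y => by rw [hχ, LinearMap.sub_apply, hψ, prD_apply, hb.pr_pr, sub_self]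
  have e4 : ψ d = 0 := by rw [← e2, e1, map_zero]
  have e5 : χ w = 0 := e3 v
  have e6 : ψ w = 2 := by rw [hψ, prD_apply, e0, h0]
  have hr : Rf Γ (w + d) (ψ + χ) := by simpa [hd, hχ] using hv
  have e7 : χ d = 0 := by simpa [e4, e5, e6] using hr.two
  have e8 : ∀ y, ψ (h • y) = a * ψ y := fun y => by rw [hs, map_add, map_smul, e2, smul_eq_mul]; ring
  have e9 : ∀ y, χ (h • y) = χ y := fun y => by rw [hs, map_add, map_smul, e3, smul_zero, add_zero]
  suffices d = 0 ∧ χ = 0 from ⟨(sub_eq_zero.1 this.1).symm, (sub_eq_zero.1 this.2).symm⟩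
  by_cases ha2 : a ^ 2 = 1
  swap
  · exact dl2 h2 hT hh hr ha2 (hs.eig e0) (hs.fix e1) e8 e9 e4 e5 e7
  obtain rfl : a = -1 := (sq_eq_one_iff.1 ha2).resolve_left ha
  have hw0 : w ≠ 0 := fun e => h2 (by rw [← e6, e, map_zero])
  have hψ0 : ψ ≠ 0 := fun e => h2 (by rw [← e6, e, LinearMap.zero_apply])
  obtain ⟨g, hg, eg⟩ := hr.mem
  have hr' := hr.nrm' hh (ψ := (-1 : F)⁻¹ • ψ + χ) fun y => by simp [e8, e9]
  rw [smul_add, hs.eig e0, hs.fix e1] at hr'
  obtain ⟨g', hg', eg'⟩ := hr'.mem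
  have hn := rf_mul_conj (by simp) e6 e4 e5 e7 eg eg'
  have hm := Γ.mul_mem hg hg'
  generalize g * g' = n at hn hm
  have h22 : (1 - (-1)⁻¹ : F) ≠ 0 := by rw [inv_neg, inv_one, sub_neg_eq_add, one_add_one_eq_two]; exact h2
  have h23 : (-1 - 1 : F) ≠ 0 := fun e => h2 (by linear_combination -e)
  by_cases hd0 : d = 0
  · refine ⟨hd0, (not_tv hT (v := (-1 - 1 : F) • w) hm (by simp [e5]) fun y => by simpa [hd0] using hn y).resolve_left ?_⟩
    exact smul_ne_zero h23 hw0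
  by_cases hχ0 : χ = 0
  · refine ⟨(not_tv hT (φ := (1 - (-1)⁻¹ : F) • ψ) hm (by simp [e4]) fun y => by
      simpa [hχ0] using hn y).resolve_right (smul_ne_zero h22 hψ0), hχ0⟩
  refine absurd (fun c hc => ?_) (hA.not_sym e0 hw0 (ψ := ψ) (by rwa [hψ, hb.prD_prD]))
  have f1 : c • d = d := by simpa [e1] using (pr_smul_of_mem hc hb d).2
  have f2 : ∀ y, χ (c • y) = χ y := fun y => by
    have := congrArg χ (pr_smul_of_mem hc hb y).2
    rwa [smul_sub, ← (pr_smul_of_mem hc hb y).1, map_sub, map_sub, e3, e3, sub_zero, sub_zero] at this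
  have hn' : ∀ y, (c * n * c⁻¹) • y = y + (dact c ((1 - (-1)⁻¹ : F) • ψ)) y • d + χ y • c • (-1 - 1 : F) • w +
      (2 * (-1 - 1) * χ y) • d := fun y => by
    obtain ⟨y, rfl⟩ : ∃ z, c • z = y := ⟨c⁻¹ • y, smul_inv_smul c y⟩
    rw [mul_smul, inv_smul_smul, mul_smul, hn]
    simp only [smul_add, gsmul_smul, f1, f2, dact_apply, inv_smul_smul]
  have f3 : c⁻¹ • d = d := by rw [inv_smul_eq_iff, f1]
  have hc' := heis_comm e7 (by simp [e5]) (by simp [f2, e5]) (by simp [e4]) (by simp [f3, e4]) hn hn'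
  have hm' := nrm_of_mem (KG_le hc) n hm
  have f4 := (smul_eq_zero.1 ((not_tv hT (Γ.mul_mem (Γ.mul_mem hm hm') (Γ.inv_mem (Γ.mul_mem hm' hm)))
    (by simp [e7]) hc').resolve_right hχ0)).resolve_right hd0
  simp only [gsmul_smul, dact_apply, map_smul, LinearMap.smul_apply, smul_eq_mul] at f4
  exact mul_left_cancel₀ (mul_ne_zero h22 h23) (by linear_combination f4)

theorem Mon.in (hb : Bi e x) (h : Mon e x v φ) : In e x v φ := by
  rcases h with ⟨i, a, -, rfl, rfl⟩ | ⟨i, j, a, b, -, -, -, rfl, rfl⟩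
  · exact ⟨by rw [pr_smul, hb.pr_e], by rw [prD_smul, hb.prD_x]⟩
  · exact ⟨by rw [pr_add, pr_smul, pr_smul, hb.pr_e, hb.pr_e], by rw [prD_add, prD_smul, prD_smul, hb.prD_x, hb.prD_x]⟩

/-- A monomial reflection permutes the lines of the frame. -/
theorem Mon.perm (hb : Bi e x) (h : Mon e x v φ) (l : Fin k) : ∃ (j : Fin k) (c : F), e l - φ (e l) • v = c • e j := by
  rcases h with ⟨i, a, ha, rfl, rfl⟩ | ⟨i, j, a, b, hij, ha, hb', rfl, rfl⟩
  · by_cases h : i = l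
    · subst h
      exact ⟨i, -1, by simp only [LinearMap.smul_apply, hb.diag, smul_eq_mul]; match_scalars; field_simp; ring⟩
    · exact ⟨l, 1, by simp [hb.off i l h]⟩
  · by_cases h : i = l
    · subst h
      exact ⟨j, -(b / a), by
        simp only [LinearMap.add_apply, LinearMap.smul_apply, hb.diag, hb.off j i hij.symm, smul_eq_mul]
        match_scalars <;> field_simp <;> ring⟩
    by_cases h' : j = l
    · subst h'
      exact ⟨i, -(a / b), by
        simp only [LinearMap.add_apply, LinearMap.smul_apply, hb.diag, hb.off i j hij, smul_eq_mul]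
        match_scalars <;> field_simp <;> ring⟩
    · exact ⟨l, 1, by simp [hb.off i l h, hb.off j l h']⟩

theorem frame_of_mon {Γ : Subgroup (G F)} (hg : RfGen Γ) {e : Fin 5 → V F} {x : Fin 5 → Dual F (V F)} (hb : Bi e x)
    (h : ∀ v φ, Rf Γ v φ → Mon e x v φ) : Frame Γ :=
  ⟨e, x, hb, fun g hg' => hg.induction (P := fun g => ∀ i, ∃ (j : Fin 5) (c : F), g • e i = c • e j)
    (fun i => ⟨i, 1, by simp⟩) (fun a b ha hb i => by
      obtain ⟨j, c, h1⟩ := hb i
      obtain ⟨l, c', h2⟩ := ha j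
      exact ⟨l, c * c', by rw [mul_smul, h1, gsmul_smul, h2, smul_smul]⟩)
    (fun g v φ h1 eg i => by rw [eg]; exact (h v φ h1).perm hb i) hg'⟩

/-- The monomial induction: a system that can be enlarged unless all reflections respect it cannot exist. -/
theorem mono {Γ : Subgroup (G F)} (hc : Ctx Γ) (P : ∀ k : ℕ, (Fin k → V F) → (Fin k → Dual F (V F)) → Prop)
    (hbi : ∀ k e x, P k e x → Bi e x)
    (step : ∀ k e x, P k e x → ∀ v φ, Rf Γ v φ →
      (∀ i, x i v = 0 ∧ φ (e i) = 0) ∨ Mon e x v φ ∨ ∃ e' x', P (k + 1) e' x')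
    {k : ℕ} (hk : 0 < k) (e : Fin k → V F) (x : Fin k → Dual F (V F)) : ¬ P k e x := fun h => by
  induction hn : 5 - k using Nat.strong_induction_on generalizing k with
  | _ n ih =>
    have hb := hbi k e x h
    by_cases h1 : ∃ e' x', P (k + 1) e' x'
    · obtain ⟨e', x', h1⟩ := h1
      have := (hbi _ _ _ h1).le_card
      rw [Fintype.card_fin] at this
      exact ih (5 - (k + 1)) (by omega) k.succ_pos e' x' h1 rfl
    by_cases h5 : k = Fintype.card (Fin 5)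
    · have h6 := hb.pr_eq_self h5
      obtain rfl : k = 5 := h5.trans (Fintype.card_fin 5)
      refine hc.noFrame (frame_of_mon hc.gen hb fun v φ hv => ((step _ e x h v φ hv).resolve_left fun h0 =>
        hv.ne ?_).resolve_right h1)
      rw [← h6 v, (pr_eq_zero_iff hb).2 fun i => (h0 i).1]
    · obtain ⟨v, φ, hv, h2, h3⟩ := exists_moving hc.gen hc.irr hb hk h5
      rcases step k e x h v φ hv with h0 | h0 | h0
      · exact h2 ((prD_eq_zero_iff hb).2 fun i => (h0 i).2)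
      · exact h3 (h0.in hb).1
      · exact h1 h0

end CL.Low5
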