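/-
Project LOW5: no scalars when the Sylow 5-subgroups are cyclic; the standing hypotheses for reflection groups.
-/
import Cfsg.Agent.Low5.Defs2

set_option autoImplicit false

namespace CL.Low5

open Matrix Cfsg Cfsg.Geo CL.Asch CL.SLn CL.Low Module
open scoped commutatorElement

universe u

namespace Z5Ctx

variable {F : Type u} [Field F] {P Γ N : Subgroup (G F)} {v : V F} {φ : Dual F (V F)} {g r : G F}

theorem triv (h : QS P) {A : Type*} [CommGroup A] (f : P →* A) (a : P) : f a = 1 := by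
  have : ⁅P, P⁆ ≤ f.ker.map P.subtype := Subgroup.commutator_le.2 fun a ha b hb =>
    ⟨⁅(⟨a, ha⟩ : P), ⟨b, hb⟩⁆, by
      rw [SetLike.mem_coe, MonoidHom.mem_ker, map_commutatorElement, commutatorElement_eq_one_iff_mul_comm, mul_comm],
      rfl⟩
  exact (Subgroup.mem_map_iff_mem P.subtype_injective).1 (this (h.perfect.ge a.2))

theorem det_rf' (h : φ v = 2) (hg : ∀ y, g • y = y - φ y • v) : (g : Matrix (Fin 5) (Fin 5) F).det = -1 := by
  rw [det_eq_of_smul (f := LinearMap.transvection (-φ) v) (fun x ↦ (hg x).trans (by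
    rw [LinearMap.transvection.apply, LinearMap.neg_apply, neg_smul, sub_eq_add_neg]))]
  simp [h]
  norm_num

theorem det_neg' (g : G F) : ((-g : G F) : Matrix (Fin 5) (Fin 5) F).det = -(g : Matrix (Fin 5) (Fin 5) F).det := by
  rw [Units.val_neg, det_neg]
  norm_num

/-- a reflection up to sign is not scalar -/
theorem nsc {η : F} (hv : v ≠ 0) (hφ : φ ≠ 0) (hη : η ≠ 0) (hg : ∀ y, g • y = η • (y - φ y • v)) :
    g ∉ scalars (Fin 5) F := fun hs => by
  obtain ⟨c, hc⟩ := mem_scalars_iff'.mp hs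
  have h1 : ∀ y, (η * φ y) • v = (η - c) • y := fun y => by
    have := hg y
    rw [gsmul_def, hc, smul_mulVec, one_mulVec, smul_sub, smul_smul] at this
    rw [sub_smul, this, sub_sub_cancel]
  have a0 := congrFun (h1 (Pi.single 0 1)) 0
  have a1 := congrFun (h1 (Pi.single 0 1)) 1
  have b0 := congrFun (h1 (Pi.single 1 1)) 0
  have b1 := congrFun (h1 (Pi.single 1 1)) 1
  simp only [Pi.smul_apply, smul_eq_mul, Pi.single_eq_same, mul_one, ne_eq, one_ne_zero, not_false_eq_true,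
    Pi.single_eq_of_ne, zero_ne_one, mul_zero] at a0 a1 b0 b1
  have h2 : η - c = 0 := pow_eq_zero_iff (two_ne_zero) |>.1 (by
    linear_combination -(η - c) * a0 - η * φ (Pi.single 0 1) * v 0 * b1 + η * φ (Pi.single 1 1) * v 0 * a1)
  refine hφ (LinearMap.ext fun y => ?_)
  have := h1 y
  rw [h2, zero_smul, smul_eq_zero] at this
  exact (mul_eq_zero.1 (this.resolve_right hv)).resolve_left hη

theorem exists_pm (hΓ : ∀ g ∈ Γ, g ∈ P ∨ -g ∈ P) (hr : r ∈ Γ) (e : ∀ y, r • y = y - φ y • v) :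
    ∃ s ∈ P, ∃ η : F, η ≠ 0 ∧ (∀ y, s • y = η • (y - φ y • v)) ∧ ∀ g : G F, ⁅g, s⁆ = ⁅g, r⁆ := by
  rcases hΓ r hr with h | h
  · exact ⟨r, h, 1, one_ne_zero, by simpa using e, fun _ => rfl⟩
  · exact ⟨-r, h, -1, by simp, fun y => by rw [neg_gsmul, e, neg_one_smul], fun g => by simp [commutatorElement_def]⟩

/-- a subgroup normalised by `P` and containing a reflection of `± P` contains `P` -/
theorem le_of_rf (h : QS P) (hΓ : ∀ g ∈ Γ, g ∈ P ∨ -g ∈ P) (hN : ∀ g ∈ P, ∀ n ∈ N, g * n * g⁻¹ ∈ N) (h1 : Rf Γ v φ)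
    (h2 : r ∈ N) (e : ∀ y, r • y = y - φ y • v) : P ≤ N := by
  obtain ⟨r', hr, e'⟩ := h1.mem
  obtain rfl : r' = r := gext fun y => (e' y).trans (e y).symm
  obtain ⟨s, hs, η, hη, es, c⟩ := exists_pm hΓ hr e
  by_contra k
  have := h.simple
  have hc : ((⟨s, hs⟩ : P) : PQ P) ∈ Subgroup.center (PQ P) := Subgroup.mem_center_iff.2 fun q => by
    obtain ⟨g, rfl⟩ := QuotientGroup.mk_surjective q
    rw [← commutatorElement_eq_one_iff_mul_comm]
    change ((⁅g, (⟨s, hs⟩ : P)⁆ : P) : PQ P) = 1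
    by_contra n
    refine k (h.le_of_normal hN ?_ (⁅g, (⟨s, hs⟩ : P)⁆ : P).2 (mt mk_eq_one_iff.2 n))
    change ⁅(g : G F), s⁆ ∈ N
    rw [c]
    exact N.mul_mem (hN g g.2 _ h2) (N.inv_mem h2)
  rcases (inferInstance : (Subgroup.center (PQ P)).Normal).eq_bot_or_eq_top with e1 | e1
  · rw [e1, Subgroup.mem_bot, mk_eq_one_iff] at hc
    exact nsc h1.ne h1.ne' hη es hc
  · exact h.nonabelian ⟨⟨fun a b => (Subgroup.mem_center_iff.1 (e1.ge (Subgroup.mem_top b)) a)⟩⟩

theorem noFrame (h : QS P) (hP : P ≤ Γ) (hΓ : ∀ g ∈ Γ, g ∈ P ∨ -g ∈ P) (h1 : Rf Γ v φ) : ¬ Frame Γ := by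
  rintro ⟨e, x, hb, hf⟩
  obtain ⟨r, hr, er⟩ := h1.mem
  obtain ⟨s, hs, η, hη, es, -⟩ := exists_pm hΓ hr er
  choose σ c hσ using fun (g : P) i => hf g (hP g.2) i
  have c0 : ∀ g i, c g i ≠ 0 := fun g i k => by
    have := hσ g i
    rw [k, zero_smul, smul_eq_zero_iff_eq] at this
    exact hb.e_ne i this
  have key : ∀ (g : P) i j, σ g i = j ↔ x j ((g : G F) • e i) ≠ 0 := fun g i j => by
    rw [hσ, map_smul, hb.apply, smul_eq_mul, eq_comm]
    split_ifs with k <;> simp [k, c0]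
  let f : P →* Function.End (Fin 5) :=
    { toFun := σ
      map_one' := funext fun i => (key 1 i i).2 (by simp [hb.diag])
      map_mul' := fun a b => funext fun i => (key _ i _).2 (by
        rw [Subgroup.coe_mul, mul_smul, hσ, gsmul_smul, map_smul]
        exact mul_ne_zero (c0 b i) ((key a _ _).1 rfl)) }
  have hπ : ∀ g i, f.toHomPerm g i = σ g i := fun _ _ => rfl
  by_cases k : f.toHomPerm ⟨s, hs⟩ = 1
  · have h2 := h.le_of_normal (N := f.toHomPerm.ker.map P.subtype) (by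
      rintro g hg _ ⟨n, hn, rfl⟩
      exact ⟨_, (MonoidHom.normal_ker _).conj_mem n hn ⟨g, hg⟩, rfl⟩) ⟨⟨s, hs⟩, k, rfl⟩ hs (nsc h1.ne h1.ne' hη es)
    have h3 : ∀ (g : P) i, (g : G F) • e i = c g i • e i := fun g i => by
      rw [hσ, ← hπ, show f.toHomPerm g = 1 from (Subgroup.mem_map_iff_mem P.subtype_injective).1 (h2 g.2)]
      rfl
    refine h.nonabelian ⟨⟨fun a b => ?_⟩⟩
    obtain ⟨a, rfl⟩ := QuotientGroup.mk_surjective a
    obtain ⟨b, rfl⟩ := QuotientGroup.mk_surjective b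
    rw [← QuotientGroup.mk_mul, ← QuotientGroup.mk_mul]
    refine congrArg _ (Subtype.ext (gext fun y => ?_))
    rw [← hb.pr_eq_self (by simp) y]
    simp only [pr, Finset.smul_sum, gsmul_smul, Subgroup.coe_mul, mul_smul, h3, smul_comm (c a _) (c b _)]
  · obtain ⟨i, hi⟩ : ∃ i, f.toHomPerm ⟨s, hs⟩ i ≠ i := by
      by_contra n
      push Not at n
      exact k (Equiv.ext n)
    have k1 : ∀ l j, f.toHomPerm ⟨s, hs⟩ l = j ↔ (if j = l then 1 else 0) - φ (e l) * x j v ≠ 0 := fun l j => by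
      rw [hπ, key, es, map_smul, map_sub, map_smul, hb.apply]
      simp [hη]
    have h2 := triv h (Equiv.Perm.sign.comp f.toHomPerm) ⟨s, hs⟩
    rw [MonoidHom.comp_apply] at h2
    generalize f.toHomPerm ⟨s, hs⟩ = π at hi k1 h2
    have a0 : φ (e i) ≠ 0 := fun k => hi ((k1 i i).2 (by simp [k]))
    have fx : ∀ l, l ≠ i → l ≠ π i → π l = l := fun l l1 l2 => (k1 l l).2 (by
      have := mt (k1 i l).2 l2.symm
      simp only [l1, if_false, zero_sub, ne_eq, neg_eq_zero, mul_eq_zero, a0, false_or, not_not] at this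
      simp [this])
    have h3 : π = Equiv.swap i (π i) := Equiv.ext fun l => by
      by_cases l1 : l = i
      · rw [l1, Equiv.swap_apply_left]
      by_cases l2 : l = π i
      · rw [l2, Equiv.swap_apply_right]
        by_contra n
        exact hi (π.injective (π.injective (fx _ n fun k => hi (π.injective k))))
      · rw [fx l l1 l2, Equiv.swap_apply_of_ne_of_ne l1 l2]
    rw [h3, Equiv.Perm.sign_swap hi.symm] at h2
    exact absurd h2 (by decide)

theorem ctx (h : QS P) (hP : P ≤ Γ) (hΓ : ∀ g ∈ Γ, g ∈ P ∨ -g ∈ P) (h1 : Rf Γ v φ) (hz : ZSym Γ)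
    (hm : Γ ≤ P ∨ (2 : F) ≠ 0) : Ctx Γ := by
  refine ⟨?_, hz, irr_iff.2 fun W hW => irr_iff.1 h.irr W fun g hg => hW g (hP hg), noFrame h hP hΓ h1, ?_⟩
  · obtain ⟨r, hr, e⟩ := h1.mem
    have m : r ∈ Subgroup.closure {g | ∃ v φ, Rf Γ v φ ∧ ∀ y, g • y = y - φ y • v} :=
      Subgroup.subset_closure ⟨v, φ, h1, e⟩
    have h2 := le_of_rf h hΓ (fun g hg n hn => by
      induction hn using Subgroup.closure_induction with
      | mem y hy =>
        obtain ⟨w, ψ, h2, e2⟩ := hy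
        exact Subgroup.subset_closure ⟨_, _, h2.conj (hP hg), fun z => by
          rw [mul_smul, mul_smul, e2, smul_sub, smul_inv_smul, dact_apply, gsmul_smul]⟩
      | one => simp
      | mul y z _ _ hy hz => simpa [mul_assoc] using Subgroup.mul_mem _ hy hz
      | inv y _ hy => simpa [mul_assoc] using Subgroup.inv_mem _ hy) h1 m e
    refine hm.elim (·.trans h2) fun two g hg => (hΓ g hg).elim (h2 ·) fun k => ?_
    have h3 := h2 ((hΓ r hr).resolve_left fun k => two (by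
      linear_combination det_rf' h1.two e - mem_specialLinear.1 (h.le_SL k)))
    simpa using Subgroup.mul_mem _ (h2 k) (Subgroup.mul_mem _ h3 (Subgroup.inv_mem _ m))
  · rintro N hN ⟨w, ψ, h2, h3⟩ g hg
    obtain ⟨r, hr, e⟩ := h3.mem
    have := le_of_rf h hΓ (fun g hg => hN g (hP hg)) h2 hr e
    exact (hΓ g hg).imp (this ·) (this ·)

theorem rf_iff (two : (2 : F) = 0) : Rf P v φ ↔ Rt P v φ := by
  have e : ∀ y z : V F, y - z = y + z := fun y z => by
    rw [sub_eq_iff_eq_add, add_assoc, ← two_smul F z, two, zero_smul, add_zero]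
  exact ⟨fun h => ⟨⟨h.two.trans two, by simpa only [e] using h.mem⟩, h.ne, h.ne'⟩,
    fun h => ⟨h.tv.1.trans two.symm, h.ne, h.ne', by simpa only [e] using h.tv.2⟩⟩

end Z5Ctx

open Z5Ctx

theorem subCtx : SubCtx.{u} := by
  refine fun F _ _ P h => ⟨fun two hT ⟨v, φ, h1⟩ => ?_, fun two hT hL hS => ?_⟩
  · have hT' : ¬ HasTv (PM P) := fun ⟨g, hg, ht⟩ => hg.elim (fun k => hT ⟨g, k, ht⟩) fun k => two (by
      obtain ⟨w, ψ, -, -, h0, e⟩ := ht
      have h2 := tv_mem_specialLinear w ψ h0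
      rw [← show g = tv w ψ h0 from gext fun y => (e y).trans (tv_smul w ψ h0 y).symm, mem_specialLinear] at h2
      linear_combination det_neg' g - mem_specialLinear.1 (h.le_SL k) - h2)
    exact ⟨ctx h (fun _ => Or.inl) (fun _ => id) h1 (zsym_of_noTv hT') (.inr two), two, hT'⟩
  · obtain ⟨g, hg, ht⟩ := hT
    obtain ⟨v, φ, hv, hφ, h1⟩ := ht.tv hg
    refine ⟨ctx h le_rfl (fun _ => Or.inl) ((rf_iff two).2 ⟨h1, hv, hφ⟩) (fun v φ w ψ h1 h2 h0 => by_contra fun k =>
      hL ⟨w, v, ψ, φ, ((rf_iff two).1 h2).tv, ((rf_iff two).1 h1).tv, h2.ne, h1.ne', k, h0⟩) (.inl le_rfl), two,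
      fun v φ t h1 h2 => (hS v φ t ((rf_iff two).1 h1) ((rf_iff two).1 h2).tv).resolve_left ?_⟩
    rintro rfl
    exact h2.ne (zero_smul _ _)

theorem subZ5 : SubZ5.{u} := by
  intro F _ _ P h hc
  have : Fact (Nat.Prime 5) := ⟨by norm_num⟩
  replace hc : ∀ S : Sylow 5 (PQ P), IsCyclic (S : Subgroup (PQ P)) := hc.elim id fun k S => by
    obtain ⟨n, hn⟩ := S.isPGroup'.exists_card_eq
    rcases n with _ | _ | n
    · have := (Nat.card_eq_one_iff_unique.1 hn).1
      exact isCyclic_of_subsingleton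
    · exact isCyclic_of_prime_card (p := 5) (by simpa using hn)
    · exact (k ((Dvd.intro (5 ^ n) (by rw [hn]; ring)).trans (Subgroup.card_subgroup_dvd_card (S : Subgroup (PQ P))))).elim
  refine eq_bot_iff.2 fun z hz => Subgroup.mem_bot.2 ?_
  have z5 : (⟨z, hz.1⟩ : P) ^ 5 = 1 := Subtype.ext (by simpa using pow_card_eq_one_of_scalar hz.2 (h.le_SL hz.1))
  have zc := Subgroup.mem_center_iff.1 (scalars_subgroupOf_le_center P (show (⟨z, hz.1⟩ : P) ∈ _ from hz.2))
  obtain ⟨Q⟩ : Nonempty (Sylow 5 P) := inferInstance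
  obtain ⟨S, hS⟩ := (Q.isPGroup'.map (QuotientGroup.mk' ((scalars (Fin 5) F).subgroupOf P))).exists_le_sylow
  have := hc S
  let f : (Q : Subgroup P) →* (S : Subgroup (PQ P)) :=
    ((QuotientGroup.mk' _).comp (Q : Subgroup P).subtype).codRestrict _ fun q => hS ⟨q, q.2, rfl⟩
  let : CommGroup (Q : Subgroup P) := commGroupOfCyclicCenterQuotient f fun q hq =>
    Subgroup.mem_center_iff.2 fun a => Subtype.ext (Subgroup.mem_center_iff.1
      (scalars_subgroupOf_le_center P (mk_eq_one_iff.1 (congrArg Subtype.val hq))) a)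
  have h1 := triv h (MonoidHom.transfer (MonoidHom.id (Q : Subgroup P))) ⟨z, hz.1⟩
  rw [MonoidHom.transfer_eq_pow _ _ fun k g _ => by
    rw [mul_assoc, ← (Commute.pow_right (zc g) k).eq, inv_mul_cancel_left]] at h1
  have h2 := orderOf_dvd_of_pow_eq_one (congrArg Subtype.val h1)
  have h3 := (Nat.dvd_prime (by norm_num)).1 (orderOf_dvd_of_pow_eq_one z5)
  exact congrArg Subtype.val (orderOf_eq_one_iff.1 (h3.resolve_right fun e => Q.not_dvd_index (e.symm.dvd.trans h2)))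

end CL.Low5
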