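/-
Project LOW5: the Heisenberg data of `U₃(q)`, `q` odd, and the rank one data of `U₃(2ⁿ)`.
-/
import Cfsg.Agent.Low5.Defs2
import Cfsg.Agent.Chev.U3Even

set_option autoImplicit false
set_option linter.unusedSectionVars false

namespace CL.Low5

open Matrix Cfsg Cfsg.Geo CL.Asch CL.SLn CL.Low Module
open scoped commutatorElement

universe u

namespace DataU

open CL.Chev.U3 hiding UF

variable {H : Type u} [Group H] {K : Type*} [Field K]

/-- the elements inverted by `D (-1)` -/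
theorem exists_real (S : Chev.U3.UF K) (h2 : (2 : K) ≠ 0) (a : K) : ∃ v : S.Q, v.a = a ∧ 2 * v.b = -(a * S.σ a) :=
  ⟨⟨a, -(a * S.σ a) / 2, by
    simp only [map_div₀, map_neg, map_mul, S.σσ, map_ofNat]; field_simp; ring⟩, rfl, by field_simp⟩

theorem pow_b {S : Chev.U3.UF K} {v : S.Q} (h : 2 * v.b = -(v.a * S.σ v.a)) (n : ℕ) : (v ^ n).b = (n : K) ^ 2 * v.b := by
  induction n with
  | zero => simp
  | succ n ih =>
    rw [pow_succ, Chev.U3.UF.Q.mul_b, ih, Chev.U3.UF.Q.pow_a, map_mul, map_natCast]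
    push_cast
    linear_combination (-n : K) * h

theorem neg_smul {S : Chev.U3.UF K} {v : S.Q} (h : 2 * v.b = -(v.a * S.σ v.a)) : (-1 : Kˣ) • v = v⁻¹ := by
  ext
  · simp
  · simp only [Chev.U3.UF.Q.smul_b, Chev.U3.UF.Q.inv_b, v.σ_b, Units.val_neg, Units.val_one, map_neg, map_one]
    linear_combination h

theorem hd (M : Model H K) (h2 : (2 : K) ≠ 0) : HD H (ringChar K) := by
  obtain ⟨a, ha⟩ := M.bar.exists_ne
  obtain ⟨u, u1, u2⟩ := exists_real M.toUF h2 1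
  obtain ⟨v, v1, v2⟩ := exists_real M.toUF h2 a
  obtain ⟨l, hl⟩ := M.bar.exists_norm_eq (a := -1) (by simp)
  have l0 : l ≠ 0 := fun e => by simp [e] at hl
  rw [← u1] at u2
  rw [← v1] at v2
  have pw : ∀ {v : M.Q}, 2 * v.b = -(v.a * M.σ v.a) → M.T v ^ ringChar K = 1 := fun {v} h => by
    rw [← map_pow, M.T_eq_one]
    exact Chev.U3.UF.Q.eq_one_of_b (by rw [pow_b h, ringChar.Nat.cast_ringChar]; simp)
  have iv : ∀ {v : M.Q}, 2 * v.b = -(v.a * M.σ v.a) → M.D (-1) * M.T v * (M.D (-1))⁻¹ = (M.T v)⁻¹ := fun h => by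
    rw [M.D_conj_T, neg_smul h, map_inv]
  obtain ⟨ζ, hζ⟩ : ∃ ζ, ζ = ⁅u, v⁆ := ⟨_, rfl⟩
  have z1 : ζ.a = 0 := hζ ▸ Chev.U3.UF.Q.commutator_a u v
  have z2 : ζ.b ≠ 0 := by rw [hζ, Chev.U3.UF.Q.commutator_b, u1, v1]; simpa using sub_ne_zero.2 ha
  have z3 := Chev.U3.UF.Q.σ_b_of_a z1
  have z4 : ζ ≠ 1 := fun e => z2 (by rw [e]; rfl)
  have z5 : ζ.wAct⁻¹ ≠ 1 := inv_ne_one.2 (Chev.U3.UF.Q.wAct_ne_one z4)
  have zc : ∀ v, Commute (M.T ζ) (M.T v) := fun v =>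
    (show Commute ζ v from (Subgroup.mem_center_iff.1 (Chev.U3.UF.Q.mem_center.2 z1) v).symm).map M.T
  have e1 : ζ.wAct⁻¹.wAct = ζ⁻¹ := by ext <;> simp [z1]
  have e2 : M.T ζ * (M.w * M.T ζ.wAct⁻¹ * M.w) * M.T ζ = M.D (Units.mk0 ζ.b z2) * M.w := by
    rw [M.w_T_w z5, e1, inv_inv, Chev.U3.UF.Q.wAct_wAct, map_inv,
      show (Units.mk0 (M.σ ζ.wAct⁻¹.b) (M.toUF.σ_ne_zero (Chev.U3.UF.Q.b_ne_zero z5)))⁻¹ = Units.mk0 ζ.b z2 from by ext; simp]
    group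
  have e3 : ∀ (c : Kˣ) v, M.D c * M.w * M.T v * (M.D c * M.w)⁻¹ = M.w * M.T ((Units.map (M.σ : K →* K) c)⁻¹ • v) * M.w :=
    fun c v => by
      rw [← M.D_conj_T, ← M.w_conj_D]
      simp only [_root_.mul_inv_rev, M.w_inv, mul_assoc, ← mul_assoc M.w M.w, M.w_mul_w, one_mul, mul_one]
  refine ⟨M.U, M.T u, M.T v, M.T ζ, M.w * M.T ζ.wAct⁻¹ * M.w, M.D (-1), _, M.D (Units.mk0 l l0), M.isPGroup_U _,
    M.T_mem_U u, M.T_mem_U v, pw u2, pw v2, by rw [hζ, map_commutatorElement], mt M.T_eq_one.1 z4, zc u, zc v,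
    by rw [← map_mul]; simp, fun e => h2 ?_, iv u2, iv v2, fun s hs => M.conj_mem_U (M.D_mem_B _) hs, rfl, ?_, ?_, ?_, ?_⟩
  · have := M.toUF.mem_Z0.1 (M.K0_le_Z0 e)
    simp only [Units.val_neg, Units.val_one, map_neg, map_one] at this
    linear_combination -this
  · rw [e2, e3]
    congr 3
    ext <;> simp [z1, z3]
    field_simp
  · rw [e2, mul_assoc, ← mul_assoc M.w, M.w_conj_D, ← map_mul]
    congr 1
    ext
    simp [z3, z2]
  · have hT : ∀ v, M.T v ∈ Subgroup.closure (insert (M.T ζ * (M.w * M.T ζ.wAct⁻¹ * M.w) * M.T ζ) (M.U : Set H)) :=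
      fun v => Subgroup.subset_closure (.inr (M.T_mem_U v))
    obtain ⟨s, hs⟩ := M.toUF.exists_Q_b 1
    have s1 : s ≠ 1 := fun e => one_ne_zero (by rw [← hs, e]; rfl)
    have hn := Subgroup.subset_closure (Set.mem_insert (M.T ζ * (M.w * M.T ζ.wAct⁻¹ * M.w) * M.T ζ) (M.U : Set H))
    have h := mul_mem (mul_mem hn (hT (Units.map (M.σ : K →* K) (Units.mk0 ζ.b z2) • s))) (inv_mem hn)
    nth_rewrite 2 3 [e2] at h
    rw [e3, inv_smul_smul, M.w_T_w s1, Subgroup.mul_mem_cancel_right _ (hT _), mul_assoc (M.T _) (M.D _),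
      Subgroup.mul_mem_cancel_left _ (hT _),
      show Units.mk0 (M.σ s.b) (M.toUF.σ_ne_zero (Chev.U3.UF.Q.b_ne_zero s1)) = 1 from by ext; simp [hs]] at h
    exact M.eq_top_of hT (by simpa using h)
  · rw [M.D_conj_T, ← map_inv]
    congr 1
    ext <;> simp [z1, z3, hl]

theorem u3d (M : Model H K) [CharP K 2] (hq : 4 ≤ M.q) : U3D H := by
  obtain ⟨l, hl⟩ := M.bar.exists_primitiveRoot
  have l1 : l * M.σ l = 1 := by rw [M.bar.norm_eq_pow, hl.pow_eq_one]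
  have l0 : l ≠ 0 := fun e => by simp [e] at l1
  obtain ⟨b, b0, hb⟩ := M.bar.exists_trace_zero
  obtain ⟨u, hu⟩ := M.toUF.exists_Q 1
  refine ⟨M.sylowU 2, M.w, M.D (Units.mk0 l l0), M.T (Chev.U3.UF.Q.z b hb), M.T u, M.w_mul_w, fun g => ?_, ?_, ?_, M.T_mem_U _,
    fun e => b0 (congrArg Chev.U3.UF.Q.b (M.T_eq_one.1 e)), ?_, ?_, M.T_mem_U _, fun e => ?_, ?_⟩
  · rw [M.sylowU_coe, M.normalizer_U]
    refine (em _).imp_right fun h => ?_
    obtain ⟨u, v, c, rfl⟩ := M.eq_TwTD_of_not_fix h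
    exact ⟨_, M.T_mem_U u, _, mul_mem (M.T_mem_B v) (M.D_mem_B c), rfl⟩
  · rw [M.sylowU_coe, M.normalizer_U]
    exact M.D_mem_B _
  · rw [Commute, SemiconjBy, M.w_mul_D]
    congr 2
    ext
    simpa using eq_inv_of_mul_eq_one_left l1
  · rw [← map_mul, M.T_eq_one, Chev.U3.UF.Q.mul_self_eq_one]
    rfl
  · rw [Commute, SemiconjBy, M.D_mul_T]
    congr 2
    ext <;> simp [l1]
  · rw [commutatorElement_def, M.D_conj_T, ← map_inv, ← map_mul, ← map_mul, M.T_eq_one, Chev.U3.UF.Q.mul_self_eq_one,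
      Chev.U3.UF.Q.mul_a, Chev.U3.UF.Q.inv_a, Chev.U3.UF.Q.smul_a, hu, mul_one, ← sub_eq_add_neg, sub_eq_zero] at e
    have := Nat.le_of_dvd (by norm_num) (hl.dvd_of_pow_eq_one 3 (M.toUF.pow_three_of_mem_Z0 (M.toUF.mem_Z0_iff'.2 e)))
    omega
  · rintro _ ⟨t, rfl⟩ ht _ ⟨v, rfl⟩
    rw [← map_mul, M.T_eq_one, Chev.U3.UF.Q.mul_self_eq_one] at ht
    exact (show Commute t v from (Subgroup.mem_center_iff.1 (Chev.U3.UF.Q.mem_center.2 ht) v).symm).map M.T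

end DataU

theorem dataHU : DataHU := fun K _ _ q hK hq =>
  DataU.hd (CL.Chev.U3.modelPSU hK) (Ring.two_ne_zero fun e => by
    have := FiniteField.even_card_of_char_two e
    rw [hK, Nat.pow_mod, Nat.odd_iff.1 hq] at this
    omega)

theorem dataU3 : DataU3 := fun K _ _ n hn hK =>
  have := CL.Chev.U3.charP_two_of_card (hK.trans (pow_mul 2 n 2).symm)
  DataU.u3d (CL.Chev.U3.modelPSU hK) (Nat.pow_le_pow_right (by norm_num) hn : 2 ^ 2 ≤ 2 ^ n)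

end CL.Low5
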