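/-
Project LOW5: the statements of the maximality steps in dimension five.
-/
import Cfsg.Agent.Low5.Defs2

set_option autoImplicit false

namespace CL.Low5

open Matrix Cfsg Cfsg.Geo CL.Asch CL.SLn CL.Low Module

universe u

/-- The overgroup method. -/
theorem isMaximalIn_of_over {H : Type*} [Group H] [Finite H] {Ω X : Subgroup H} (hX : X < Ω)
    (h : ∀ M, IsMaximalIn Ω M → X ≤ M → M ≤ X) : IsMaximalIn Ω X := by
  obtain ⟨M, h1, h2⟩ := exists_maximal_ge_of_wellFoundedGT (fun M : Subgroup H => M < Ω) X hX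
  have h3 : IsMaximalIn Ω M := ⟨h2.1, fun K k1 k2 => k2.lt_or_eq.imp (fun k => le_antisymm (h2.2 k k1) k1) id⟩
  rwa [le_antisymm h1 (h M h3 h1)]

/-- The special unitary group. -/
abbrev SU5 (F : Type u) [Field F] [Fintype F] (q : ℕ) : Subgroup (G F) := GU 5 F q ⊓ specialLinear (Fin 5) F

/-- The normaliser of an extraspecial group of order `125`. -/
def SubH5 : Prop :=
  ∀ (F : Type u) [Field F] [Fintype F] (R : Subgroup (G F)), IsHeis R → (∀ a ∈ R, a ^ 5 = 1) →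
    (scalars (Fin 5) F).relIndex (subgroupNormalizer R) ∣ 12000

def MaxSingL : Prop :=
  ∀ (F : Type u) [Field F] [Fintype F] (K : Subalgebra F (Matrix (Fin 5) (Fin 5) F)), IsFieldSubalgebra 5 K →
    IsMaximalIn (specialLinear (Fin 5) F) (subalgebraNormalizer K ⊓ specialLinear (Fin 5) F)

def MaxHeisL : Prop :=
  ∀ (F : Type u) [Field F] [Fintype F], (∃ p : ℕ, p.Prime ∧ Fintype.card F = p ∧ p % 5 = 1) →
    ∀ R : Subgroup (G F), IsLinearSymplecticTypeData 5 R →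
      IsMaximalIn (specialLinear (Fin 5) F) (subgroupNormalizer R ⊓ specialLinear (Fin 5) F)

def MaxUFr : Prop :=
  ∀ (F : Type u) [Field F] [Fintype F] (q : ℕ), Fintype.card F = q ^ 2 → ∀ D : Fin 5 → Submodule F (Fin 5 → F),
    IsNondegenerateMDecomposition (hermForm 5 F q) 1 D → IsMaximalIn (SU5 F q) (decompositionStabilizer D ⊓ SU5 F q)

def MaxSingU : Prop :=
  ∀ (F : Type u) [Field F] [Fintype F] (q : ℕ), Fintype.card F = q ^ 2 → 3 ≤ q →
    ∀ K : Subalgebra F (Matrix (Fin 5) (Fin 5) F), IsFieldSubalgebra 5 K → IsAdjointClosedFor (hermForm 5 F q) K →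
      IsMaximalIn (SU5 F q) (subalgebraNormalizer K ⊓ SU5 F q)

def MaxUSub : Prop :=
  ∀ (F : Type u) [Field F] [Fintype F] (q : ℕ), Fintype.card F = q ^ 2 → ∀ (F₀ : Subfield F) (r : ℕ) (P : G F),
    r.Prime → Odd r → Fintype.card F = Nat.card F₀ ^ r → IsFormRationalStructure (hermForm 5 F q) F₀ 1 P →
      IsMaximalIn (SU5 F q) (subfieldSubgroup F₀ P ⊓ SU5 F q)

def MaxUOrt : Prop :=
  ∀ (F : Type u) [Field F] [Fintype F] (q : ℕ), Fintype.card F = q ^ 2 → Odd q → ∀ (F₀ : Subfield F) (P : G F),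
    Fintype.card F = Nat.card F₀ ^ 2 → IsFormRationalStructure (hermForm 5 F q) F₀ 1 P →
      IsMaximalIn (SU5 F q) (subfieldSubgroup F₀ P ⊓ SU5 F q)

def MaxHeisU : Prop :=
  ∀ (F : Type u) [Field F] [Fintype F] (q : ℕ), Fintype.card F = q ^ 2 → ∀ (p : ℕ) (R : Subgroup (G F)), p.Prime →
    CharP F p → ((q = p ∧ p % 5 = 4) ∨ (q = p ^ 2 ∧ (p % 5 = 2 ∨ p % 5 = 3))) → IsSymplecticTypeGroup 5 R →
    ActsAbsolutelyIrreducibly (matrixSet R) → R ≤ similarityGroup (hermForm 5 F q) → Nat.card R = 125 →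
    Nat.card (Subgroup.center R) = 5 → IsMaximalIn (SU5 F q) (subgroupNormalizer R ⊓ SU5 F q)

end CL.Low5
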