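/-
Project LOW5: the extension lemma for `G(m, m, 3)`, `m ≥ 4`.
-/
import Cfsg.Agent.Low5.Emb

set_option autoImplicit false
set_option linter.unusedSectionVars false

namespace CL.Low5

open Matrix Cfsg Cfsg.Geo CL.Asch CL.SLn CL.Low Module

universe u

namespace Ext

variable {F : Type u} [Field F] {k : ℕ} {Γ : Subgroup (G F)} {M : Subgroup Fˣ} {v d : V F} {φ χ : Dual F (V F)}
  {e : Fin k → V F} {x : Fin k → Dual F (V F)}

theorem cfg_comp (h : GCfg Γ M e x) {m : ℕ} {f : Fin m → Fin k} (hf : Function.Injective f) :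
    GCfg Γ M (e ∘ f) (x ∘ f) :=
  ⟨h.bi.comp hf, fun i j hij => h.rf (f i) (f j) (hf.ne hij)⟩

theorem exists_third (hk : 3 ≤ k) (i j : Fin k) : ∃ l, l ≠ i ∧ l ≠ j := by
  by_contra h
  push Not at h
  have : (Finset.univ : Finset (Fin k)) ⊆ {i, j} := fun l _ => by
    by_cases hl : l = i
    · simp [hl]
    · simp [h l hl]
  have h1 := (Finset.card_le_card this).trans Finset.card_le_two
  rw [Finset.card_univ, Fintype.card_fin] at h1
  omega

theorem inj3 {i j l : Fin k} (h1 : i ≠ j) (h2 : l ≠ i) (h3 : l ≠ j) : Function.Injective ![i, j, l] := by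
  intro a b hab
  fin_cases a <;> fin_cases b <;> simp_all [eq_comm]

/-- `PairMon` for a frame of any size. -/
theorem pairMon (hk : 3 ≤ k) (H : ∀ (e : Fin 3 → V F) (x : Fin 3 → Dual F (V F)), GCfg Γ M e x → PairMon Γ e x)
    (h : GCfg Γ M e x) (hv : Rf Γ v φ) {i j : Fin k} (hij : φ (e i) * x i v ≠ φ (e j) * x j v) :
    (φ (e i) * x i v = 1 ∧ x j v = 0 ∧ φ (e j) = 0) ∨ (φ (e j) * x j v = 1 ∧ x i v = 0 ∧ φ (e i) = 0) ∨
      SameRf (e i) ((2 : F) • x i) v φ ∨ SameRf (e j) ((2 : F) • x j) v φ := by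
  obtain ⟨l, h1, h2⟩ := exists_third hk i j
  have h0 : i ≠ j := fun e => hij (by rw [e])
  exact H _ _ (cfg_comp h (inj3 h0 h1 h2)) v φ hv 0 1 hij

theorem mon_of_same {i : Fin k} (h : SameRf (e i) ((2 : F) • x i) v φ) : Mon e x v φ := by
  obtain ⟨t, ht, h1, h2⟩ := h
  exact Or.inl ⟨i, t, ht, h1, by rw [h2, smul_smul, div_eq_inv_mul]⟩

/-- All diagonal entries vanish. -/
theorem null_of_zero (hk : 3 ≤ k) (hz : ZSym Γ) (h : GCfg Γ M e x) {a : Fˣ} (ha : a ∈ M) (ha1 : (a : F) ≠ 1)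
    (hv : Rf Γ v φ) (h0 : ∀ i, φ (e i) * x i v = 0) (i : Fin k) : x i v = 0 ∧ φ (e i) = 0 := by
  have hA : ∀ i j, i ≠ j → ∀ m ∈ M, φ (e i) = (m : F) * φ (e j) → x i v = (m : F)⁻¹ * x j v := by
    intro i j hij m hm h1
    have := hz _ _ _ _ hv (h.rf i j hij m hm) (by rw [map_sub, map_smul, h1, smul_eq_mul, sub_self])
    simpa [sub_eq_zero] using this
  have hB : ∀ i j, i ≠ j → ∀ m ∈ M, x i v = (m : F)⁻¹ * x j v → φ (e i) = (m : F) * φ (e j) := by
    intro i j hij m hm h1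
    have := hz _ _ _ _ (h.rf i j hij m hm) hv (by
      rw [LinearMap.sub_apply, LinearMap.smul_apply, h1, smul_eq_mul, sub_self])
    simpa [sub_eq_zero] using this
  have hC : ∀ i j, i ≠ j → φ (e i) = 0 → φ (e j) = 0 → x j v = 0 := by
    intro i j hij h1 h2
    have a1 := hA i j hij 1 M.one_mem (by rw [h1, h2, mul_zero])
    have a2 := hA i j hij a ha (by rw [h1, h2, mul_zero])
    rw [Units.val_one, inv_one, one_mul] at a1
    by_contra h3
    rw [a1] at a2
    exact ha1 (inv_eq_one.1 (mul_right_cancel₀ h3 (a2.symm.trans (one_mul _).symm)))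
  have hD : ∀ i, φ (e i) = 0 := by
    intro i
    by_contra h1
    have h2 := (mul_eq_zero.1 (h0 i)).resolve_left h1
    have h3 : ∀ j, j ≠ i → φ (e j) = 0 := by
      intro j hj
      by_contra h3
      have h4 := (mul_eq_zero.1 (h0 j)).resolve_left h3
      have a1 := hB i j hj.symm 1 M.one_mem (by rw [h2, h4, mul_zero])
      have a2 := hB i j hj.symm a ha (by rw [h2, h4, mul_zero])
      rw [Units.val_one, one_mul] at a1
      rw [a1] at a2
      exact ha1 (mul_right_cancel₀ h3 (a2.symm.trans (one_mul _).symm))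
    obtain ⟨j, hj, -⟩ := exists_third hk i i
    obtain ⟨l, hl, hl'⟩ := exists_third hk i j
    have h4 := hC l j hl' (h3 l hl) (h3 j hj)
    exact h1 (by rw [hB i j hj.symm 1 M.one_mem (by rw [h2, h4, mul_zero]), h3 j hj, mul_zero])
  obtain ⟨j, hj, -⟩ := exists_third hk i i
  exact ⟨hC j i hj (hD j) (hD i), hD i⟩

theorem cfg_snoc (h : GCfg Γ M e x) (h1 : ∀ i, x i d = 0) (h2 : ∀ i, χ (e i) = 0) (h3 : χ d = 1)
    (hr : ∀ l, ∀ m ∈ M, Rf Γ (e l - (m : F) • d) (x l - (m : F)⁻¹ • χ)) :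
    GCfg Γ M (Fin.snoc e d : Fin (k + 1) → V F) (Fin.snoc x χ : Fin (k + 1) → Dual F (V F)) := by
  refine ⟨h.bi.snoc h1 h2 h3, fun i j hij m hm => ?_⟩
  induction i using Fin.lastCases with
  | last =>
    induction j using Fin.lastCases with
    | last => exact absurd rfl hij
    | cast j =>
      simp only [Fin.snoc_last, Fin.snoc_castSucc]
      have hm0 := m.ne_zero
      convert (hr j m⁻¹ (M.inv_mem hm)).smul (neg_ne_zero.2 hm0) using 1
      · rw [Units.val_inv_eq_inv_val]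
        match_scalars <;> field_simp
      · rw [Units.val_inv_eq_inv_val]
        match_scalars <;> field_simp
  | cast i =>
    induction j using Fin.lastCases with
    | last =>
      simp only [Fin.snoc_last, Fin.snoc_castSucc]
      exact hr i m hm
    | cast j =>
      simp only [Fin.snoc_castSucc]
      exact h.rf i j (fun e => hij (by rw [e])) m hm

/-- Exactly one non-zero diagonal entry: the frame extends. -/
theorem extend (hk : 3 ≤ k) (h : GCfg Γ M e x) (hv : Rf Γ v φ) {j : Fin k} (hj : φ (e j) * x j v = 1)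
    (hn : ∀ l, l ≠ j → x l v = 0 ∧ φ (e l) = 0) :
    ∃ (e' : Fin (k + 1) → V F) (x' : Fin (k + 1) → Dual F (V F)), GCfg Γ M e' x' := by
  have hb := h.bi
  have h1 : ∀ i, x i (e j - φ (e j) • v) = 0 := by
    intro i
    by_cases hi : i = j
    · subst hi
      rw [map_sub, map_smul, hb.diag, smul_eq_mul, hj, sub_self]
    · rw [map_sub, map_smul, hb.off i j hi, (hn i hi).1, smul_zero, sub_self]
  have h2 : ∀ i, (x j - x j v • φ) (e i) = 0 := by
    intro i
    by_cases hi : i = j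
    · subst hi
      rw [LinearMap.sub_apply, LinearMap.smul_apply, hb.diag, smul_eq_mul, mul_comm, hj, sub_self]
    · rw [LinearMap.sub_apply, LinearMap.smul_apply, hb.off j i (Ne.symm hi), (hn i hi).2, smul_zero, sub_self]
  have h3 : (x j - x j v • φ) (e j - φ (e j) • v) = 1 := by
    rw [LinearMap.sub_apply, h1, LinearMap.smul_apply, map_sub, map_smul, hv.two]
    simp only [smul_eq_mul]
    linear_combination hj
  have h4 : ∀ l, l ≠ j → ∀ m ∈ M,
      Rf Γ (e l - (m : F) • (e j - φ (e j) • v)) (x l - (m : F)⁻¹ • (x j - x j v • φ)) := by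
    intro l hl m hm
    convert hv.refl (h.rf l j hl m hm) using 1
    · simp only [map_sub, map_smul, (hn l hl).2, smul_eq_mul]
      module
    · simp only [LinearMap.sub_apply, LinearMap.smul_apply, (hn l hl).1, smul_eq_mul]
      module
  refine ⟨_, _, cfg_snoc h h1 h2 h3 fun l m hm => ?_⟩
  by_cases hl : l = j
  · subst hl
    obtain ⟨i, hi, -⟩ := exists_third hk l l
    generalize e l - φ (e l) • v = d at h1 h2 h3 h4
    generalize x l - x l v • φ = χ at h1 h2 h3 h4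
    convert (h.rf l i hi.symm 1 M.one_mem).refl (h4 i hi m hm) using 1
    · simp only [Units.val_one, inv_one, one_smul, LinearMap.sub_apply, map_sub, map_smul, h1, hb.diag,
        hb.off l i hi.symm]
      module
    · simp only [Units.val_one, inv_one, one_smul, LinearMap.sub_apply, LinearMap.smul_apply, map_sub, h2, hb.diag,
        hb.off i l hi]
      module
  · exact h4 l hl m hm

/-- Conjugation by a diagonal element. -/
theorem scale (h : GCfg Γ M e x) (hv : Rf Γ v φ) {n j : Fin k} (hnj : n ≠ j) (h1 : x n v = 0) (h2 : φ (e n) = 0)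
    {m : Fˣ} (hm : m ∈ M) :
    Rf Γ (v + (((m : F) - 1) * x j v) • e j) (φ + (((m : F)⁻¹ - 1) * φ (e j)) • x j) := by
  have hb := h.bi
  convert (h.rf n j hnj m hm).refl ((h.rf n j hnj 1 M.one_mem).refl hv) using 1
  · simp only [Units.val_one, inv_one, one_smul, LinearMap.sub_apply, LinearMap.smul_apply, map_sub, map_smul, h1,
      hb.diag, hb.off n j hnj, hb.off j n hnj.symm, smul_eq_mul]
    module
  · simp only [Units.val_one, inv_one, one_smul, LinearMap.sub_apply, LinearMap.smul_apply, map_sub, map_smul, h2,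
      hb.diag, hb.off n j hnj, hb.off j n hnj.symm, smul_eq_mul]
    module

/-- Two transvections in the same root group. -/
theorem tv (h : Od Γ ∨ Ev Γ) {t : F} (hd : d ≠ 0) (hχ : χ ≠ 0) (h0 : χ d = 0) {g g' : G F} (hg : g ∈ Γ)
    (hg' : g' ∈ Γ) (eg : ∀ y, g • y = y + χ y • d) (eg' : ∀ y, g' • y = y + χ y • t • d) :
    (2 : F) = 0 ∧ (t = 0 ∨ t = 1) := by
  rcases h with h | h
  · exact ((not_tv h.noTv hg h0 eg).elim hd hχ).elim
  · refine ⟨h.two, or_iff_not_imp_left.2 fun ht => h.small d (-χ) t ?_ ?_⟩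
    · exact ⟨by simp [h0, h.two], hd, neg_ne_zero.2 hχ, g, hg, fun y => by simp [eg]⟩
    · exact ⟨by simp [h0, h.two], smul_ne_zero ht hd, neg_ne_zero.2 hχ, g', hg', fun y => by simp [eg']⟩

/-- Two diagonal entries equal to one. -/
theorem two_ones (h : Od Γ ∨ Ev Γ) {a : F} (ha0 : a ≠ 0) (ha2 : a ^ 2 ≠ 1) (ha3 : a ^ 3 ≠ 1) {p q : V F}
    {α β : Dual F (V F)} (a1 : α p = 1) (a2 : α q = 0) (a3 : α d = 0) (b1 : β p = 0) (b2 : β q = 1) (b3 : β d = 0)
    (c1 : χ p = 0) (c2 : χ q = 0) (c3 : χ d = 0)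
    (hr : ∀ m n : F, (m = 1 ∨ m = a ∨ m = a ^ 2) → (n = 1 ∨ n = a ∨ n = a ^ 2) →
      Rf Γ (m • (n • p + q) + d) (m⁻¹ • (n⁻¹ • α + β) + χ)) : d = 0 ∧ χ = 0 := by
  have ha1 : a - 1 ≠ 0 := fun e => ha2 (by rw [sub_eq_zero.1 e, one_pow])
  have ha1' : 1 - a⁻¹ ≠ 0 := fun e => ha1 (by rw [← inv_eq_one.1 (sub_eq_zero.1 e).symm, sub_self])
  have key : ∀ m n : F, (m = 1 ∨ m = a ∨ m = a ^ 2) → (n = 1 ∨ n = a ∨ n = a ^ 2) → ∃ g ∈ Γ, ∀ y,
      g • y = y + ((1 - m⁻¹) • (n⁻¹ • α + β)) y • d + χ y • (m - 1) • (n • p + q) + (2 * (m - 1) * χ y) • d := by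
    intro m n hm hn
    have hm0 : m ≠ 0 := by
      rcases hm with rfl | rfl | rfl
      exacts [one_ne_zero, ha0, pow_ne_zero 2 ha0]
    have hn0 : n ≠ 0 := by
      rcases hn with rfl | rfl | rfl
      exacts [one_ne_zero, ha0, pow_ne_zero 2 ha0]
    obtain ⟨g, hg, eg⟩ := (hr 1 n (Or.inl rfl) hn).mem
    obtain ⟨g', hg', eg'⟩ := (hr m n hm hn).mem
    rw [inv_one, one_smul, one_smul] at eg
    exact ⟨_, Γ.mul_mem hg hg', rf_mul_conj hm0 (by simp [a1, a2, b1, b2, hn0, one_add_one_eq_two])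
      (by simp [a3, b3]) (by simp [c1, c2]) c3 eg eg'⟩
  obtain ⟨g, hg, eg⟩ := key a 1 (by simp) (by simp)
  obtain ⟨g', hg', eg'⟩ := key (a ^ 2) 1 (by simp) (by simp)
  have hp : (1 : F) • p + q ≠ 0 := fun e => by simpa [a1, a2] using congrArg α e
  have hα : (1 : F)⁻¹ • α + β ≠ 0 := fun e => by simpa [a1, b1] using LinearMap.congr_fun e p
  by_cases hd : d = 0
  · refine ⟨hd, ?_⟩
    by_contra hχ
    obtain ⟨h2, h3⟩ := tv h (t := a + 1) (smul_ne_zero ha1 hp) hχ (by simp [c1, c2]) hg hg'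
      (fun y => by rw [eg, hd]; module) (fun y => by rw [eg', hd]; module)
    rcases h3 with h3 | h3
    · exact ha1 (by linear_combination h3 - h2)
    · exact ha0 (by linear_combination h3)
  by_cases hχ : χ = 0
  · obtain ⟨h2, h3⟩ := tv h (t := 1 + a⁻¹) (smul_ne_zero ha1' hd) hα (by simp [a3, b3]) hg hg'
      (fun y => by
        rw [eg, hχ]
        simp only [LinearMap.smul_apply, LinearMap.zero_apply, smul_eq_mul]
        module)
      (fun y => by
        rw [eg', hχ, ← inv_pow]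
        simp only [LinearMap.smul_apply, LinearMap.zero_apply, smul_eq_mul]
        module)
    rcases h3 with h3 | h3
    · exact (ha1' (by linear_combination h2 - h3)).elim
    · exact (inv_ne_zero ha0 (by linear_combination h3)).elim
  exfalso
  have key2 : ∀ n : F, (n = 1 ∨ n = a ∨ n = a ^ 2) → ∃ g ∈ Γ, ∀ y,
      g • y = y + χ y • ((1 - a⁻¹) * (a - 1) * (n - n⁻¹)) • d := by
    intro n hn
    obtain ⟨g₁, hg₁, eg₁⟩ := key a n (by simp) hn
    refine ⟨_, Γ.mul_mem (Γ.mul_mem hg hg₁) (Γ.inv_mem (Γ.mul_mem hg₁ hg)), fun y => ?_⟩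
    rw [heis_comm c3 (by simp [c1, c2]) (by simp [c1, c2]) (by simp [a3, b3]) (by simp [a3, b3]) eg eg₁]
    simp only [LinearMap.smul_apply, LinearMap.add_apply, map_smul, map_add, a1, a2, b1, b2, smul_eq_mul, inv_one]
    congr 3
    ring
  obtain ⟨g₁, hg₁, eg₁⟩ := key2 a (by simp)
  obtain ⟨g₂, hg₂, eg₂⟩ := key2 (a ^ 2) (by simp)
  have ha4 : a - a⁻¹ ≠ 0 := fun e => ha2 (by
    have := sub_eq_zero.1 e
    rw [sq]
    nth_rewrite 2 [this]
    exact mul_inv_cancel₀ ha0)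
  obtain ⟨h2, h3⟩ := tv h (t := a + a⁻¹) (smul_ne_zero (mul_ne_zero (mul_ne_zero ha1' ha1) ha4) hd) hχ
    (by simp [c3]) hg₁ hg₂ eg₁ (fun y => by rw [eg₂, ← inv_pow]; module)
  have hi := mul_inv_cancel₀ ha0
  rcases h3 with h3 | h3
  · exact ha4 (by linear_combination h3 - a⁻¹ * h2)
  · exact ha3 (by linear_combination (a ^ 2 + a) * h3 - (a + 1) * hi - h2)

theorem mon_of_two (hΓ : Od Γ ∨ Ev Γ) (h : GCfg Γ M e x) {a : Fˣ} (ha : a ∈ M) (ha2 : (a : F) ^ 2 ≠ 1)
    (ha3 : (a : F) ^ 3 ≠ 1) (hv : Rf Γ v φ) {j l n : Fin k} (hjl : j ≠ l) (hj : φ (e j) * x j v = 1)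
    (hl : φ (e l) * x l v = 1) (h1 : x n v = 0) (h2 : φ (e n) = 0) : Mon e x v φ := by
  have hb := h.bi
  have hnj : n ≠ j := by
    rintro rfl
    rw [h1, mul_zero] at hj
    exact zero_ne_one hj
  have hnl : n ≠ l := by
    rintro rfl
    rw [h1, mul_zero] at hl
    exact zero_ne_one hl
  have hM : ∀ m : F, (m = 1 ∨ m = a ∨ m = a ^ 2) → ∃ m' ∈ M, (m' : F) = m := by
    rintro m (rfl | rfl | rfl)
    exacts [⟨1, M.one_mem, rfl⟩, ⟨a, ha, rfl⟩, ⟨a ^ 2, M.pow_mem ha 2, Units.val_pow_eq_pow_val a 2⟩]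
  have hj' : x j v * φ (e j) = 1 := by rw [mul_comm, hj]
  have hl' : x l v * φ (e l) = 1 := by rw [mul_comm, hl]
  obtain ⟨e1, e2⟩ := two_ones hΓ (d := v - (x j v • e j + x l v • e l)) (χ := φ - (φ (e j) • x j + φ (e l) • x l))
    (p := x j v • e j) (q := x l v • e l) (α := φ (e j) • x j) (β := φ (e l) • x l) a.ne_zero ha2 ha3
    (by simp [hb.diag, hj']) (by simp [hb.off j l hjl]) (by simp [hb.diag, hb.off j l hjl])
    (by simp [hb.off l j hjl.symm]) (by simp [hb.diag, hl']) (by simp [hb.diag, hb.off l j hjl.symm])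
    (by simp [hb.diag, hb.off l j hjl.symm]) (by simp [hb.diag, hb.off j l hjl])
    (by
      simp only [LinearMap.sub_apply, LinearMap.add_apply, LinearMap.smul_apply, map_sub, map_add, map_smul, hv.two,
        hb.diag, hb.off j l hjl, hb.off l j hjl.symm, smul_eq_mul]
      linear_combination -hj - hl)
    (by
      intro m n' hm' hn'
      obtain ⟨m, hm, rfl⟩ := hM m hm'
      obtain ⟨n', hn, rfl⟩ := hM n' hn'
      convert scale h (scale h hv hnj h1 h2 (M.mul_mem hm hn)) hnl (by simp [h1, hb.off n j hnj])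
        (by simp [h2, hb.off j n hnj.symm]) hm using 1
      · simp only [map_add, map_smul, hb.off l j hjl.symm, smul_zero, add_zero, Units.val_mul]
        module
      · simp only [LinearMap.add_apply, LinearMap.smul_apply, hb.off j l hjl, smul_zero, add_zero, Units.val_mul,
          mul_inv]
        module)
  refine Or.inr ⟨j, l, x j v, x l v, hjl, right_ne_zero_of_mul_eq_one hj, right_ne_zero_of_mul_eq_one hl,
    sub_eq_zero.1 e1, ?_⟩
  rw [← eq_inv_of_mul_eq_one_left hj, ← eq_inv_of_mul_eq_one_left hl]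
  exact sub_eq_zero.1 e2

end Ext

theorem stepExt (h3 : SubE3.{u}) : StepExt.{u} := by
  intro F _ _ Γ hΓ hH hT M hM H e x h
  have hc : Ctx Γ := hΓ.elim (fun h => h.toCtx) fun h => h.toCtx
  obtain ⟨a, ha, ha2, ha3⟩ := id hM
  have ha2' : (a : F) ^ 2 ≠ 1 := fun e => ha2 (Units.ext (by simpa using e))
  have ha3' : (a : F) ^ 3 ≠ 1 := fun e => ha3 (Units.ext (by simpa using e))
  have ha1 : (a : F) ≠ 1 := fun e => ha2' (by rw [e, one_pow])
  refine mono hc (fun k e x => 3 ≤ k ∧ GCfg Γ M e x) (fun _ _ _ h => h.2.bi) ?_ (by norm_num) e x ⟨le_rfl, h⟩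
  rintro k e x ⟨hk, h⟩ v φ hv
  by_cases hs : ∃ i, SameRf (e i) ((2 : F) • x i) v φ
  · obtain ⟨i, hi⟩ := hs
    exact Or.inr (Or.inl (Ext.mon_of_same hi))
  push Not at hs
  have hp : ∀ i j, φ (e i) * x i v ≠ φ (e j) * x j v →
      (φ (e i) * x i v = 1 ∧ x j v = 0 ∧ φ (e j) = 0) ∨ (φ (e j) * x j v = 1 ∧ x i v = 0 ∧ φ (e i) = 0) := by
    intro i j hij
    rcases Ext.pairMon hk (fun e x h => (H e x h).1) h hv hij with h1 | h1 | h1 | h1
    exacts [Or.inl h1, Or.inr h1, absurd h1 (hs i), absurd h1 (hs j)]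
  by_cases he : ∀ i j, φ (e i) * x i v = φ (e j) * x j v
  · have h' := Ext.cfg_comp h (Fin.castLE_injective hk)
    by_cases h0 : φ (e (Fin.castLE hk 0)) * x (Fin.castLE hk 0) v = 0
    · exact Or.inl (Ext.null_of_zero hk hc.zsym h ha ha1 hv fun i => (he i _).trans h0)
    · exact absurd (fun i => he _ _) (h3 F Γ hc.zsym hH hT M hM _ _ h' (H _ _ h').2 v φ hv _ h0)
  obtain ⟨j, n, hj, h1, h2⟩ : ∃ j n, φ (e j) * x j v = 1 ∧ x n v = 0 ∧ φ (e n) = 0 := by
    push Not at he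
    obtain ⟨i, j, hij⟩ := he
    rcases hp i j hij with h1 | h1
    exacts [⟨i, j, h1⟩, ⟨j, i, h1⟩]
  by_cases h4 : ∃ l, l ≠ j ∧ φ (e l) * x l v = 1
  · obtain ⟨l, hl, hl'⟩ := h4
    exact Or.inr (Or.inl (Ext.mon_of_two hΓ h ha ha2' ha3' hv hl.symm hj hl' h1 h2))
  push Not at h4
  obtain ⟨e', x', h'⟩ := Ext.extend hk h hv hj fun l hl => by
    rcases hp l j (by rw [hj]; exact h4 l hl) with h5 | h5
    · exact absurd h5.1 (h4 l hl)
    · exact h5.2
  exact Or.inr (Or.inr ⟨e', x', by omega, h'⟩)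

end CL.Low5
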