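/-
Project LOW5, job G33: the reflections of a primitive group containing `G(3, 3, 3)`.
-/
import Cfsg.Agent.Low5.Emb

set_option autoImplicit false
set_option linter.unusedSectionVars false
set_option linter.unnecessarySeqFocus false

namespace CL.Low5

open Matrix Cfsg Cfsg.Geo CL.Asch CL.SLn CL.Low Module

universe u

namespace G33J

variable {F : Type u} [Field F] {Γ : Subgroup (G F)} {k : ℕ} {e : Fin k → V F} {x : Fin k → Dual F (V F)}
  {v w : V F} {φ ψ : Dual F (V F)} {ω : F}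

/-- `G(3, 3, k)` on a frame. -/
structure TC (Γ : Subgroup (G F)) (e : Fin k → V F) (x : Fin k → Dual F (V F)) : Prop where
  bi : Bi e x
  rf : ∀ i j, i ≠ j → ∀ a : F, a ^ 3 = 1 → Rf Γ (e i - a • e j) (x i - a⁻¹ • x j)

/-- A reflection of the frame group. -/
def Sw (e : Fin k → V F) (x : Fin k → Dual F (V F)) (v : V F) (φ : Dual F (V F)) : Prop :=
  ∃ (i j : Fin k) (a : F), i ≠ j ∧ a ^ 3 = 1 ∧ SameRf (e i - a • e j) (x i - a⁻¹ • x j) v φ

theorem ne0 {a : F} (h : a ^ 3 = 1) : a ≠ 0 := fun e => by simp [e] at h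

theorem cube {a : F} (h : a ^ 3 = 1) : a = 1 ∨ a ^ 2 + a + 1 = 0 :=
  (mul_eq_zero.1 (show (a - 1) * (a ^ 2 + a + 1) = 0 by linear_combination h)).imp_left sub_eq_zero.1

theorem same_mk {t s : F} (h : t * s = 1) (h1 : w = t • v) (h2 : ψ = s • φ) : SameRf v φ w ψ :=
  ⟨t, left_ne_zero_of_mul_eq_one h, h1, by rw [h2, eq_inv_of_mul_eq_one_right h]⟩

theorem same_sym {a : F} (ha : a ≠ 0) : SameRf (v - a • w) (φ - a⁻¹ • ψ) (w - a⁻¹ • v) (ψ - a⁻¹⁻¹ • φ) :=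
  same_mk (t := -a⁻¹) (s := -a) (by field_simp) (by match_scalars <;> field_simp) (by match_scalars <;> field_simp)

theorem TC.comp (h : TC Γ e x) {m : ℕ} {f : Fin m → Fin k} (hf : Function.Injective f) : TC Γ (e ∘ f) (x ∘ f) :=
  ⟨h.bi.comp hf, fun _ _ hij => h.rf _ _ (hf.ne hij)⟩

theorem TC.scale (h : TC Γ e x) (c : Fin k → F) (h0 : ∀ i, c i ≠ 0) (h3 : ∀ i j, c i ^ 3 = c j ^ 3) :
    TC Γ (fun i => c i • e i) fun i => (c i)⁻¹ • x i := by
  refine ⟨⟨fun i => by simp [h.bi.diag, h0], fun i j hij => by simp [h.bi.off i j hij]⟩, fun i j hij a ha => ?_⟩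
  have := h0 i
  have := h0 j
  have := ne0 ha
  refine (h.rf i j hij (a * c j / c i) ?_).same ⟨c i, h0 i, ?_, ?_⟩
  · rw [div_pow, mul_pow, ha, one_mul, h3 j i, div_self (pow_ne_zero _ (h0 i))]
  · match_scalars <;> field_simp
  · match_scalars <;> field_simp

theorem rf_trans (hb : Bi e x) {i j l : Fin k} (h1 : i ≠ j) (h2 : j ≠ l) (h3 : i ≠ l) {a b : F}
    (ha : Rf Γ (e i - a • e j) (x i - a⁻¹ • x j)) (hb' : Rf Γ (e j - b • e l) (x j - b⁻¹ • x l)) :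
    Rf Γ (e i - (a * b) • e l) (x i - (a * b)⁻¹ • x l) := by
  convert hb'.refl ha using 1 <;>
    simp only [map_sub, map_smul, LinearMap.sub_apply, LinearMap.smul_apply, hb.diag, hb.off _ _ h1, hb.off _ _ h2,
      hb.off _ _ h3, hb.off _ _ h1.symm, hb.off _ _ h2.symm, hb.off _ _ h3.symm, smul_eq_mul, mul_inv] <;> module

theorem TC.snoc (h : TC Γ e x) {d : V F} {χ : Dual F (V F)} (h1 : ∀ i, x i d = 0) (h2 : ∀ i, χ (e i) = 0) (h3 : χ d = 1)
    (h4 : ∀ i (a : F), a ^ 3 = 1 → Rf Γ (e i - a • d) (x i - a⁻¹ • χ)) :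
    TC Γ (Fin.snoc e d : Fin (k + 1) → V F) (Fin.snoc x χ : Fin (k + 1) → Dual F (V F)) := by
  refine ⟨h.bi.snoc h1 h2 h3, fun i j hij a ha => ?_⟩
  induction i using Fin.lastCases <;> induction j using Fin.lastCases
  · exact absurd rfl hij
  · have := (h4 ‹_› a⁻¹ (by rw [inv_pow, ha, inv_one])).same (same_sym (inv_ne_zero (ne0 ha)))
    simpa using this
  · simpa using h4 _ a ha
  · simpa using h.rf _ _ (fun e => hij (congrArg _ e)) a ha

theorem exists_third (hk : 3 ≤ k) (i j : Fin k) : ∃ l, l ≠ i ∧ l ≠ j := by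
  by_contra h
  push Not at h
  have h1 : (Finset.univ : Finset (Fin k)) ⊆ {i, j} := fun l _ => by
    by_cases e : l = i
    · simp [e]
    · simp [h l e]
  have h2 := (Finset.card_le_card h1).trans Finset.card_le_two
  rw [Finset.card_fin] at h2
  omega

/-- A reflection with a single diagonal entry extends the frame. -/
theorem TC.grow (h : TC Γ e x) (hk : 3 ≤ k) (hv : Rf Γ v φ) {j : Fin k} (h1 : φ (e j) * x j v = 1)
    (h0 : ∀ i, i ≠ j → x i v = 0 ∧ φ (e i) = 0) : ∃ (e' : Fin (k + 1) → V F) (x' : Fin (k + 1) → Dual F (V F)),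
      TC Γ e' x' := by
  have a1 : ∀ i, x i (e j - φ (e j) • v) = 0 := fun i => by
    by_cases e : i = j
    · simp [e, h.bi.diag, h1]
    · simp [h.bi.off i j e, (h0 i e).1]
  have a2 : ∀ i, (x j - x j v • φ) (e i) = 0 := fun i => by
    by_cases e : i = j
    · simp [e, h.bi.diag, h1, mul_comm (x j v)]
    · simp [h.bi.off j i (Ne.symm e), (h0 i e).2]
  have a3 : (x j - x j v • φ) (e j - φ (e j) • v) = 1 := by
    simp only [map_sub, map_smul, LinearMap.sub_apply, LinearMap.smul_apply, h.bi.diag, hv.two, smul_eq_mul]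
    linear_combination (0 : F) * h1
  have a4 : ∀ i, i ≠ j → ∀ a : F, a ^ 3 = 1 →
      Rf Γ (e i - a • (e j - φ (e j) • v)) (x i - a⁻¹ • (x j - x j v • φ)) := fun i hi a ha => by
    convert hv.refl (h.rf i j hi a ha) using 1 <;>
      simp only [map_sub, map_smul, LinearMap.sub_apply, LinearMap.smul_apply, (h0 i hi).1, (h0 i hi).2, smul_eq_mul] <;>
      module
  refine ⟨_, _, h.snoc a1 a2 a3 fun i a ha => ?_⟩
  by_cases hi : i = j
  swap
  · exact a4 i hi a ha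
  obtain ⟨l, hl, -⟩ := exists_third hk j j
  have := rf_trans (h.bi.snoc a1 a2 a3) (i := j.castSucc) (j := l.castSucc) (l := Fin.last k) (a := 1) (b := a) (Γ := Γ)
    (fun e => hl (Fin.castSucc_injective _ e).symm) (Fin.castSucc_ne_last _) (Fin.castSucc_ne_last _)
    (by simpa using h.rf j l hl.symm 1 (one_pow _)) (by simpa using a4 l hl a ha)
  simpa [hi] using this

theorem Sw.mon (h : Sw e x v φ) : Mon e x v φ := by
  obtain ⟨i, j, a, hij, ha, t, ht, rfl, rfl⟩ := h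
  have := ne0 ha
  exact Or.inr ⟨i, j, t, -(t * a), hij, ht, by simp [ht, this], by module, by match_scalars <;> field_simp⟩

section Pat

variable (ho : Od Γ) (hp : Pat Γ) (hω : ω ^ 2 + ω + 1 = 0) (h3 : (3 : F) ≠ 0)
include ho hp hω h3

theorem pat2 (h : TC Γ e x) (hk : 3 ≤ k) (hv : Rf Γ v φ) (hs : ¬ Sw e x v φ) {i j : Fin k} (hij : i ≠ j) :
    ((x i v = 0 ∧ φ (e i) = 0) ∧ x j v = 0 ∧ φ (e j) = 0) ∨ (φ (e i) * x i v = 1 ∧ x j v = 0 ∧ φ (e j) = 0) ∨
      ((x i v = 0 ∧ φ (e i) = 0) ∧ φ (e j) * x j v = 1) ∨ (3 * (φ (e i) * x i v) = 1 ∧ 3 * (φ (e j) * x j v) = 1 ∧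
        x i v ^ 3 = x j v ^ 3) := by
  obtain ⟨l, h1, h2⟩ := exists_third hk i j
  have hf : Function.Injective ![i, j, l] := fun a b => by
    fin_cases a <;> fin_cases b <;> simp [hij, hij.symm, h1, h2, h1.symm, h2.symm]
  have hc := h.comp hf
  rcases hp ω _ _ ⟨hω, h3, hc.bi, hc.rf⟩ v φ hv with a | ⟨m, a, b⟩ | ⟨m, n, q, a, b1, b2, b3, b4, b5, b6, b7, b8, b9, b⟩ | a
  · exact Or.inl ⟨a 0, a 1⟩
  · fin_cases m
    · exact Or.inr (Or.inl ⟨a, b 1 (by decide)⟩)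
    · exact Or.inr (Or.inr (Or.inl ⟨b 0 (by decide), a⟩))
    · exact Or.inl ⟨b 0 (by decide), b 1 (by decide)⟩
  · have hu := (by decide : ∀ m n q : Fin 3, m ≠ n → q ≠ m → q ≠ n → Finset.univ = {m, n, q}) m n q b1 b2 b3
    refine absurd ⟨_, _, a, hf.ne b1, b4, same_mk (t := (x ∘ ![i, j, l]) m v) (s := φ ((e ∘ ![i, j, l]) m))
      (by rw [mul_comm, b5]) ?_ ?_⟩ hs
    · conv_lhs => rw [← (b ho.two).1, pr, hu, Finset.sum_insert (by simp [b1, b2.symm]), Finset.sum_pair b3.symm, b6, b8]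
      simp only [Function.comp_apply]
      module
    · conv_lhs => rw [← (b ho.two).2, prD, hu, Finset.sum_insert (by simp [b1, b2.symm]), Finset.sum_pair b3.symm, b7, b9]
      simp only [Function.comp_apply]
      module
  · exact Or.inr (Or.inr (Or.inr ⟨a.1 0, a.1 1, a.2 0 1⟩))

/-- The four types of reflections. -/
theorem cls (h : TC Γ e x) (hk : 3 ≤ k) (hv : Rf Γ v φ) : Sw e x v φ ∨ (∀ i, x i v = 0 ∧ φ (e i) = 0) ∨
    (∃ j, φ (e j) * x j v = 1 ∧ ∀ i, i ≠ j → x i v = 0 ∧ φ (e i) = 0) ∨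
    ((∀ i, 3 * (φ (e i) * x i v) = 1) ∧ ∀ i j, x i v ^ 3 = x j v ^ 3) := by
  refine or_iff_not_imp_left.2 fun hs => ?_
  have p := fun i j => pat2 ho hp hω h3 h hk hv hs (i := i) (j := j)
  by_cases h1 : ∃ i, 3 * (φ (e i) * x i v) = 1
  · obtain ⟨i, hi⟩ := h1
    have key : ∀ j, 3 * (φ (e j) * x j v) = 1 ∧ x i v ^ 3 = x j v ^ 3 := fun j => by
      by_cases hij : i = j
      · exact hij ▸ ⟨hi, rfl⟩
      rcases p i j hij with a | a | a | a
      · simp [a.1.1] at hi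
      · exact absurd (by linear_combination hi - 3 * a.1) ho.two
      · simp [a.1.1] at hi
      · exact a.2
    exact Or.inr (Or.inr ⟨fun j => (key j).1, fun j l => (key j).2.symm.trans (key l).2⟩)
  by_cases h2 : ∃ j, φ (e j) * x j v = 1
  · obtain ⟨j, hj⟩ := h2
    refine Or.inr (Or.inl ⟨j, hj, fun i hi => ?_⟩)
    rcases p i j hi with a | a | a | a
    · exact a.1
    · simp [a.2.1] at hj
    · exact a.1
    · exact absurd ⟨i, a.1⟩ h1
  refine Or.inl fun i => ?_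
  obtain ⟨j, hj, -⟩ := exists_third hk i i
  rcases p i j hj.symm with a | a | a | a
  · exact a.1
  · exact absurd ⟨i, a.1⟩ h2
  · exact a.1
  · exact absurd ⟨i, a.1⟩ h1

theorem no5 {e : Fin 5 → V F} {x : Fin 5 → Dual F (V F)} : ¬ TC Γ e x := fun h => by
  refine ho.noFrame (frame_of_mon ho.gen h.bi fun v φ hv => ?_)
  have h1 : ∑ i, φ (e i) * x i v = 2 := by rw [← apply_pr, h.bi.pr_eq_self (by simp), hv.two]
  rcases cls ho hp hω h3 h (by norm_num) hv with a | a | ⟨j, a, b⟩ | a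
  · exact a.mon
  · exact absurd (by simpa [a] using h1.symm) ho.two
  · rw [Finset.sum_eq_single j (fun i _ hi => by rw [(b i hi).1, mul_zero]) (by simp), a] at h1
    exact absurd (by linear_combination -h1) (one_ne_zero (α := F))
  · rw [Fin.sum_univ_five] at h1
    exact absurd (by linear_combination a.1 0 + a.1 1 + a.1 2 + a.1 3 + a.1 4 - 3 * h1) (one_ne_zero (α := F))

theorem moving (h : TC Γ e x) (hk : 3 ≤ k) (hk' : k ≠ 5) : (∃ (e' : Fin (k + 1) → V F)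
    (x' : Fin (k + 1) → Dual F (V F)), TC Γ e' x') ∨ ∃ (e' : Fin k → V F) (x' : Fin k → Dual F (V F)) (v : V F)
    (φ : Dual F (V F)), TC Γ e' x' ∧ Rf Γ v φ ∧ ∀ i, x' i v = 1 ∧ 3 * φ (e' i) = 1 := by
  obtain ⟨v, φ, hv, h1, h2⟩ := exists_moving ho.gen ho.irr h.bi (by omega) (by simpa using hk')
  rcases cls ho hp hω h3 h hk hv with a | a | ⟨j, a, b⟩ | a
  · exact absurd (a.mon.in h.bi).1 h2
  · exact absurd ((prD_eq_zero_iff h.bi).2 fun i => (a i).2) h1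
  · exact Or.inl (h.grow hk hv a b)
  · have h0 : ∀ i, x i v ≠ 0 := fun i e => by simpa [e] using a.1 i
    exact Or.inr ⟨_, _, v, φ, h.scale (fun i => x i v) h0 a.2, hv, fun i => ⟨by simp [h0 i], by
      simpa [mul_comm (x i v)] using a.1 i⟩⟩

omit ho hp h3 in
/-- Three reflections generate `G(3, 3, 3)`. -/
theorem gen3 {f : Fin 3 → V F} {y : Fin 3 → Dual F (V F)} (hb : Bi f y)
    (a1 : Rf Γ (f 0 - (1 : F) • f 1) (y 0 - (1 : F)⁻¹ • y 1)) (a2 : Rf Γ (f 0 - ω • f 1) (y 0 - ω⁻¹ • y 1))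
    (a3 : Rf Γ (f 1 - (1 : F) • f 2) (y 1 - (1 : F)⁻¹ • y 2)) : TC Γ f y := by
  have w3 : ω ^ 3 = 1 := by linear_combination (ω - 1) * hω
  have w1 : ω⁻¹ = ω ^ 2 := inv_eq_of_mul_eq_one_right (by linear_combination w3)
  have w0 := ne0 w3
  have b1 := rf_trans hb (by decide) (by decide) (by decide) a1 a3
  have b2 := rf_trans hb (by decide) (by decide) (by decide) a2 a3
  have b3 := rf_trans hb (by decide) (by decide) (by decide) (a1.same (same_sym one_ne_zero)) b2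
  have b4 := rf_trans hb (by decide) (by decide) (by decide) (a2.same (same_sym w0)) b1
  have b5 := rf_trans hb (by decide) (by decide) (by decide) a1 b4
  have b6 := rf_trans hb (by decide) (by decide) (by decide) b5 (a3.same (same_sym one_ne_zero))
  simp only [inv_one, one_mul, mul_one, w1] at b1 b2 b3 b4 b5 b6
  have key : ∀ i j : Fin 3, i < j → ∀ a : F, a ^ 3 = 1 → Rf Γ (f i - a • f j) (y i - a⁻¹ • y j) := fun i j hij a ha => by
    have : a = 1 ∨ a = ω ∨ a = ω ^ 2 := by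
      simpa only [mul_eq_zero, sub_eq_zero, or_assoc] using
        show (a - 1) * (a - ω) * (a - ω ^ 2) = 0 by grind
    fin_cases i <;> fin_cases j <;> first | exact absurd hij (by decide) | skip
    all_goals rcases this with rfl | rfl | rfl
    exacts [a1, a2, b6, by simpa using b1, w1 ▸ b2, b5, a3, w1 ▸ b3, b4]
  refine ⟨hb, fun i j hij a ha => ?_⟩
  rcases lt_or_gt_of_ne hij with h1 | h1
  · exact key i j h1 a ha
  · simpa using (key j i h1 a⁻¹ (by rw [inv_pow, ha, inv_one])).same (same_sym (inv_ne_zero (ne0 ha)))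

section Fourier

variable {e f : Fin 3 → V F} {x y : Fin 3 → Dual F (V F)} {c : F} (c3 : 3 * c = 1)
  (f0 : f 0 = e 0 + e 1 + e 2) (f1 : f 1 = e 0 + ω • e 1 + ω ^ 2 • e 2) (f2 : f 2 = e 0 + ω ^ 2 • e 1 + ω • e 2)
  (y0 : y 0 = c • (x 0 + x 1 + x 2)) (y1 : y 1 = c • (x 0 + ω ^ 2 • x 1 + ω • x 2))
  (y2 : y 2 = c • (x 0 + ω • x 1 + ω ^ 2 • x 2))
include c3 f0 f1 f2 y0 y1 y2

omit ho hp h3 in
theorem fourier_bi (h : Bi e x) : Bi f y := by
  refine ⟨fun i => ?_, fun i j hij => ?_⟩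
  · fin_cases i <;> simp [f0, f1, f2, y0, y1, y2, h.apply] <;> grind
  · fin_cases i <;> fin_cases j <;> first | exact absurd rfl hij | (simp [f0, f1, f2, y0, y1, y2, h.apply]; grind)

omit ho hp h3 in
/-- The Fourier transform of the frame. -/
theorem fourier (h : TC Γ e x) : TC Γ f y := by
  have w3 : ω ^ 3 = 1 := by linear_combination (ω - 1) * hω
  have w1 : ω⁻¹ = ω ^ 2 := inv_eq_of_mul_eq_one_right (by linear_combination w3)
  have w2 : (ω ^ 2)⁻¹ = ω := inv_eq_of_mul_eq_one_right (by linear_combination w3)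
  have w4 : (ω ^ 2) ^ 3 = 1 := by rw [← pow_mul, mul_comm, pow_mul, w3, one_pow]
  refine gen3 hω (fourier_bi hω c3 f0 f1 f2 y0 y1 y2 h.bi)
    ((h.rf 1 2 (by decide) _ w4).same (same_mk (t := 1 - ω) (s := c * (1 - ω ^ 2)) (by grind) ?_ ?_))
    ((h.rf 0 1 (by decide) _ w4).same (same_mk (t := 1 - ω) (s := c * (1 - ω ^ 2)) (by grind) ?_ ?_))
    ((h.rf 1 2 (by decide) 1 (one_pow _)).same (same_mk (t := ω - ω ^ 2) (s := c * (ω ^ 2 - ω)) (by grind) ?_ ?_))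
  · rw [f0, f1]; match_scalars <;> grind
  · rw [y0, y1, w2, inv_one]; match_scalars <;> grind
  · rw [f0, f1]; match_scalars <;> grind
  · rw [y0, y1, w1, w2]; match_scalars <;> grind
  · rw [f1, f2]; match_scalars <;> grind
  · rw [y1, y2, inv_one]; match_scalars <;> grind

end Fourier

theorem four {e : Fin 3 → V F} {x : Fin 3 → Dual F (V F)} (h : TC Γ e x) :
    ∃ (e' : Fin 4 → V F) (x' : Fin 4 → Dual F (V F)), TC Γ e' x' := by
  refine (moving ho hp hω h3 h le_rfl (by norm_num)).elim id fun ⟨e, x, v, φ, h, hv, a⟩ => ?_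
  have p : ∀ i, φ (e i) = 3⁻¹ := fun i => eq_inv_of_mul_eq_one_right (a i).2
  refine (fourier hω (f := ![_, _, _]) (y := ![_, _, _]) (mul_inv_cancel₀ h3) rfl rfl rfl rfl rfl rfl h).grow le_rfl hv
    (j := 0) ?_ fun i hi => ?_
  · simp [p, (a _).1]; field_simp; norm_num
  · fin_cases i
    · exact absurd rfl hi
    all_goals simp [p, (a _).1]; grind

theorem cls4 {e : Fin 4 → V F} {x : Fin 4 → Dual F (V F)} (h : TC Γ e x) (hv : Rf Γ v φ) :
    Sw e x v φ ∨ (∀ i, x i v = 0 ∧ φ (e i) = 0) ∨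
      ((∀ i, 3 * (φ (e i) * x i v) = 1) ∧ ∀ i j, x i v ^ 3 = x j v ^ 3) :=
  (cls ho hp hω h3 h (by norm_num) hv).imp id (Or.imp id fun a => a.resolve_left fun ⟨_, a, b⟩ =>
    let ⟨_, _, h⟩ := h.grow (by norm_num) hv a b; no5 ho hp hω h3 h)

end Pat

/-- All pairings with `(w, ψ)` are `0` or `1`. -/
def C01 (Γ : Subgroup (G F)) (w : V F) (ψ : Dual F (V F)) : Prop :=
  ∀ y η, Rf Γ y η → ψ y * η w = 0 ∨ ψ y * η w = 1 ∨ SameRf w ψ y η

theorem C01.step (hT : ¬ HasTv Γ) (h : C01 Γ w ψ) (hw : Rf Γ w ψ) (hv : Rf Γ v φ) (hc : φ w * ψ v = 1) :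
    C01 Γ v φ := fun y η hy => by
  have := h _ _ (hv.refl (hw.refl hy))
  have e1 : ψ (y - ψ y • w - φ (y - ψ y • w) • v) = -(φ y * ψ v) := by
    simp only [map_sub, map_smul, hw.two, smul_eq_mul]
    linear_combination ψ y * hc
  have e2 : (η - η w • ψ - (η - η w • ψ) v • φ) w = -(η v * φ w) := by
    simp only [LinearMap.sub_apply, LinearMap.smul_apply, hw.two, smul_eq_mul]
    linear_combination η w * hc
  rw [e1, e2, show -(φ y * ψ v) * -(η v * φ w) = φ y * η v by linear_combination (φ y * η v) * hc] at this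
  refine this.imp id (Or.imp id fun ⟨s, _, h1, _⟩ => ?_)
  have a1 := congrArg ψ h1
  have a2 := congrArg φ h1
  rw [e1] at a1
  simp only [map_sub, map_smul, hw.two, hv.two, smul_eq_mul] at a1 a2 h1
  have a3 : y = (-(s * φ w)) • v := by
    rw [← sub_add_cancel y (ψ y • w), eq_add_of_sub_eq h1]
    match_scalars
    · linear_combination ψ v * a2 - a1 + (s - ψ y) * hc
    · linear_combination -a2
  rw [a3] at hy ⊢
  exact same_of_vec hT hv hy

theorem pair01 {m b : F} (hm : m ^ 3 = 1) (hb : b ^ 3 = 1) : b = m ∨ (1 + m⁻¹ * b) * (1 + b⁻¹ * m) = 1 := by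
  have := ne0 hm
  have := ne0 hb
  refine (cube (a := m⁻¹ * b) (by rw [mul_pow, inv_pow, hm, hb, inv_one, one_mul])).imp (fun e => ?_) fun e => ?_
  · field_simp at e; exact e
  · field_simp at e ⊢; linear_combination e

theorem c01_sw {e : Fin 4 → V F} {x : Fin 4 → Dual F (V F)} (hb : Bi e x) {m : F} (hm : m ^ 3 = 1) (h : Sw e x v φ) :
    (x 0 - m⁻¹ • x 1) v * φ (e 0 - m • e 1) = 0 ∨ (x 0 - m⁻¹ • x 1) v * φ (e 0 - m • e 1) = 1 ∨
      SameRf (e 0 - m • e 1) (x 0 - m⁻¹ • x 1) v φ := by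
  obtain ⟨i, j, b, hij, h1, h2⟩ := h
  have m0 := ne0 hm
  have b0 := ne0 h1
  rw [mul_comm, h2.pair]
  by_cases a1 : i = 0 ∧ j = 1
  · obtain ⟨rfl, rfl⟩ := a1
    refine Or.inr ((pair01 hm h1).symm.imp (fun e => ?_) fun (e : b = m) => e ▸ h2)
    simp [hb.apply]
    linear_combination e
  by_cases a2 : i = 1 ∧ j = 0
  · obtain ⟨rfl, rfl⟩ := a2
    refine Or.inr ((pair01 hm (b := b⁻¹) (by rw [inv_pow, h1, inv_one])).symm.imp (fun e => ?_)
      fun (e : b⁻¹ = m) => e ▸ (same_sym b0).symm.trans h2)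
    simp [hb.apply]
    field_simp at e ⊢
    linear_combination e
  refine or_assoc.1 (Or.inl ?_)
  fin_cases i <;> fin_cases j <;> simp [hb.apply, m0, b0] at hij a1 a2 ⊢ <;> field_simp

section Fin

variable (ho : Od Γ) (hp : Pat Γ) (hω : ω ^ 2 + ω + 1 = 0) (h3 : (3 : F) ≠ 0)
include ho hp hω h3

theorem c01 {e : Fin 4 → V F} {x : Fin 4 → Dual F (V F)} (h : TC Γ e x) {m : F} (hm : m ^ 3 = 1) :
    C01 Γ (e 0 - m • e 1) (x 0 - m⁻¹ • x 1) := fun v φ hv => by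
  rcases cls4 ho hp hω h3 h hv with a | a | ⟨a, b⟩
  · exact c01_sw h.bi hm a
  · simp [a]
  · have h0 : ∀ i, x i v ≠ 0 := fun i e => by simpa [e] using a i
    have p : ∀ i, φ (e i) = (3 * x i v)⁻¹ := fun i => eq_inv_of_mul_eq_one_right (by linear_combination a i)
    have m0 := ne0 hm
    have := h0 0
    have := h0 1
    refine or_assoc.1 (Or.inl ((cube (a := m * x 0 v / x 1 v) ?_).imp (fun e => ?_) fun e => ?_))
    · rw [div_pow, mul_pow, hm, one_mul, b 0 1, div_self (pow_ne_zero _ (h0 1))]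
    all_goals
      simp only [map_sub, map_smul, LinearMap.sub_apply, LinearMap.smul_apply, p, smul_eq_mul]
      field_simp at e ⊢
    · linear_combination (x 1 v - m * x 0 v) * e
    · linear_combination -e

end Fin

/-- The reflections of the second kind. -/
def UU (Γ : Subgroup (G F)) (e : Fin 5 → V F) (x : Fin 5 → Dual F (V F)) (a b c d : F) : Prop :=
  Rf Γ (a • e 0 + b • e 1 + c • e 2 + d • e 3 + e 4)
    ((3 : F)⁻¹ • (a⁻¹ • x 0 + b⁻¹ • x 1 + c⁻¹ • x 2 + d⁻¹ • x 3 + (2 : F) • x 4))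

theorem all_UU {e : Fin 5 → V F} {x : Fin 5 → Dual F (V F)} (hb : Bi e x)
    (h : TC Γ (e ∘ Fin.castSucc) (x ∘ Fin.castSucc)) (hu : UU Γ e x 1 1 1 1) {a b c d : F} (ha : a ^ 3 = 1)
    (hb' : b ^ 3 = 1) (hc : c ^ 3 = 1) (hd : a * b * c * d = 1) : UU Γ e x a b c d := by
  have := ne0 ha
  have := ne0 hb'
  have := ne0 hc
  have r0 : Rf Γ (e 0 - a⁻¹ • e 3) (x 0 - a⁻¹⁻¹ • x 3) := h.rf 0 3 (by decide) _ (by rw [inv_pow, ha, inv_one])
  have r1 : Rf Γ (e 1 - (a * b)⁻¹ • e 3) (x 1 - (a * b)⁻¹⁻¹ • x 3) :=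
    h.rf 1 3 (by decide) _ (by rw [inv_pow, mul_pow, ha, hb', one_mul, inv_one])
  have r2 : Rf Γ (e 2 - (a * b * c)⁻¹ • e 3) (x 2 - (a * b * c)⁻¹⁻¹ • x 3) :=
    h.rf 2 3 (by decide) _ (by rw [inv_pow, mul_pow, mul_pow, ha, hb', hc, one_mul, one_mul, inv_one])
  have u1 : UU Γ e x a 1 1 a⁻¹ := by
    unfold UU
    convert r0.refl hu using 1 <;> simp [hb.apply] <;> match_scalars <;> field_simp <;> ring
  have u2 : UU Γ e x a b 1 (a * b)⁻¹ := by
    unfold UU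
    convert r1.refl u1 using 1 <;> simp [hb.apply] <;> match_scalars <;> field_simp <;> ring
  rw [eq_inv_of_mul_eq_one_right hd]
  unfold UU
  convert r2.refl u2 using 1 <;> simp [hb.apply] <;> match_scalars <;> field_simp <;> ring

section Final

variable (ho : Od Γ) (hp : Pat Γ) (hω : ω ^ 2 + ω + 1 = 0) (h3 : (3 : F) ≠ 0) {e : Fin 5 → V F}
  {x : Fin 5 → Dual F (V F)} (hb : Bi e x) (h : TC Γ (e ∘ Fin.castSucc) (x ∘ Fin.castSucc)) (hu : UU Γ e x 1 1 1 1)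
include ho hp hω h3 hb h hu

theorem c01_UU {a b c d : F} (ha : a ^ 3 = 1) (hb' : b ^ 3 = 1) (hc : c ^ 3 = 1) (hd : a * b * c * d = 1) :
    C01 Γ (a • e 0 + b • e 1 + c • e 2 + d • e 3 + e 4)
      ((3 : F)⁻¹ • (a⁻¹ • x 0 + b⁻¹ • x 1 + c⁻¹ • x 2 + d⁻¹ • x 3 + (2 : F) • x 4)) := by
  have w3 : ω ^ 3 = 1 := by linear_combination (ω - 1) * hω
  have hm : (ω * b / a) ^ 3 = 1 := by rw [div_pow, mul_pow, w3, ha, hb', one_mul, div_one]
  have := ne0 ha
  have := ne0 hb'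
  have := ne0 w3
  have r : Rf Γ (e 0 - (ω * b / a) • e 1) (x 0 - (ω * b / a)⁻¹ • x 1) := h.rf 0 1 (by decide) _ hm
  have c0 : C01 Γ (e 0 - (ω * b / a) • e 1) (x 0 - (ω * b / a)⁻¹ • x 1) := c01 ho hp hω h3 h hm
  refine c0.step ho.noTv r (all_UU hb h hu ha hb' hc hd) ?_
  simp [hb.apply]
  field_simp
  linear_combination -hω

omit ho hp hω h3 h hu in
theorem expand (v : V F) (φ : Dual F (V F)) :
    v = x 0 v • e 0 + x 1 v • e 1 + x 2 v • e 2 + x 3 v • e 3 + x 4 v • e 4 ∧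
      φ = φ (e 0) • x 0 + φ (e 1) • x 1 + φ (e 2) • x 2 + φ (e 3) • x 3 + φ (e 4) • x 4 ∧
      φ v = φ (e 0) * x 0 v + φ (e 1) * x 1 v + φ (e 2) * x 2 v + φ (e 3) * x 3 v + φ (e 4) * x 4 v := by
  have h := in_of_card hb (by simp) v φ
  exact ⟨by rw [← Fin.sum_univ_five fun i => x i v • e i]; exact h.1.symm,
    by rw [← Fin.sum_univ_five fun i => φ (e i) • x i]; exact h.2.symm,
    by rw [← Fin.sum_univ_five fun i => φ (e i) * x i v, ← apply_pr, h.1]⟩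

theorem not_null (hv : Rf Γ v φ) (a : ∀ i : Fin 4, x i.castSucc v = 0 ∧ φ (e i.castSucc) = 0) : False := by
  have a0 : x 0 v = 0 ∧ φ (e 0) = 0 := a 0
  have a1 : x 1 v = 0 ∧ φ (e 1) = 0 := a 1
  have a2 : x 2 v = 0 ∧ φ (e 2) = 0 := a 2
  have a3 : x 3 v = 0 ∧ φ (e 3) = 0 := a 3
  have k := (expand hb v φ).2.2
  rw [hv.two, a0.1, a1.1, a2.1, a3.1] at k
  have c3 := mul_inv_cancel₀ h3
  rcases c01_UU ho hp hω h3 hb h hu (one_pow _) (one_pow _) (one_pow _) (d := 1) (by simp) v φ hv with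
    e | e | ⟨t, ht, e, -⟩
  · simp only [map_add, map_smul, LinearMap.add_apply, LinearMap.smul_apply, a0, a1, a2, a3, smul_eq_mul] at e
    exact mul_ne_zero ho.two ho.two (by grind)
  · simp only [map_add, map_smul, LinearMap.add_apply, LinearMap.smul_apply, a0, a1, a2, a3, smul_eq_mul] at e
    exact one_ne_zero (α := F) (by grind)
  · exact ht (by simpa [a0, hb.apply] using (congrArg (x 0) e).symm)

theorem norm_T (hv : Rf Γ v φ) (a0 : 3 * (φ (e 0) * x 0 v) = 1) (a1 : 3 * (φ (e 1) * x 1 v) = 1)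
    (a2 : 3 * (φ (e 2) * x 2 v) = 1) (a3 : 3 * (φ (e 3) * x 3 v) = 1) (b0 : x 0 v ^ 3 = 1) (b1 : x 1 v ^ 3 = 1)
    (b2 : x 2 v ^ 3 = 1) (b3 : x 0 v * x 1 v * x 2 v * x 3 v = 1) :
    x 4 v = 1 ∧ φ = (3 : F)⁻¹ • ((x 0 v)⁻¹ • x 0 + (x 1 v)⁻¹ • x 1 + (x 2 v)⁻¹ • x 2 + (x 3 v)⁻¹ • x 3 + (2 : F) • x 4) := by
  have w3 : ω ^ 3 = 1 := by linear_combination (ω - 1) * hω
  have p0 : φ (e 0) = (3 * x 0 v)⁻¹ := eq_inv_of_mul_eq_one_right (by linear_combination a0)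
  have p1 : φ (e 1) = (3 * x 1 v)⁻¹ := eq_inv_of_mul_eq_one_right (by linear_combination a1)
  have p2 : φ (e 2) = (3 * x 2 v)⁻¹ := eq_inv_of_mul_eq_one_right (by linear_combination a2)
  have p3 : φ (e 3) = (3 * x 3 v)⁻¹ := eq_inv_of_mul_eq_one_right (by linear_combination a3)
  obtain ⟨-, k1, k2⟩ := expand hb v φ
  have k3 : 3 * (φ (e 4) * x 4 v) = 2 := by linear_combination 3 * hv.two - 3 * k2 - a0 - a1 - a2 - a3
  have := ne0 b0
  have := ne0 b1
  have := ne0 b2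
  have := ne0 w3
  have : x 3 v ≠ 0 := right_ne_zero_of_mul_eq_one b3
  have c0 : (x 0 v * ω) ^ 3 = 1 := by rw [mul_pow, b0, w3, one_mul]
  have c1 : (x 1 v * ω ^ 2) ^ 3 = 1 := by rw [mul_pow, b1, ← pow_mul, mul_comm 2, pow_mul, w3, one_pow, one_mul]
  have c2 : x 0 v * ω * (x 1 v * ω ^ 2) * x 2 v * x 3 v = 1 := by linear_combination ω ^ 3 * b3 + w3
  have r := all_UU hb h hu c0 c1 b2 c2
  have q := c01_UU ho hp hω h3 hb h hu c0 c1 b2 c2 v φ hv
  have e1 : ((3 : F)⁻¹ • ((x 0 v * ω)⁻¹ • x 0 + (x 1 v * ω ^ 2)⁻¹ • x 1 + (x 2 v)⁻¹ • x 2 + (x 3 v)⁻¹ • x 3 +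
      (2 : F) • x 4)) v = (1 + 2 * x 4 v) / 3 := by
    simp only [LinearMap.add_apply, LinearMap.smul_apply, smul_eq_mul]
    field_simp
    linear_combination hω
  have e2 : φ ((x 0 v * ω) • e 0 + (x 1 v * ω ^ 2) • e 1 + x 2 v • e 2 + x 3 v • e 3 + e 4) =
      (1 + 3 * φ (e 4)) / 3 := by
    simp only [map_add, map_smul, smul_eq_mul, p0, p1, p2, p3]
    field_simp
    linear_combination hω
  have key : x 4 v = 1 := by
    rw [e1, e2] at q
    rcases q with q | q | ⟨t, ht, q, -⟩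
    · have z : (1 + 2 * x 4 v) / 3 = 0 ∧ (1 + 3 * φ (e 4)) / 3 = 0 := (mul_eq_zero.1 q).elim
        (fun z => ⟨z, e2 ▸ ho.zsym _ _ _ _ r hv (e1 ▸ z)⟩) fun z => ⟨e1 ▸ ho.zsym _ _ _ _ hv r (e2 ▸ z), z⟩
      simp only [div_eq_zero_iff, h3, or_false] at z
      exact absurd (by linear_combination 3 * φ (e 4) * z.1 - z.2 - 2 * k3) h3
    · field_simp at q
      have : 2 * (x 4 v - 1) ^ 2 = 0 := by linear_combination x 4 v * q - (1 + 2 * x 4 v) * k3
      exact sub_eq_zero.1 (pow_eq_zero_iff two_ne_zero |>.1 ((mul_eq_zero.1 this).resolve_left ho.two))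
    · have q0 : x 0 v = t * (x 0 v * ω) := by simpa [hb.apply] using congrArg (x 0) q
      have q2 : x 2 v = t * x 2 v := by simpa [hb.apply] using congrArg (x 2) q
      have q3 : t = 1 := mul_right_cancel₀ ‹x 2 v ≠ 0› (by linear_combination -q2)
      have q4 : ω = 1 := mul_left_cancel₀ ‹x 0 v ≠ 0› (by linear_combination -q0 - x 0 v * ω * q3)
      exact absurd (by linear_combination hω - (ω + 2) * q4) h3
  refine ⟨key, ?_⟩
  rw [key, mul_one] at k3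
  conv_lhs => rw [k1, p0, p1, p2, p3, show φ (e 4) = 2 / 3 by field_simp; linear_combination k3]
  match_scalars <;> field_simp

theorem final : G33 Γ ω e x := by
  refine ⟨hω, h3, hb, fun v φ => ⟨fun hv => ?_, ?_⟩⟩
  · rcases cls4 ho hp hω h3 h hv with ⟨i, j, a, h1, h2, h4⟩ | a | ⟨a, b⟩
    · exact Or.inl ⟨_, _, a, (Fin.castSucc_injective _).ne h1, Fin.castSucc_ne_last i, Fin.castSucc_ne_last j, h2, h4⟩
    · exact (not_null ho hp hω h3 hb h hu hv a).elim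
    have h0 : ∀ i : Fin 4, x i.castSucc v ≠ 0 := fun i e => by simpa [e] using a i
    have n0 : x 0 v ≠ 0 := h0 0
    have n1 : x 1 v ≠ 0 := h0 1
    have n2 : x 2 v ≠ 0 := h0 2
    have n3 : x 3 v ≠ 0 := h0 3
    have b1 : x 1 v ^ 3 = x 0 v ^ 3 := b 1 0
    have b2 : x 2 v ^ 3 = x 0 v ^ 3 := b 2 0
    have b3 : x 3 v ^ 3 = x 0 v ^ 3 := b 3 0
    obtain ⟨t, ht, t1, t2⟩ : ∃ t : F, t ≠ 0 ∧ (t * x 0 v) ^ 3 = 1 ∧
        t * x 0 v * (t * x 1 v) * (t * x 2 v) * (t * x 3 v) = 1 :=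
      ⟨x 0 v ^ 2 / (x 1 v * x 2 v * x 3 v), by positivity, by field_simp; rw [b1, b2, b3]; ring,
        by field_simp; rw [b1, b2, b3]; ring⟩
    have sc : ∀ i : Fin 4, 3 * ((t⁻¹ • φ) (e i.castSucc) * x i.castSucc (t • v)) = 1 := fun i => by
      rw [← a i]; simp only [LinearMap.smul_apply, map_smul, smul_eq_mul, Function.comp_apply]; field_simp
    have c0 : x 0 (t • v) ^ 3 = 1 := by rwa [map_smul, smul_eq_mul]
    have c1 : x 1 (t • v) ^ 3 = 1 := by rwa [map_smul, smul_eq_mul, mul_pow, b1, ← mul_pow]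
    have c2 : x 2 (t • v) ^ 3 = 1 := by rwa [map_smul, smul_eq_mul, mul_pow, b2, ← mul_pow]
    have c3 : x 0 (t • v) * x 1 (t • v) * x 2 (t • v) * x 3 (t • v) = 1 := by simpa only [map_smul, smul_eq_mul] using t2
    obtain ⟨k1, k2⟩ := norm_T ho hp hω h3 hb h hu (hv.smul ht) (sc 0) (sc 1) (sc 2) (sc 3) c0 c1 c2 c3
    have k3 := (expand hb (t • v) φ).1
    rw [k1, one_smul] at k3
    refine Or.inr ⟨_, _, _, _, c0, c1, c2, c3, ?_⟩
    rw [← k2, ← k3]
    exact SameRf.symm ⟨t, ht, rfl, rfl⟩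
  · rintro (⟨i, j, a, h1, h2, h4, h5, h6⟩ | ⟨a, b, c, d, h1, h2, h4, h5, h6⟩)
    · obtain ⟨i, rfl⟩ := Fin.exists_castSucc_eq.2 h2
      obtain ⟨j, rfl⟩ := Fin.exists_castSucc_eq.2 h4
      exact (h.rf i j (fun e => h1 (congrArg _ e)) a h5).same h6
    · exact Rf.same (all_UU hb h hu h1 h2 h4 h5) h6

end Final

end G33J

open G33J in
theorem stepG33 : StepG33.{u} := by
  intro F _ _ Γ ho hp ω e x hc
  have hω := hc.hω
  have h3 := hc.three
  obtain ⟨e, x, h⟩ := four ho hp hω h3 ⟨hc.bi, hc.rf⟩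
  obtain ⟨e, x, v, φ, h, hv, a⟩ := (moving ho hp hω h3 h (by norm_num) (by norm_num)).resolve_left
    fun ⟨_, _, h⟩ => no5 ho hp hω h3 h
  have p : ∀ i, φ (e i) = 3⁻¹ := fun i => eq_inv_of_mul_eq_one_right (a i).2
  have h2 := ho.two
  have hb := h.bi.snoc (d := v - pr e x v) (χ := (3 / 2 : F) • (φ - prD e x φ)) (fun i => by simp [h.bi.x_pr])
    (fun i => by simp [h.bi.prD_e]) (by
      rw [LinearMap.smul_apply, LinearMap.sub_apply, prD_apply, pr_sub, h.bi.pr_pr, sub_self, map_zero, map_sub]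
      simp only [hv.two, apply_pr, Fin.sum_univ_four, p, (a _).1, smul_eq_mul]
      field_simp
      norm_num)
  refine ⟨_, _, final ho hp hω h3 hb (by rwa [Fin.snoc_comp_castSucc, Fin.snoc_comp_castSucc]) ?_⟩
  change Rf Γ ((1 : F) • e 0 + (1 : F) • e 1 + (1 : F) • e 2 + (1 : F) • e 3 + (v - pr e x v))
    ((3 : F)⁻¹ • ((1 : F)⁻¹ • x 0 + (1 : F)⁻¹ • x 1 + (1 : F)⁻¹ • x 2 + (1 : F)⁻¹ • x 3 +
      (2 : F) • (3 / 2 : F) • (φ - prD e x φ)))
  convert hv using 1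
  · simp only [pr, Fin.sum_univ_four, (a _).1]; module
  · simp only [prD, Fin.sum_univ_four, p]; match_scalars <;> field_simp <;> ring

end CL.Low5
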