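/-
Project LOW5: the order of the normaliser of an extraspecial group of order `125` in `GL₅(F)`.
-/
import Cfsg.Agent.Low5.Defs3
import Cfsg.Agent.S4208

set_option autoImplicit false

namespace CL.Low5

open Matrix Cfsg Cfsg.Geo CL.Asch CL.SLn CL.Low Module
open scoped commutatorElement

universe u

namespace HeisJ

/-- An element centralised by a Heisenberg group modulo scalars lies in it up to a scalar. -/
theorem mem_sup {ι : Type} [Fintype ι] [DecidableEq ι] [Nonempty ι] {F : Type u} [Field F]
    {R : Subgroup (GL ι F)} (hR : IsHeis R) {x : GL ι F} (hx : ∀ r ∈ R, ⁅r, x⁆ ∈ scalars ι F) :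
    x ∈ R ⊔ scalars ι F := by
  obtain ⟨r, hr, h0⟩ : ∃ r ∈ R, (x * r).1.trace ≠ 0 := by
    by_contra hn
    push Not at hn
    refine hR.card_ne_zero ?_
    have := spanAlg_induction (L := R) (p := fun y => (x.1 * y).trace = 0) hn (by simp)
      (fun a b ha hb => by rw [Matrix.mul_add, trace_add, ha, hb, add_zero])
      (fun c a ha => by rw [Matrix.mul_smul, trace_smul, ha, smul_zero]) (x := (x⁻¹).1) (hR.span ▸ Algebra.mem_top)
    rwa [gl_mul_inv, trace_one] at this
  have : x * r ∈ scalars ι F := mem_scalars_of_comm_span hR.span fun l hl => by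
    obtain ⟨u, hu⟩ := hR.comm r hr l hl
    obtain ⟨v, hv⟩ := hx l hl
    have e : l * (x * r) * l⁻¹ = scal ι (v * u) * (x * r) := by
      calc _ = ⁅l, x⁆ * x * (l * r) * l⁻¹ := by rw [commutatorElement_def]; group
        _ = scal ι v * (x * (r * l * scal ι u) * l⁻¹) := by rw [hu, ← hv]; simp only [mul_assoc]; rfl
        _ = _ := by rw [← scal_comm, ← mul_assoc x, ← scal_comm, map_mul]; group
    have e1 := trace_conjAlg l (x * r).1
    rw [conjAlg_coe, e, Units.val_mul, coe_scal, smul_mul_assoc, one_mul, trace_smul, smul_eq_mul,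
      mul_eq_right₀ h0, Units.val_eq_one] at e1
    rwa [e1, map_one, one_mul, mul_inv_eq_iff_eq_mul] at e
  exact (Subgroup.mul_mem_cancel_right _ (Subgroup.mem_sup_left hr)).1 (Subgroup.mem_sup_right this)

/-- The automorphism group of a group of order `25` has order dividing `480`. -/
theorem card_aut_dvd {A : Type*} [Group A] (h : Nat.card A = 25) : Nat.card (MulAut A) ∣ 480 := by
  have := Nat.finite_of_card_ne_zero (h ▸ by norm_num : Nat.card A ≠ 0)
  have := Fact.mk Nat.prime_five
  have h2 : Nat.card A = 5 ^ 2 := h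
  obtain ⟨r, hr, e⟩ := (Nat.dvd_prime_pow Nat.prime_five).1 (h2 ▸ (frattini A).index_dvd_card)
  refine (Cfsg.Agent.S4208.result h2 e).trans ?_
  interval_cases r <;> decide

variable {F : Type u} [Field F] [Finite F] {R : Subgroup (G F)}

theorem relIndex_eq (hR : IsHeis R) : (scalars (Fin 5) F).relIndex R = 25 := hR.card_quotient

theorem sup_relIndex_dvd (hR : IsHeis R) : (R ⊔ scalars (Fin 5) F).relIndex (subgroupNormalizer R) ∣ 480 := by
  let π := QuotientGroup.mk' (scalars (Fin 5) F)
  have hk : π.ker = scalars (Fin 5) F := QuotientGroup.ker_mk' _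
  have hA : Nat.card (R.map π) = 25 := by rw [← Subgroup.relIndex_ker, hk, relIndex_eq hR]
  have hn : ∀ g : subgroupNormalizer R, π g ∈ Subgroup.normalizer (R.map π : Set _) := fun g =>
    Subgroup.le_normalizer_map π ⟨g, g.2, rfl⟩
  let φ : subgroupNormalizer R →* MulAut (R.map π) :=
    (Subgroup.normalizerMonoidHom (R.map π)).comp ((π.comp (subgroupNormalizer R).subtype).codRestrict _ hn)
  refine (Subgroup.index_dvd_of_le (H := φ.ker) fun g hg => ?_).trans
    (((Subgroup.index_ker φ).dvd.trans (Subgroup.card_subgroup_dvd_card _)).trans (card_aut_dvd hA))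
  refine mem_sup hR fun r hr => ?_
  have e : π g * π r * (π g)⁻¹ = π r := congrArg (fun α : MulAut (R.map π) => (α ⟨π r, r, hr, rfl⟩).1) hg
  rw [← hk, MonoidHom.mem_ker, map_commutatorElement, commutatorElement_eq_one_iff_mul_comm]
  exact (mul_inv_eq_iff_eq_mul.1 e).symm

end HeisJ

theorem subH5 : SubH5.{u} := fun F _ _ R hR _ => by
  have h1 : R ⊔ scalars (Fin 5) F ≤ subgroupNormalizer R :=
    sup_le Subgroup.le_normalizer (scalars_le_center.trans (Subgroup.center_le_normalizer _))
  rw [← Subgroup.relIndex_mul_relIndex _ _ _ le_sup_right h1, Subgroup.relIndex_sup_right, HeisJ.relIndex_eq hR]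
  exact mul_dvd_mul_left 25 (HeisJ.sup_relIndex_dvd hR)

end CL.Low5
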