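/-
Project LOW5: the normaliser of an extraspecial group of order `125` is maximal in `SL₅(p)` and in `SU₅(q)`.
-/
import Cfsg.Agent.Low5.H5
import Cfsg.Agent.Cls.UniProper
import Cfsg.Agent.S5793
import Cfsg.Agent.S5796

set_option autoImplicit false

namespace CL.Low5

open Matrix Cfsg Cfsg.Geo CL.Asch CL.SLn CL.Low Module
open scoped commutatorElement

universe u

namespace HeisJ

variable {F : Type u} [Field F] {R R' M S : Subgroup (G F)} {x y a : G F} {ω : Fˣ}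

/-- The Gauss sum in `y` centralises `y` and conjugates `x` to `x y`. -/
theorem exists_gauss (h5 : (5 : F) ≠ 0) (hy : y ^ 5 = 1) (hc : y * x = x * y * scal _ ω) (hω : ω ≠ 1) :
    ∃ g : G F, g * x * g⁻¹ = x * y ∧ ∀ r : G F, r * y = y * r → g * r * g⁻¹ = r := by
  obtain ⟨w, hw⟩ : ∃ w : F, w = ω := ⟨_, rfl⟩
  have w5 : w ^ 5 = 1 := by
    rw [hw, ← Units.val_pow_eq_pow_val, comm_pow_eq_one hc (hy ▸ one_mem _), Units.val_one]
  have hq : w ^ 4 + w ^ 3 + w ^ 2 + w + 1 = 0 :=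
    (mul_eq_zero.1 (show (w - 1) * _ = 0 by linear_combination w5)).resolve_left
      (sub_ne_zero.2 fun e => hω (Units.ext (hw.symm.trans e)))
  obtain ⟨Y, hY⟩ : ∃ Y, Y = y.val := ⟨_, rfl⟩
  have y5 : Y ^ 5 = Y ^ 0 := by rw [hY, ← Units.val_pow_eq_pow_val, hy, pow_zero, Units.val_one]
  have yk : ∀ k, Y ^ (k + 5) = Y ^ k := fun k => by rw [pow_add, y5, pow_zero, mul_one]
  have yx : ∀ k : ℕ, Y ^ k * x.val = w ^ k • (x.val * Y ^ k) := fun k => by
    have := congrArg Units.val (pow_mul_comm_of_central hc (scal_comm ω y) k)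
    rwa [← map_pow, Units.val_mul, Units.val_mul, Units.val_mul, coe_scal, Matrix.mul_smul, Matrix.mul_one,
      Units.val_pow_eq_pow_val, Units.val_pow_eq_pow_val, ← hY, ← hw] at this
  obtain ⟨E, hE⟩ : ∃ E, E = Y ^ 0 + w ^ 4 • Y ^ 1 + w ^ 2 • Y ^ 2 + w ^ 4 • Y ^ 3 + Y ^ 4 := ⟨_, rfl⟩
  have e1 : E * (Y ^ 0 + Y ^ 1 + w • Y ^ 2 + w ^ 3 • Y ^ 3 + w • Y ^ 4) = (5 : F) • Y ^ 0 := by
    simp only [hE, mul_add, add_mul, smul_mul_assoc, mul_smul_comm, ← pow_add, Nat.reduceAdd, y5, yk 1, yk 2, yk 3]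
    match_scalars
    all_goals first | linear_combination 3 * w5 | linear_combination hq + w ^ 2 * w5 | linear_combination w * hq
  have e2 : E * ((5 : F)⁻¹ • (Y ^ 0 + Y ^ 1 + w • Y ^ 2 + w ^ 3 • Y ^ 3 + w • Y ^ 4)) = 1 := by
    rw [mul_smul_comm, e1, smul_smul, inv_mul_cancel₀ h5, one_smul, pow_zero]
  refine ⟨⟨E, _, e2, mul_eq_one_comm.1 e2⟩, mul_inv_eq_iff_eq_mul.2 (Units.ext ?_), fun r hr =>
    mul_inv_eq_iff_eq_mul.2 (Units.ext ?_)⟩
  · change E * x.val = x.val * y.val * E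
    rw [← hY, ← pow_one Y]
    simp only [hE, mul_add, add_mul, smul_mul_assoc, mul_smul_comm, mul_assoc, ← pow_add, Nat.reduceAdd, y5, yx]
    match_scalars
    all_goals first | ring1 | linear_combination w5 | linear_combination w ^ 2 * w5
  · have hc : Commute Y r.val := hY ▸ (congrArg Units.val hr).symm
    change Commute E r.val
    rw [hE]
    exact ((((hc.pow_left 0).add_left ((hc.pow_left 1).smul_left _)).add_left ((hc.pow_left 2).smul_left _)).add_left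
      ((hc.pow_left 3).smul_left _)).add_left (hc.pow_left 4)

/-- An absolutely irreducible group of exponent five that is abelian modulo scalars. -/
structure H5 (R : Subgroup (G F)) : Prop where
  heis : IsHeis R
  pow : ∀ a ∈ R, a ^ 5 = 1

theorem exists_pow (h : ω ^ 5 = 1) (hω : ω ≠ 1) {v : Fˣ} (hv : v ^ 5 = 1) : ∃ k : ℕ, v = ω ^ k := by
  have := Fact.mk Nat.prime_five
  have h1 : IsPrimitiveRoot ω 5 := orderOf_eq_prime h hω ▸ IsPrimitiveRoot.orderOf ω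
  obtain ⟨i, -, e⟩ := h1.eq_pow_of_mem_rootsOfUnity (ξ := v) hv
  exact ⟨i, e.symm⟩

theorem not_scalar (hc : y * x = x * y * scal _ ω) (hω : ω ≠ 1) : y ∉ scalars (Fin 5) F := fun h => by
  rw [← Subgroup.mem_center_iff.1 (scalars_le_center h) x, left_eq_mul] at hc
  exact hω (scal_injective (hc.trans (map_one _).symm))

theorem comm_symm (hc : y * x = x * y * scal _ ω) : x * y = y * x * scal _ ω⁻¹ := by
  rw [hc, map_inv, mul_inv_cancel_right]

theorem scal_eq (hc : y * x = x * y * scal _ ω) : scal _ ω = (x * y)⁻¹ * (y * x) := by rw [hc, inv_mul_cancel_left]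

theorem comm_mem_SL (A B : Subgroup (G F)) : ⁅A, B⁆ ≤ specialLinear (Fin 5) F :=
  Subgroup.commutator_le.2 fun a _ b _ => by
    rw [specialLinear, MonoidHom.mem_ker, map_commutatorElement, commutatorElement_eq_one_iff_mul_comm, mul_comm]

/-- The derived group of the normaliser. -/
abbrev DN (R : Subgroup (G F)) : Subgroup (G F) := ⁅subgroupNormalizer R, subgroupNormalizer R⁆

theorem DN_le (R : Subgroup (G F)) : DN R ≤ subgroupNormalizer R := Subgroup.commutator_le.2 fun _ ha _ hb =>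
  mul_mem (mul_mem (mul_mem ha hb) (inv_mem ha)) (inv_mem hb)

namespace H5

theorem five (h : H5 R) : (5 : F) ≠ 0 := by simpa using h.heis.card_ne_zero

theorem root (h : H5 R) (hy : y ∈ R) (hc : y * x = x * y * scal _ ω) : ω ^ 5 = 1 :=
  comm_pow_eq_one hc (h.pow y hy ▸ one_mem _)

theorem exists_pair (h : H5 R) : ∃ x ∈ R, ∃ y ∈ R, ∃ ω : Fˣ, ω ≠ 1 ∧ ω ^ 5 = 1 ∧ y * x = x * y * scal _ ω :=
  let ⟨x, hx, y, hy, ω, h1, e⟩ := h.heis.exists_not_comm (by simp)
  ⟨x, hx, y, hy, ω, h1, h.root hy e, e⟩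

theorem scal_mem (h : H5 R) {v : Fˣ} (hv : v ^ 5 = 1) : scal _ v ∈ R := by
  obtain ⟨x, hx, y, hy, ω, h1, h2, e⟩ := h.exists_pair
  obtain ⟨k, rfl⟩ := exists_pow h2 h1 hv
  rw [map_pow, scal_eq e]
  exact pow_mem (mul_mem (inv_mem (mul_mem hx hy)) (mul_mem hy hx)) _

theorem le_of_le_sup (h : H5 R) (h' : H5 R') (e : R ≤ R' ⊔ scalars (Fin 5) F) : R ≤ R' := fun r hr => by
  obtain ⟨s, hs, c, rfl⟩ := mem_sup_scalars.1 (e hr)
  have h1 := h.pow _ hr
  rw [Commute.mul_pow (scal_comm c _).symm, h'.pow s hs, ← map_pow, one_mul] at h1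
  exact mul_mem hs (h'.scal_mem (scal_injective (h1.trans (map_one _).symm)))

theorem eq_of_le_sup (h : H5 R) (h' : H5 R') (e : R ≤ R' ⊔ scalars (Fin 5) F) : R = R' :=
  have h1 := h.le_of_le_sup h' e
  le_antisymm h1 (h'.le_of_le_sup h fun x hx => mem_sup h.heis fun r hr => by
    obtain ⟨v, hv⟩ := h'.heis.comm x hx r (h1 hr)
    rw [commutatorElement_def, hv, ← scal_comm, mul_assoc, mul_assoc, ← _root_.mul_inv_rev, mul_inv_cancel, mul_one]
    exact CL.Asch.scal_mem v)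

theorem not_le_stab (h : H5 R) {W : Submodule F (V F)} (h0 : W ≠ ⊥) (h1 : W ≠ ⊤) : ¬ R ≤ subspaceStabilizer W :=
  fun e => (irr_iff.1 (irr_of_spanAlg_eq_top h.heis.span) W fun _ hg _ hw =>
    (CL.Asch.mem_subspaceStabilizer.1 (e hg) _).1 hw).elim h0 h1

variable [Finite F]

theorem exists_norm (h : H5 R) (hx : x ∈ R) (hy : y ∈ R) (hc : y * x = x * y * scal _ ω) (hω : ω ≠ 1) :
    ∃ g ∈ subgroupNormalizer R, g * x * g⁻¹ = x * y ∧ g * y * g⁻¹ = y := by
  obtain ⟨g, h1, h2⟩ := exists_gauss h.five (h.pow y hy) hc hω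
  refine ⟨g, Subgroup.mem_normalizer_fintype fun r hr => ?_, h1, h2 y rfl⟩
  obtain ⟨v, hv⟩ := h.heis.comm r hr y hy
  obtain ⟨k, rfl⟩ := exists_pow (h.root hy hc) hω (h.root hy hv)
  have h3 := pow_mul_comm_of_central (comm_symm hc) (scal_comm _ x) k
  have h4 : r * (x ^ k)⁻¹ * y = y * (r * (x ^ k)⁻¹) := by
    rw [← mul_assoc, hv, mul_assoc r, mul_assoc r, mul_assoc r, mul_right_inj, inv_mul_eq_iff_eq_mul, ← mul_assoc,
      ← mul_assoc, h3, ← map_pow, inv_pow, mul_assoc (y * x ^ k), ← map_mul, inv_mul_cancel, map_one, mul_one,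
      mul_inv_cancel_right]
  have h5 : g * r * g⁻¹ = r * (x ^ k)⁻¹ * (x * y) ^ k := by
    rw [← h2 _ h4, ← h1, conj_pow]; group
  exact h5 ▸ mul_mem (mul_mem hr (inv_mem (pow_mem hx k))) (pow_mem (mul_mem hx hy) k)

theorem exists_swap (h : H5 R) (hx : x ∈ R) (hy : y ∈ R) (hc : y * x = x * y * scal _ ω) (hω : ω ≠ 1) :
    ∃ c ∈ DN R, c * x * c⁻¹ = y⁻¹ := by
  obtain ⟨g, hg, g1, g2⟩ := h.exists_norm hx hy hc hω
  obtain ⟨k, hk, k1, k2⟩ := h.exists_norm hy hx (comm_symm hc) (inv_ne_one.2 hω)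
  refine ⟨⁅g, k⁆, Subgroup.commutator_mem_commutator hg hk, ?_⟩
  have e1 : k⁻¹ * x * k = x := by rw [mul_assoc, inv_mul_eq_iff_eq_mul, eq_comm, ← mul_inv_eq_iff_eq_mul, k2]
  have e2 : g⁻¹ * x * g = x * y⁻¹ := by
    have : x = g * (x * y⁻¹) * g⁻¹ := by
      rw [← conj_mul, g1, ← conj_inv, g2, mul_inv_cancel_right]
    conv_lhs => rw [this]
    group
  have e3 : k * (x * y⁻¹) * k⁻¹ = y⁻¹ := by rw [← conj_mul, k2, ← conj_inv, k1]; group
  calc _ = g * (k * (g⁻¹ * (k⁻¹ * x * k) * g) * k⁻¹) * g⁻¹ := by rw [commutatorElement_def]; group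
    _ = _ := by rw [e1, e2, e3, ← conj_inv, g2]

/-- The derived group of the normaliser acts irreducibly on `R` modulo scalars. -/
theorem le_of_inv (h : H5 R) (hS : ∀ c ∈ DN R, ∀ s ∈ S, c * s * c⁻¹ ∈ S) (ha : a ∈ S) (hR : a ∈ R)
    (hn : a ∉ scalars (Fin 5) F) : R ≤ S := fun b hb => by
  have key : ∀ b ∈ R, ∀ v : Fˣ, v ≠ 1 → b * a = a * b * scal _ v → b ∈ S := fun b hb v hv e => by
    obtain ⟨c, hc, e'⟩ := h.exists_swap hR hb e hv
    exact inv_mem_iff.1 (e' ▸ hS c hc a ha)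
  obtain ⟨y, hy, v, hv, e⟩ := h.heis.exists_comm_ne hR hn
  obtain ⟨v', e'⟩ := h.heis.comm a hR b hb
  by_cases h1 : v' = 1
  · rw [h1, map_one, mul_one] at e'
    exact (mul_mem_cancel_right (key y hy v hv e)).1 (key _ (mul_mem hb hy) v hv (by
      rw [mul_assoc, e, ← mul_assoc, ← mul_assoc, e', mul_assoc a]))
  · exact key b hb v' h1 e'

theorem le_DN (h : H5 R) : R ≤ DN R := by
  obtain ⟨x, hx, y, hy, ω, h1, -, e⟩ := h.exists_pair
  obtain ⟨g, hg, g1, -⟩ := h.exists_norm hx hy e h1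
  refine h.le_of_inv (fun c hc s hs => mul_mem (mul_mem hc hs) (inv_mem hc)) ?_ hy (not_scalar e h1)
  have : y = ⁅x⁻¹, g⁆ := by rw [commutatorElement_def, inv_inv, mul_assoc, mul_assoc, ← mul_assoc g, g1]; group
  exact this ▸ Subgroup.commutator_mem_commutator (inv_mem (Subgroup.le_normalizer hx)) hg

theorem le_or_dvd (h : H5 R) (hM : DN R ≤ M) (hS : ∀ c ∈ M, ∀ s ∈ S, c * s * c⁻¹ ∈ S) :
    R ≤ S ∨ 25 ∣ S.relIndex M := by
  by_cases e : S.subgroupOf R ≤ (scalars (Fin 5) F).subgroupOf R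
  · have : (S.subgroupOf M).Normal := ⟨fun s hs c => hS c c.2 s hs⟩
    refine Or.inr ((relIndex_eq h.heis).symm.dvd.trans ((Subgroup.index_dvd_of_le e).trans ?_))
    exact (Subgroup.relIndex_subgroupOf (h.le_DN.trans hM)).symm.dvd.trans (Subgroup.relIndex_dvd_index_of_normal _ _)
  · obtain ⟨a, h1, h2⟩ := SetLike.not_le_iff_exists.1 e
    exact Or.inl (h.le_of_inv (fun c hc => hS c (hM hc)) h1 a.2 h2)

theorem map_eq_one (h : H5 R) (hM : DN R ≤ M) {H : Type*} [Group H] (φ : M →* H) (hH : ¬ 25 ∣ Nat.card H)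
    (r : M) (hr : r.1 ∈ R) : φ r = 1 := by
  have e : (φ.ker.map M.subtype).subgroupOf M = φ.ker := Subgroup.comap_map_eq_self_of_injective M.subtype_injective _
  refine e.le (((h.le_or_dvd (S := φ.ker.map M.subtype) hM ?_).resolve_right fun h1 => hH (h1.trans ?_)) hr)
  · rintro c hc _ ⟨s, hs, rfl⟩
    exact ⟨_, φ.normal_ker.conj_mem s hs ⟨c, hc⟩, rfl⟩
  · rw [Subgroup.relIndex, e, Subgroup.index_ker]
    exact Subgroup.card_subgroup_dvd_card _

theorem not_le_frame (h : H5 R) {D : Fin 5 → Submodule F (V F)} (hD : IsMDecomposition 1 D) :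
    ¬ DN R ≤ decompositionStabilizer D := fun e => by
  have h0 : ∀ i, D i ≠ ⊥ := fun i e => by
    have := hD.finrank_eq i
    rw [e, finrank_bot] at this
    omega
  have hi := hD.indep.injective h0
  let φ : decompositionStabilizer D →* Equiv.Perm (Fin 5) := MonoidHom.mk' (fun g => g.2.choose) fun a b =>
    Equiv.ext fun i => hi (by
      rw [← (a * b).2.choose_spec, Equiv.Perm.mul_apply, ← a.2.choose_spec, ← b.2.choose_spec, ← Submodule.map_comp,
        ← toLin'_mul]; rfl)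
  have ht : D 0 ≠ ⊤ := fun e => by
    have := hD.finrank_eq 0
    rw [e, finrank_top] at this
    simp at this
  refine h.not_le_stab (h0 0) ht fun r hr => ?_
  have h1 : φ ⟨r, e (h.le_DN hr)⟩ = 1 := h.map_eq_one e φ (by
    rw [Nat.card_eq_fintype_card, Fintype.card_perm, Fintype.card_fin]; decide) _ hr
  have h2 : _ = D (φ ⟨r, e (h.le_DN hr)⟩ 0) := (e (h.le_DN hr)).choose_spec 0
  rw [h1] at h2
  exact mem_subspaceStabilizer_of_map_eq h2

theorem not_le_field (h : H5 R) {A : Subalgebra F (Matrix (Fin 5) (Fin 5) F)} (hA : IsFieldSubalgebra 5 A) :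
    ¬ DN R ≤ subalgebraNormalizer A := fun e => by
  let φ : subalgebraNormalizer A →* (A ≃ₐ[F] A) := MonoidHom.mk' (fun g =>
    { toFun := fun a => ⟨conjAlg g.1 a, (g.2 a).1 a.2⟩
      invFun := fun a => ⟨conjAlg g.1⁻¹ a, ((inv_mem g.2 : g.1⁻¹ ∈ subalgebraNormalizer A) a).1 a.2⟩
      left_inv := fun _ => Subtype.ext (conjAlg_inv_conjAlg _ _)
      right_inv := fun _ => Subtype.ext (conjAlg_conjAlg_inv _ _)
      map_mul' := fun _ _ => Subtype.ext (map_mul _ _ _)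
      map_add' := fun _ _ => Subtype.ext (map_add _ _ _)
      commutes' := fun c => Subtype.ext ((conjAlg g.1).commutes c) })
    fun _ _ => AlgEquiv.ext fun _ => Subtype.ext (conjAlg_mul _ _ _)
  have hc : Nat.card (A ≃ₐ[F] A) = 5 := by
    let _ : Field A := (isFld_of hA).isField.toField
    exact (IsGalois.card_aut_eq_finrank F A).trans hA.finrank_eq
  have h1 : A ≤ ⊥ := fun k hk => by
    obtain ⟨c, hc⟩ := scalar_of_comm_span h.heis.span (x := k) fun r hr => by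
      have : conjAlg r k = k := congrArg (fun φ : A ≃ₐ[F] A => (φ ⟨k, hk⟩).1)
        (h.map_eq_one e φ (by rw [hc]; norm_num) ⟨r, e (h.le_DN hr)⟩ hr)
      conv_rhs => rw [← this]
      rw [conjAlg_apply, Matrix.mul_assoc, gl_inv_mul, Matrix.mul_one]
    exact Algebra.mem_bot.2 ⟨c, by rw [hc, Algebra.algebraMap_eq_smul_one]⟩
  have h2 := hA.finrank_eq
  rw [le_bot_iff.1 h1, Subalgebra.finrank_bot] at h2
  omega

theorem eq_of_le_norm (h : H5 R) (h' : H5 R') (e : DN R ≤ subgroupNormalizer R') : R = R' := by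
  refine h.eq_of_le_sup h' ((h.le_or_dvd e fun c hc s hs => ?_).resolve_right fun h1 =>
    absurd (h1.trans (sup_relIndex_dvd h'.heis)) (by norm_num))
  obtain ⟨s, hs', v, rfl⟩ := mem_sup_scalars.1 hs
  exact mem_sup_scalars.2 ⟨_, (hc s).1 hs', v, by rw [← mul_assoc, mul_assoc _ _ c⁻¹, scal_comm, ← mul_assoc]⟩

theorem dvd_relIndex (h : H5 R) (hM : DN R ≤ M) : 25 ∣ (scalars (Fin 5) F).relIndex M :=
  (h.le_or_dvd hM fun c _ s hs => scalars_normal.conj_mem s hs c).resolve_left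
    ((irr_of_spanAlg_eq_top h.heis.span).not_le_scalars (by simp))

omit [Finite F]

theorem exists_root_mem (h : H5 R) {F₀ : Subfield F} {P : G F} (e : R ≤ subfieldSubgroup F₀ P) :
    ∃ w ∈ F₀, w ≠ 1 ∧ w ^ 5 = 1 := by
  obtain ⟨x, hx, y, hy, ω, h1, h2, hc⟩ := h.exists_pair
  obtain ⟨a, c, rfl⟩ := CL.Asch.mem_subfieldSubgroup.1 (e hx)
  obtain ⟨b, d, rfl⟩ := CL.Asch.mem_subfieldSubgroup.1 (e hy)
  have h3 : descGL F₀ P ((a * b)⁻¹ * (b * a)) = scal _ ω := by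
    have : ∀ (a b : G F) (c d : Fˣ), a * scal _ c * (b * scal _ d) = a * b * scal _ (c * d) := fun a b c d => by
      rw [map_mul, mul_assoc, ← mul_assoc (scal _ c), scal_comm]; simp only [mul_assoc]
    rw [scal_eq hc, this, this, mul_comm d c, map_mul, map_inv, map_mul, map_mul, ← scal_comm, ← scal_comm]
    group
  have h4 := trace_descGL F₀ P ((a * b)⁻¹ * (b * a))
  rw [h3, coe_scal, trace_smul, trace_one, smul_eq_mul] at h4
  have h5 := div_mem (h4 ▸ SetLike.coe_mem _ : (ω : F) * (Fintype.card (Fin 5) : F) ∈ F₀)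
    (natCast_mem F₀ (Fintype.card (Fin 5)))
  exact ⟨ω, by rwa [mul_div_cancel_right₀ _ h.heis.card_ne_zero] at h5, fun e => h1 (Units.ext e),
    by rw [← Units.val_pow_eq_pow_val, h2, Units.val_one]⟩

theorem not_le_quad (h : H5 R) {Q : V F → F} (hQ : IsNondegenerateQuadraticForm Q) : ¬ R ≤ quadSimilarityGroup Q :=
  fun e => by
  obtain ⟨x, hx, y, hy, ω, h1, h2, hc⟩ := h.exists_pair
  obtain ⟨c, ec⟩ := e hx
  obtain ⟨d, ed⟩ := e hy
  have h3 : (ω : F) ^ 2 ≠ 1 := fun e => h1 (by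
    have e' : ω ^ 2 = 1 := Units.ext e
    simpa using pow_gcd_eq_one.2 ⟨h2, e'⟩)
  have h4 : ∀ v, Q v = 0 := fun v => by
    have := congrArg (fun g : G F => Q (g.val *ᵥ v)) hc
    simp only [Units.val_mul, ← mulVec_mulVec, ec, ed, coe_scal, smul_mulVec, one_mulVec, hQ.smul] at this
    have h5 : (c : F) * d * (((ω : F) ^ 2 - 1) * Q v) = 0 := by linear_combination -this
    exact (mul_eq_zero.1 ((mul_eq_zero.1 h5).resolve_left (mul_ne_zero c.ne_zero d.ne_zero))).resolve_left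
      (sub_ne_zero.2 h3)
  obtain ⟨⟨v, hv⟩, -⟩ := hQ.nondegenerate 1 one_ne_zero
  exact hv (by simp [QuadraticMap.polar, h4])

end H5

theorem h5_of [Finite F] (hR : IsSymplecticTypeGroup 5 R) (hi : ActsAbsolutelyIrreducibly (matrixSet R))
    (hZ : Nat.card (Subgroup.center R) = 5) : H5 R :=
  ⟨CL.Uni.isHeis_of_symplecticType hR hi hZ, fun a ha => by
    have := Monoid.pow_exponent_eq_one (⟨a, ha⟩ : R)
    rw [hR.exponent_eq] at this
    exact congrArg Subtype.val this⟩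

theorem h5_of_lin [Fintype F] (hR : IsLinearSymplecticTypeData 5 R) : H5 R := by
  obtain ⟨p, e, -, -, ⟨-, -, h, -⟩ | ⟨h, -⟩ | ⟨h, -⟩⟩ := hR.field
  exacts [h5_of hR.symplecticType hR.absIrred h, absurd h (by norm_num), absurd h (by norm_num)]

theorem eq_one_of_root {w : F} {q : ℕ} (hq : q % 5 = 4) (h1 : w ^ 5 = 1) (h2 : w ^ q = w) : w = 1 := by
  rw [pow_eq_pow_mod q h1, hq] at h2
  linear_combination (w ^ 2 + 1) * h1 - (w ^ 3 + w + 1) * h2

theorem H5.le_GU (h : H5 R) {σ : F →+* F} {q : ℕ} (hσ : CL.Uni.IsBar σ q) (hq : q % 5 = 4)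
    (e : R ≤ similarityGroup (hermForm 5 F q)) : R ≤ GU 5 F q := fun r hr => by
  have hf := isSesq_hermForm 5 hσ.bar_bar hσ.apply
  obtain ⟨l, hl⟩ := e hr
  have e1 : hermForm 5 F q (Pi.single 0 1) (Pi.single 0 1) = 1 := by
    simp [hermForm, Fin.sum_univ_succ]
  have e2 : ∀ (k : ℕ) u v, hermForm 5 F q ((r ^ k).val *ᵥ u) ((r ^ k).val *ᵥ v) = (l : F) ^ k * hermForm 5 F q u v :=
    fun k => by
      induction k with
      | zero => simp
      | succ k ih => intro u v; rw [pow_succ', Units.val_mul, ← mulVec_mulVec, ← mulVec_mulVec, hl, ih]; ring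
  have e3 := e2 5 (Pi.single 0 1) (Pi.single 0 1)
  rw [h.pow r hr, Units.val_one, one_mulVec, e1, mul_one] at e3
  have e4 := hl (Pi.single 0 1) (Pi.single 0 1)
  rw [e1, mul_one] at e4
  have e5 : (l : F) = 1 := eq_one_of_root hq e3.symm (by
    rw [← hσ.apply, ← e4]
    exact (one_mul _).symm.trans (hf.symm _ _).symm)
  intro u v
  have := hl u v
  rwa [e5, one_mul] at this

theorem H5.DN_le_SU [Fintype F] (h : H5 R) {σ : F →+* F} {q : ℕ} (hσ : CL.Uni.IsBar σ q) (e : R ≤ GU 5 F q) :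
    DN R ≤ SU5 F q := by
  have h1 := normalizer_le_similarityGroup (isSesq_hermForm 5 hσ.bar_bar hσ.apply) R h.heis.span
    (fixesForm_iff.2 e) (subgroupNormalizer R) fun k hk x hx => (hk x).1 hx
  refine le_inf (Subgroup.commutator_le.2 fun a ha b hb => ?_) (comm_mem_SL _ _)
  intro u v
  obtain ⟨c, hc⟩ := h1 ha
  obtain ⟨d, hd⟩ := h1 hb
  have e1 : ∀ w : V F, (a * b).val *ᵥ ((b * a)⁻¹.val *ᵥ w) = ⁅a, b⁆.val *ᵥ w := fun w => by
    rw [mulVec_mulVec, ← Units.val_mul, commutatorElement_def, _root_.mul_inv_rev, ← mul_assoc]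
  have e2 : ∀ w : V F, (b * a).val *ᵥ ((b * a)⁻¹.val *ᵥ w) = w := fun w => by
    rw [mulVec_mulVec, ← Units.val_mul, mul_inv_cancel, Units.val_one, one_mulVec]
  change hermForm 5 F q (⁅a, b⁆.val *ᵥ u) (⁅a, b⁆.val *ᵥ v) = _
  conv_rhs => rw [← e2 u, ← e2 v]
  rw [← e1, ← e1]
  simp only [Units.val_mul, ← mulVec_mulVec, hc, hd]
  ring

end HeisJ

open HeisJ

theorem maxHeisL (h : ResL5.{u}) : MaxHeisL.{u} := by
  rintro F _ _ ⟨p, hp, hF, -⟩ R hR
  have h5 := h5_of_lin hR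
  refine isMaximalIn_of_over (lt_of_le_of_ne inf_le_right fun e =>
    not_sl_le_subgroupNormalizer (by simp) hR (e.ge.trans inf_le_left)) fun M hM hX => ?_
  have hD : DN R ≤ M := (le_inf (DN_le R) (comm_mem_SL _ _)).trans hX
  have hRM : R ≤ M := h5.le_DN.trans hD
  rcases Cfsg.Agent.S5793.result M hM with ⟨W, h0, h1, rfl⟩ | ⟨-, D, hD', rfl⟩ | ⟨A, hA, rfl⟩ |
    ⟨F₀, r, -, hr, hc, -⟩ | ⟨-, R', hR', rfl⟩ | ⟨-, Q, hQ, rfl⟩ | ⟨σ, f, hf, -⟩ | hres
  · exact (h5.not_le_stab h0 h1 (hRM.trans inf_le_left)).elim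
  · exact (h5.not_le_frame hD' (hD.trans inf_le_left)).elim
  · exact (h5.not_le_field hA (hD.trans inf_le_left)).elim
  · exact (hr.ne_one (((hc ▸ hF ▸ hp : (Nat.card F₀ ^ r).Prime).eq_one_of_pow))).elim
  · rw [h5.eq_of_le_norm (h5_of_lin hR') (hD.trans inf_le_left)]
  · exact (h5.not_le_quad hQ (hRM.trans inf_le_left)).elim
  · obtain ⟨q, hq⟩ := CL.Uni.exists_isBar (σ : F →+* F)
      (fun e => hf.ne_refl (RingEquiv.ext fun a => DFunLike.congr_fun e a)) hf.involutive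
    have : (q ^ 2).Prime := by rwa [← hq.card, Nat.card_eq_fintype_card, hF]
    exact absurd this.eq_one_of_pow (by norm_num)
  · rcases h F M hM hres with e | e <;> exact absurd ((h5.dvd_relIndex hD).trans e) (by norm_num)

theorem maxHeisU (h : ResU5.{u}) : MaxHeisU.{u} := by
  intro F _ _ q hF p R hp hch hq hR hi hs _ hZ
  have hσ := CL.Uni.isBar_bar hF
  have h5 := h5_of hR hi hZ
  have hq5 : q % 5 = 4 := by
    rcases hq with ⟨rfl, e⟩ | ⟨rfl, e | e⟩
    exacts [e, by rw [Nat.pow_mod, e], by rw [Nat.pow_mod, e]]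
  refine isMaximalIn_of_over (lt_of_le_of_ne inf_le_right fun e =>
    CL.Uni.not_SUm_le_normalizer hσ (by norm_num) (by omega) Nat.prime_five hR.pGroup hi.1 hs
      (e.ge.trans inf_le_left)) fun M hM hX => ?_
  have hD : DN R ≤ M := (le_inf (DN_le R) (h5.DN_le_SU hσ (h5.le_GU hσ hq5 hs))).trans hX
  have hRM : R ≤ M := h5.le_DN.trans hD
  rcases Cfsg.Agent.S5796.result q hF M hM with ⟨W, h0, h1, rfl⟩ | ⟨W, h0, -, h1, rfl⟩ | ⟨D, hD', rfl⟩ |
    ⟨-, A, hA, -, rfl⟩ | ⟨F₀, r, -, hr, ho, hc, -⟩ | ⟨-, F₀, P, hc, -, rfl⟩ |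
    ⟨-, R', -, -, -, hR', hi', -, -, hZ', rfl⟩ | hres
  · refine (h5.not_le_stab h0 (fun e => ?_) (hRM.trans inf_le_left)).elim
    have := h1 (Pi.single 0 1) (e ▸ Submodule.mem_top) (Pi.single 0 1) (e ▸ Submodule.mem_top)
    simp [hermForm, Fin.sum_univ_succ] at this
  · refine (h5.not_le_stab h0 (fun e => ?_) (hRM.trans inf_le_left)).elim
    rw [e, finrank_top] at h1
    simp at h1
  · exact (h5.not_le_frame hD'.decomp (hD.trans inf_le_left)).elim
  · exact (h5.not_le_field hA (hD.trans inf_le_left)).elim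
  · exfalso
    obtain ⟨k, hk, e⟩ : ∃ k, k ∣ 2 ^ 2 ∧ Nat.card F₀ ^ r = p ^ k := by
      rw [← hc, hF]
      rcases hq with ⟨rfl, -⟩ | ⟨rfl, -⟩
      exacts [⟨2, by norm_num, rfl⟩, ⟨4, by norm_num, by rw [← pow_mul]⟩]
    obtain ⟨j, -, ej⟩ := (Nat.dvd_prime_pow hp).1 (e ▸ dvd_pow_self (Nat.card F₀) hr.ne_zero)
    rw [ej, ← pow_mul] at e
    have := (Nat.prime_dvd_prime_iff_eq hr Nat.prime_two).1
      (hr.dvd_of_dvd_pow ((Dvd.intro_left j (Nat.pow_right_injective hp.two_le e)).trans hk))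
    exact absurd (this ▸ ho) (by decide)
  · obtain ⟨w, hw, w1, w5⟩ := h5.exists_root_mem (hRM.trans inf_le_left)
    have := Fintype.ofFinite F₀
    have e : Fintype.card F₀ = q := by
      rw [hF, Nat.card_eq_fintype_card] at hc
      exact (Nat.pow_left_injective two_ne_zero hc).symm
    exact (w1 (eq_one_of_root hq5 w5 (e ▸ congrArg Subtype.val (FiniteField.pow_card (⟨w, hw⟩ : F₀))))).elim
  · rw [h5.eq_of_le_norm (h5_of hR' hi' hZ') (hD.trans inf_le_left)]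
  · rcases (h F q M hF hM hres).2 with e | ⟨-, e⟩ <;> exact absurd ((h5.dvd_relIndex hD).trans e) (by norm_num)

end CL.Low5
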