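/-
Project LOW5, step INV: involutions in odd characteristic when there are no reflections (helper28).
-/
import Cfsg.Agent.Low5.Defs2
import Cfsg.Agent.S1248

set_option autoImplicit false
set_option linter.unusedSectionVars false

namespace CL.Low5

open Matrix Cfsg Cfsg.Geo CL.Asch CL.SLn CL.Low Module
open scoped commutatorElement

universe u

namespace InvJ

variable {ι : Type} [Fintype ι] [DecidableEq ι] {F : Type u} [Field F] {k : ℕ} {e : Fin k → ι → F}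
  {x : Fin k → Dual F (ι → F)} {a b c t : GL ι F}

/-- the eigenspace for `-1` -/
def Ng (t : GL ι F) : Submodule F (ι → F) where
  carrier := {y | t • y = -y}
  add_mem' := fun ha hb => by rw [Set.mem_ofPred_eq, smul_add, ha, hb, neg_add]
  zero_mem' := by simp
  smul_mem' := fun a _ h => by rw [Set.mem_ofPred_eq, gsmul_smul, h, smul_neg]

theorem mem_Ng {y : ι → F} : y ∈ Ng t ↔ t • y = -y := Iff.rfl

theorem Ng_inv (h : c * t = t * c) {y : ι → F} (hy : y ∈ Ng t) : c • y ∈ Ng t := by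
  rw [mem_Ng, ← mul_smul, ← h, mul_smul, mem_Ng.1 hy, smul_neg]

theorem eq_zero (h2 : (2 : F) ≠ 0) {y : ι → F} (h : y = -y) : y = 0 :=
  (smul_eq_zero.1 (show (2 : F) • y = 0 by rw [two_smul, add_eq_zero_iff_eq_neg.2 h])).resolve_left h2

theorem split (h2 : (2 : F) ≠ 0) {W : Submodule F (ι → F)} (hW : ∀ y ∈ W, c • y ∈ W) (hc : c * c = 1)
    (h : c * b = b * c) : finrank F ↥(W ⊓ Ng b) = finrank F ↥(W ⊓ Ng b ⊓ Ng c) + finrank F ↥(W ⊓ Ng b ⊓ Ng (b * c)) := by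
  have cc : ∀ y : ι → F, c • c • y = y := fun y => by rw [← mul_smul, hc, one_smul]
  have h1 : W ⊓ Ng b ⊓ Ng c ⊔ W ⊓ Ng b ⊓ Ng (b * c) = W ⊓ Ng b := le_antisymm (sup_le inf_le_left inf_le_left) fun y hy => by
    have hy' : c • y ∈ W ⊓ Ng b := ⟨hW y hy.1, Ng_inv h hy.2⟩
    have e : y = (2 : F)⁻¹ • (y - c • y) + (2 : F)⁻¹ • (y + c • y) := by
      rw [← smul_add, sub_add_add_cancel, ← two_smul F, inv_smul_smul₀ h2]
    refine e ▸ Submodule.add_mem_sup (Submodule.smul_mem _ _ ⟨sub_mem hy hy', ?_⟩)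
      (Submodule.smul_mem _ _ ⟨add_mem hy hy', ?_⟩)
    · rw [SetLike.mem_coe, mem_Ng, smul_sub, cc, neg_sub]
    · rw [SetLike.mem_coe, mem_Ng, mul_smul, smul_add, cc, add_comm]
      exact (add_mem hy hy').2
  have h3 : W ⊓ Ng b ⊓ Ng c ⊓ (W ⊓ Ng b ⊓ Ng (b * c)) = ⊥ := eq_bot_iff.2 fun y hy => eq_zero h2 (by
    have := mem_Ng.1 hy.2.2
    rwa [mul_smul, mem_Ng.1 hy.1.2, smul_neg, mem_Ng.1 hy.1.1.2, neg_neg] at this)
  rw [← Submodule.finrank_sup_add_finrank_inf_eq, h1, h3, finrank_bot, add_zero]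

theorem tri (h2 : (2 : F) ≠ 0) {W : Submodule F (ι → F)} (hb' : ∀ y ∈ W, b • y ∈ W) (hc' : ∀ y ∈ W, c • y ∈ W)
    (hb : b * b = 1) (hc : c * c = 1) (h : c * b = b * c) : ∃ y z, finrank F ↥(W ⊓ Ng b) = finrank F ↥(W ⊓ Ng b ⊓ Ng c) + y ∧
      finrank F ↥(W ⊓ Ng c) = finrank F ↥(W ⊓ Ng b ⊓ Ng c) + z ∧ finrank F ↥(W ⊓ Ng (b * c)) = y + z := by
  refine ⟨_, finrank F ↥(W ⊓ Ng c ⊓ Ng (b * c)), split h2 hc' hc h, ?_, ?_⟩
  · rw [split h2 hb' hb h.symm, h, inf_right_comm]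
  · rw [split h2 hb' hb (b := b * c) (by rw [mul_assoc, h]), mul_assoc, h, ← mul_assoc, hb, one_mul,
      inf_right_comm W _ (Ng b), inf_right_comm W _ (Ng c)]

theorem sc_mat {s : F} (hs : Sc e x s t) :
    (t : Matrix ι ι F) = 1 + LinearMap.toMatrix' ((s - 1) • up e) * LinearMap.toMatrix' (co x) := by
  rw [← LinearMap.toMatrix'_comp, ← LinearMap.toMatrix'_id, ← map_add, ← LinearMap.toMatrix'_toLin' (t : Matrix ι ι F)]
  exact congrArg _ (LinearMap.ext fun y => by simpa [up_co, ← gsmul_def] using hs y)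

theorem sc_det {s : F} (hb : Bi e x) (hs : Sc e x s t) : (t : Matrix ι ι F).det = s ^ k := by
  have : co x ∘ₗ ((s - 1) • up e) = (s - 1) • LinearMap.id := LinearMap.ext fun y => by simp [hb.co_up]
  rw [sc_mat hs, det_one_add_mul_comm, ← LinearMap.toMatrix'_comp, this, map_smul, LinearMap.toMatrix'_id]
  nth_rw 1 [← one_smul F (1 : Matrix (Fin k) (Fin k) F)]
  rw [← add_smul, add_sub_cancel, det_smul, det_one, mul_one, Fintype.card_fin]

theorem exists_sc (h2 : (2 : F) ≠ 0) (ht : t * t = 1) :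
    ∃ (e : Fin (finrank F (Ng t)) → ι → F) (x : Fin (finrank F (Ng t)) → Dual F (ι → F)), Bi e x ∧ Sc e x (-1) t := by
  let B := Module.finBasis F (Ng t)
  let ε : (ι → F) →ₗ[F] Ng t := ((2 : F)⁻¹ • (LinearMap.id - toLin' (t : Matrix ι ι F))).codRestrict _ fun y =>
    Submodule.smul_mem _ _ (show t • (y - t • y) = -(y - t • y) by rw [smul_sub, ← mul_smul, ht, one_smul, neg_sub])
  have hε : ∀ y, (ε y : ι → F) = (2 : F)⁻¹ • (y - t • y) := fun _ => rfl
  have h1 : ∀ y : Ng t, ε y = y := fun y => Subtype.ext (by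
    rw [hε, mem_Ng.1 y.2, sub_neg_eq_add, ← two_smul F, inv_smul_smul₀ h2])
  refine ⟨fun i => B i, fun i => B.coord i ∘ₗ ε, ⟨fun i => by simp [h1], fun i j hij => by simp [h1, hij.symm]⟩,
    fun y => ?_⟩
  have h3 : pr (fun i => (B i : ι → F)) (fun i => B.coord i ∘ₗ ε) y = ε y := by
    rw [← B.sum_repr (ε y), Submodule.coe_sum]; rfl
  rw [h3, hε, smul_smul, show (-1 - 1 : F) * 2⁻¹ = -1 by field_simp; ring]
  simp

variable [Fintype F] {P : Subgroup (G F)} (h2 : (2 : F) ≠ 0) (hP : QS P) (hR : ∀ v φ, ¬ Rf (PM P) v φ)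
include h2 hP hR

theorem dim_two {t : G F} (hm : t ∈ P) (ht : t * t = 1) (h1 : t ≠ 1) : finrank F (Ng t) = 2 := by
  obtain ⟨e, x, hb, hs⟩ := exists_sc h2 ht
  generalize finrank F (Ng t) = k at e x hb hs
  have hd : (-1 : F) ^ k = 1 := by
    rw [← sc_det hb hs, ← GeneralLinearGroup.val_det_apply, MonoidHom.mem_ker.1 (hP.le_SL hm), Units.val_one]
  rw [neg_one_pow_eq_one_iff_even fun e => h2 (by linear_combination -e), Nat.even_iff] at hd
  have h5 := hb.le_card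
  rw [Fintype.card_fin] at h5
  have h0 : k ≠ 0 := by
    rintro rfl
    exact h1 (gext fun y => by simpa [pr] using hs y)
  have h4 : k ≠ 4 := by
    rintro rfl
    obtain ⟨d, χ, a1, a2, a3⟩ := hb.exists_snoc (by decide)
    refine hR d ((2 : F) • χ) ⟨by simp [a3], fun e => by simp [e] at a3, fun e => h2 (by
      simpa [a3] using LinearMap.congr_fun e d), -t, .inr (by rwa [neg_neg]), fun y => ?_⟩
    have := (hb.snoc a1 a2 a3).pr_eq_self (by decide) y
    rw [pr_snoc] at this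
    rw [neg_gsmul, hs, eq_sub_of_add_eq this, LinearMap.smul_apply, smul_eq_mul]
    module
  omega

theorem inv2 : Inv2 P := fun t hm ht h1 => by
  have := exists_sc h2 ht
  rwa [dim_two h2 hP hR hm ht h1] at this

theorem line {a b : P} (ha : a ^ 2 = 1) (hb : b ^ 2 = 1) (h : b * a = a * b) (a1 : a ≠ 1) (b1 : b ≠ 1) (ab : a ≠ b) :
    finrank F ↥(Ng (a : G F) ⊓ Ng (b : G F)) = 1 := by
  rw [sq] at ha hb
  have hab : a * b * (a * b) = 1 := by rw [mul_assoc, ← mul_assoc b, h, mul_assoc, hb, mul_one, ha]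
  obtain ⟨y, z, e1, e2, e3⟩ := tri h2 (W := ⊤) (b := (a : G F)) (c := b) (fun _ _ => trivial) (fun _ _ => trivial)
    (congrArg Subtype.val ha) (congrArg Subtype.val hb) (congrArg Subtype.val h)
  have d : ∀ t : P, t * t = 1 → t ≠ 1 → finrank F (Ng (t : G F)) = 2 := fun t ht h1 =>
    dim_two h2 hP hR t.2 (congrArg Subtype.val ht) fun e => h1 (Subtype.ext e)
  rw [top_inf_eq] at e1 e2 e3
  rw [top_inf_eq, d b hb b1] at e2
  rw [d a ha a1] at e1
  rw [← Subgroup.coe_mul, d _ hab fun e => ab (mul_right_cancel (e.trans hb.symm))] at e3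
  omega

theorem rank : PRankLE 2 2 (PQ P) := fun A hA hs => by
  classical
  by_contra hlt
  have hZ := scalars_subgroupOf_le_center P
  have hr := QS.coprime hP (r := 2) (by decide)
  have ex : ∀ s : Finset (PQ P), s.card ≤ 4 → ∃ g : P, g ^ 2 = 1 ∧ (g : PQ P) ∈ A ∧ (g : PQ P) ∉ s := fun s h => by
    obtain ⟨a, ha, h1⟩ := Set.exists_mem_notMem_of_ncard_lt_ncard (s := (s : Set (PQ P))) (t := A)
      (by rw [Set.ncard_coe_finset]; exact h.trans_lt (not_le.1 hlt))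
    obtain ⟨g, rfl, e⟩ := exists_lift hr a (hs a ha)
    exact ⟨g, e, ha, h1⟩
  have cm : ∀ {g h : P}, g ^ 2 = 1 → (g : PQ P) ∈ A → (h : PQ P) ∈ A → h * g = g * h := fun e hg hh =>
    lift_comm hZ hr e (setLike_mul_comm hh hg)
  obtain ⟨a, a2, ha, a1⟩ := ex {1} (by simp)
  obtain ⟨b, b2, hb, b1⟩ := ex {1, (a : PQ P)} (Finset.card_le_two.trans (by omega))
  obtain ⟨c, c2, hc, c1⟩ := ex {1, (a : PQ P), (b : PQ P), ((b * a : P) : PQ P)} Finset.card_le_four
  simp only [Finset.mem_insert, Finset.mem_singleton, not_or] at a1 b1 c1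
  have a1' : a ≠ 1 := fun e => a1 (congrArg _ e)
  have bb : b * b = 1 := sq b ▸ b2
  obtain ⟨y, z, e1, e2, e3⟩ := tri h2 (W := Ng (a : G F)) (b := (b : G F)) (c := c)
    (fun _ => Ng_inv (congrArg Subtype.val (cm a2 ha hb))) (fun _ => Ng_inv (congrArg Subtype.val (cm a2 ha hc)))
    (congrArg Subtype.val bb) (congrArg Subtype.val (sq c ▸ c2 :)) (congrArg Subtype.val (cm b2 hb hc))
  rw [line h2 hP hR a2 b2 (cm a2 ha hb) a1' (fun e => b1.1 (congrArg _ e)) fun e => b1.2 (congrArg _ e.symm)] at e1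
  rw [line h2 hP hR a2 c2 (cm a2 ha hc) a1' (fun e => c1.1 (congrArg _ e)) fun e => c1.2.1 (congrArg _ e.symm)] at e2
  rw [← Subgroup.coe_mul, line h2 hP hR a2 (by rw [Commute.mul_pow (cm b2 hb hc).symm, b2, c2, mul_one])
    (cm a2 ha (mul_mem hb hc)) a1' (fun e => c1.2.2.1 (congrArg _ (mul_left_cancel (e.trans bb.symm))))
    fun e => c1.2.2.2 (congrArg _ (by rw [e, ← mul_assoc, bb, one_mul]))] at e3
  omega

theorem not_v4 : ¬ V4D (PQ P) := by
  rintro ⟨a, b, s, s', aa, bb, a1, b1, ab, c0, c1, c2, c3, c4, e⟩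
  have hZ := scalars_subgroupOf_le_center P
  have hr := QS.coprime hP (r := 2) (by decide)
  obtain ⟨a, rfl, a2⟩ := exists_lift hr a (sq a ▸ aa)
  obtain ⟨b, rfl, b2⟩ := exists_lift hr b (sq b ▸ bb)
  obtain ⟨s, rfl⟩ := QuotientGroup.mk_surjective s
  obtain ⟨s', rfl⟩ := QuotientGroup.mk_surjective s'
  obtain ⟨v, v0, hv⟩ := finrank_eq_one_iff'.1 (line h2 hP hR a2 b2 (lift_comm hZ hr a2 c0.symm)
    (fun e => a1 (congrArg _ e)) (fun e => b1 (congrArg _ e)) fun e => ab (congrArg _ e))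
  have k : ∀ g : P, Commute (g : PQ P) a → Commute (g : PQ P) b → ∃ α : F, (g : G F) • v.1 = α • v.1 := fun g h h' =>
    (hv ⟨_, Ng_inv (congrArg Subtype.val (lift_comm hZ hr a2 h)) v.2.1,
      Ng_inv (congrArg Subtype.val (lift_comm hZ hr b2 h')) v.2.2⟩).imp fun _ e => (congrArg Subtype.val e).symm
  obtain ⟨α, hα⟩ := k s⁻¹ c1.inv_left c2.inv_left
  obtain ⟨β, hβ⟩ := k s'⁻¹ c3.inv_left c4.inv_left
  have h1 : ((⁅s, s'⁆ : P) : G F) • v.1 = v.1 := by
    rw [commutatorElement_def, mul_assoc, Subgroup.coe_mul, mul_smul, smul_eq_iff_eq_inv_smul, ← Subgroup.coe_inv,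
      _root_.mul_inv_rev, Subgroup.coe_mul, Subgroup.coe_mul, mul_smul, mul_smul, hα, hβ, gsmul_smul, gsmul_smul, hα, hβ,
      smul_comm]
  have h3 : ((⁅s, s'⁆ : P) : PQ P) = a := e.symm
  have h4 : ⁅s, s'⁆ ^ 5 = a := lift_unique hZ hr
    (by rw [QuotientGroup.mk_pow, h3, pow_succ, pow_mul _ 2 2, sq (a : PQ P), aa, one_pow, one_mul])
    (by
      rw [← pow_mul, mul_comm, pow_mul]
      exact Subtype.ext (pow_card_eq_one_of_scalar (mk_eq_one_iff.1 (by rw [QuotientGroup.mk_pow, h3, sq, aa]))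
        (hP.le_SL (Subtype.prop _)))) a2
  refine v0 (Subtype.ext (eq_zero h2 ?_))
  have h5 := MulAction.mem_stabilizer_iff.1 (pow_mem (MulAction.mem_stabilizer_iff.2 h1) 5)
  rw [← Subgroup.coe_pow, h4] at h5
  exact h5.symm.trans v.2.1

end InvJ

open InvJ in
theorem subInv : SubInv.{u} := fun F _ _ P h2 hP hR => by
  refine ⟨inv2 h2 hP hR, fun t hm ht => ?_, rank h2 hP hR, not_v4 h2 hP hR⟩
  by_cases h1 : t = 1
  · simp [h1]
  obtain ⟨e, x, -, hs⟩ := inv2 h2 hP hR t hm ht h1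
  rw [sc_mat hs, add_sub_cancel_left]
  exact (rank_mul_le_left _ _).trans (rank_le_width _)

theorem dataV4 : DataV4 := fun K _ _ hK => by
  classical
  obtain ⟨S⟩ : Nonempty (Sylow 2 (Cfsg.PSU 3 K 4)) := inferInstance
  obtain ⟨-, h4, -, hc, -⟩ := Cfsg.Agent.S1248.result hK S
  generalize (S : Subgroup (Cfsg.PSU 3 K 4)) = T at h4 hc
  have hn := h4.card_four
  obtain ⟨s, s', h1⟩ : ∃ s s' : T, ⁅s, s'⁆ ≠ 1 := by
    by_contra h
    push Not at h
    rw [hc, show commutator T = ⊥ from eq_bot_iff.2 (Subgroup.commutator_le.2 fun a _ b _ => h a b),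
      Subgroup.card_bot] at hn
    omega
  have ha : ⁅s, s'⁆ ∈ Subgroup.center T := hc ▸ Subgroup.commutator_mem_commutator trivial trivial
  obtain ⟨b, hb, b1⟩ := Set.exists_mem_notMem_of_ncard_lt_ncard (s := ({1, ⁅s, s'⁆} : Set T)) (t := Subgroup.center T)
    ((Set.ncard_pair h1.symm).trans_lt (lt_of_lt_of_eq (by omega) hn.symm))
  simp only [Set.mem_insert_iff, Set.mem_singleton_iff, not_or] at b1
  have sq : ∀ z ∈ Subgroup.center T, (z : Cfsg.PSU 3 K 4) * z = 1 := fun z hz =>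
    congrArg (fun w : Subgroup.center T => (w : Cfsg.PSU 3 K 4)) (IsKleinFour.mul_self ⟨z, hz⟩)
  have cm : ∀ g : T, ∀ z ∈ Subgroup.center T, Commute (g : Cfsg.PSU 3 K 4) z := fun g z hz =>
    congrArg Subtype.val (Subgroup.mem_center_iff.1 hz g)
  exact ⟨_, b, s, s', sq _ ha, sq _ hb, fun e => h1 (Subtype.ext e), fun e => b1.1 (Subtype.ext e),
    fun e => b1.2 (Subtype.ext e.symm), cm _ _ hb, cm _ _ ha, cm _ _ hb, cm _ _ ha, cm _ _ hb, rfl⟩

end CL.Low5
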