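/-
Project LOW5, step ISO: the simple group inside the reflection group `G₃₃` is `PSU₄(2)`.
-/
import Cfsg.Agent.Low5.IsoTab
import Cfsg.Agent.S0779
import Cfsg.Agent.S0780

set_option autoImplicit false
set_option linter.unusedSectionVars false

namespace CL.Low5

open Matrix Cfsg Cfsg.Geo CL.Asch CL.SLn CL.Low Module

universe u

namespace Iso

/-! ### Groups generated by a family with a given conjugation table -/

section Abstract

variable {α H H' : Type*} [Group H] [Group H'] {τ : α → α → α} {t : α → H} {t' : α → H'}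

/-- A generating family of involutions with conjugation table `τ`. -/
structure Fam (τ : α → α → α) (t : α → H) : Prop where
  conj : ∀ i j, t i * t j * (t i)⁻¹ = t (τ i j)
  sq : ∀ i, (t i)⁻¹ = t i
  gen : Subgroup.closure (Set.range t) = ⊤

theorem Fam.key (S : Fam τ t) (S' : Fam τ t') (d : FreeGroup α) : ∀ j, ∃ k,
    FreeGroup.lift t d * t j * (FreeGroup.lift t d)⁻¹ = t k ∧
      FreeGroup.lift t' d * t' j * (FreeGroup.lift t' d)⁻¹ = t' k := by
  induction d using FreeGroup.induction_on with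
  | C1 => exact fun j => ⟨j, by simp, by simp⟩
  | of i => exact fun j => ⟨τ i j, by simpa using S.conj i j, by simpa using S'.conj i j⟩
  | inv_of i _ =>
    exact fun j => ⟨τ i j, by simpa [S.sq] using S.conj i j, by simpa [S'.sq] using S'.conj i j⟩
  | mul a b ha hb =>
    intro j
    obtain ⟨k, h1, h2⟩ := hb j
    obtain ⟨l, h3, h4⟩ := ha k
    exact ⟨l, by rw [← h3, ← h1, map_mul]; group, by rw [← h4, ← h2, map_mul]; group⟩

theorem Fam.ker_le (S : Fam τ t) (S' : Fam τ t') (hi : Function.Injective t) (hc : Subgroup.center H' = ⊥) :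
    (FreeGroup.lift t).ker ≤ (FreeGroup.lift t').ker := fun d hd => by
  rw [MonoidHom.mem_ker] at hd ⊢
  rw [← Subgroup.mem_bot, ← hc, ← Subgroup.centralizer_univ, ← Subgroup.coe_top, ← S'.gen,
    Subgroup.centralizer_closure, Subgroup.mem_centralizer_iff]
  rintro _ ⟨j, rfl⟩
  obtain ⟨k, h1, h2⟩ := S.key S' d j
  rw [hd, one_mul, inv_one, mul_one] at h1
  rw [← hi h1] at h2
  exact (mul_inv_eq_iff_eq_mul.1 h2).symm

theorem Fam.surj (S : Fam τ t) : Function.Surjective (FreeGroup.lift t) := by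
  rw [← MonoidHom.range_eq_top, FreeGroup.range_lift_eq_closure, S.gen]

theorem Fam.iso (S : Fam τ t) (S' : Fam τ t') (hi : Function.Injective t) (hi' : Function.Injective t')
    (hc : Subgroup.center H = ⊥) (hc' : Subgroup.center H' = ⊥) : Nonempty (H ≃* H') :=
  ⟨(QuotientGroup.quotientKerEquivOfSurjective _ S.surj).symm.trans
    ((QuotientGroup.quotientMulEquivOfEq (le_antisymm (S.ker_le S' hi hc') (S'.ker_le S hi' hc))).trans
      (QuotientGroup.quotientKerEquivOfSurjective _ S'.surj))⟩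

theorem Fam.quot (S : Fam τ t) (N : Subgroup H) [N.Normal] : Fam τ fun i => (t i : H ⧸ N) :=
  ⟨fun i j => congrArg (QuotientGroup.mk' N) (S.conj i j), fun i => congrArg (QuotientGroup.mk' N) (S.sq i), by
    have := congrArg (Subgroup.map (QuotientGroup.mk' N)) S.gen
    rwa [MonoidHom.map_closure, ← Set.range_comp,
      Subgroup.map_top_of_surjective _ (QuotientGroup.mk'_surjective N)] at this⟩

/-- The members of the family are told apart by what they commute with. -/
def Apart (t : α → H) : Prop := ∀ j k, j = k ∨ ∃ l, t j * t l = t l * t j ∧ t k * t l ≠ t l * t k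

theorem Apart.inj (h : Apart t) {N : Subgroup H} [N.Normal] (hN : N ≤ Subgroup.center H) :
    Function.Injective fun i => (t i : H ⧸ N) := fun j k e => by
  refine (h j k).resolve_right fun ⟨l, h1, h2⟩ => h2 ?_
  have h3 := Subgroup.mem_center_iff.1 (hN (QuotientGroup.eq.1 e)) (t l)
  calc t k * t l = t j * ((t j)⁻¹ * t k * t l) := by group
    _ = t j * t l * ((t j)⁻¹ * t k) := by rw [← h3, mul_assoc]
    _ = t l * t k := by rw [h1]; group

theorem center_eq_bot [IsSimpleGroup H] (h : ¬ IsMulCommutative H) : Subgroup.center H = ⊥ :=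
  (Subgroup.Normal.eq_bot_or_eq_top inferInstance).resolve_right fun e =>
    h ⟨⟨fun a b => Subgroup.mem_center_iff.1 (e.ge trivial : b ∈ Subgroup.center H) a⟩⟩

end Abstract

/-! ### The 45 reflections over a field -/

variable {ι : Type} [Fintype ι] [DecidableEq ι] {E : Type u} [Field E] {ω : E}

/-- Evaluation of Eisenstein integers. -/
def ev (hω : ω ^ 2 + ω + 1 = 0) : Zw →+* E where
  toFun z := z.re + z.im * ω
  map_one' := by simp [QuadraticAlgebra.re_one, QuadraticAlgebra.im_one]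
  map_zero' := by simp
  map_add' a b := by simp; ring
  map_mul' a b := by simp; linear_combination (-(a.im : E) * b.im) * hω

theorem ev_apply (hω : ω ^ 2 + ω + 1 = 0) (z : Zw) : ev hω z = z.re + z.im * ω := rfl

theorem ev_om (hω : ω ^ 2 + ω + 1 = 0) : ev hω om = ω := by simp [ev_apply, om]

theorem un_star (s : ℕ) : un s * star (un s) = 1 := by
  rw [un, star_pow, ← mul_pow, show -om * star (-om) = 1 by decide, one_pow]

theorem om_star (n : ℕ) : om ^ n * star (om ^ n) = 1 := by
  rw [star_pow, ← mul_pow, show om * star om = 1 by decide, one_pow]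

theorem th_star : th * star th = 3 := by decide +kernel

theorem hh_star (r s : Fin 5 → Zw) : star (hh r s) = hh s r := by
  simp only [hh, star_add, star_mul', star_star, star_ofNat]; ring

/-- A frame with the weights `1, 1, 1, 1, 2`. -/
structure St (ω : E) (e : Fin 5 → ι → E) (X : Fin 5 → Dual E (ι → E)) : Prop where
  hω : ω ^ 2 + ω + 1 = 0
  three : (3 : E) ≠ 0
  pair : ∀ i j, X i (e j) = if i = j then (if i = 4 then 2 else 1) else 0

namespace St

variable {e : Fin 5 → ι → E} {X : Fin 5 → Dual E (ι → E)} (S : St ω e X)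

/-- The vector of a root. -/
def vv (r : Fin 5 → Zw) : ι → E := ∑ i, ev S.hω (r i) • e i

/-- The functional of a root. -/
def ff (r : Fin 5 → Zw) : Dual E (ι → E) := (3 : E)⁻¹ • ∑ i, ev S.hω (star (r i)) • X i

theorem ff_vv (r s : Fin 5 → Zw) : 3 * S.ff s (S.vv r) = ev S.hω (hh r s) := by
  have := S.three
  simp only [ff, vv, hh, Fin.sum_univ_five, LinearMap.smul_apply, LinearMap.add_apply, map_add, map_smul, S.pair,
    map_mul, map_ofNat, smul_eq_mul]
  simp
  field_simp

theorem two (i : Fin 45) : S.ff (vec i) (S.vv (vec i)) = 2 :=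
  mul_left_cancel₀ S.three (by rw [S.ff_vv, hh_self, map_ofNat]; norm_num)

theorem ev_inv {a : Zw} (h : a * star a = 1) : ev S.hω (star a) = (ev S.hω a)⁻¹ :=
  eq_inv_of_mul_eq_one_right (by rw [← map_mul, h, map_one])

theorem same {r s : Fin 5 → Zw} {a : Zw} (h : a * star a = 1) (hr : ∀ m, r m = a * s m) :
    SameRf (S.vv s) (S.ff s) (S.vv r) (S.ff r) := by
  refine ⟨ev S.hω a, left_ne_zero_of_mul_eq_one (b := ev S.hω (star a)) (by rw [← map_mul, h, map_one]), ?_, ?_⟩
  · simp only [vv, hr, map_mul, Finset.smul_sum, smul_smul]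
  · simp only [ff, hr, star_mul', map_mul, Finset.smul_sum, smul_smul, S.ev_inv h]
    exact Finset.sum_congr rfl fun i _ => by congr 1; ring

theorem vv_sub (r s : Fin 5 → Zw) (c : Zw) : S.vv (fun m => r m - c * s m) = S.vv r - ev S.hω c • S.vv s := by
  simp only [vv, map_sub, map_mul, Finset.smul_sum, smul_smul, sub_smul, Finset.sum_sub_distrib]

theorem ff_sub (r s : Fin 5 → Zw) (c : Zw) :
    S.ff (fun m => r m - c * s m) = S.ff r - ev S.hω (star c) • S.ff s := by
  simp only [ff, star_sub, star_mul', map_sub, map_mul, Fin.sum_univ_five]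
  module

variable {g : Fin 45 → GL ι E}

theorem conj (hg : ∀ k y, g k • y = y - S.ff (vec k) y • S.vv (vec k)) (i j : Fin 45) :
    g i * g j * (g i)⁻¹ = g (T i j) := by
  obtain ⟨h1, h2⟩ := tab i j
  have e1 : S.ff (vec i) (S.vv (vec j)) = ev S.hω (cc (vec j) (vec i)) :=
    mul_left_cancel₀ S.three (by rw [S.ff_vv, ← h1, map_mul, map_ofNat])
  have e2 : S.ff (vec j) (S.vv (vec i)) = ev S.hω (star (cc (vec j) (vec i))) :=
    mul_left_cancel₀ S.three (by rw [S.ff_vv, ← hh_star, ← h1, star_mul', star_ofNat, map_mul, map_ofNat])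
  refine gext fun y => ?_
  rw [hg, ← (S.same (un_star _) h2).apply, vv_sub, ff_sub, ← e1, ← e2, rf_inv (S.two i) (hg i)]
  simp only [mul_smul, hg, map_sub, map_smul, S.two, smul_eq_mul, LinearMap.sub_apply, LinearMap.smul_apply]
  module

theorem apart (hg : ∀ k y, g k • y = y - S.ff (vec k) y • S.vv (vec k)) : Apart g := fun j k => by
  refine (sep j k).imp_right fun ⟨l, h1, h2⟩ => ⟨l, ?_, fun e => ?_⟩
  · have e1 : S.ff (vec j) (S.vv (vec l)) = 0 := mul_left_cancel₀ S.three (by rw [S.ff_vv, h1, map_zero, mul_zero])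
    have e2 : S.ff (vec l) (S.vv (vec j)) = 0 :=
      mul_left_cancel₀ S.three (by rw [S.ff_vv, ← hh_star, h1, star_zero, map_zero, mul_zero])
    refine gext fun y => ?_
    simp only [mul_smul, hg, map_sub, map_smul, e1, e2, smul_eq_mul]
    module
  · have e1 : S.ff (vec k) (S.vv (vec l)) * S.ff (vec l) (S.vv (vec k)) = 1 := by
      have := congrArg (ev S.hω) h2
      rw [hh_star, map_mul, ← S.ff_vv, ← S.ff_vv, map_ofNat] at this
      exact mul_left_cancel₀ (mul_ne_zero S.three S.three) (by linear_combination this)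
    have e2 := congrArg (fun a : GL ι E => S.ff (vec l) (a • S.vv (vec k))) e
    simp only [mul_smul, hg, map_sub, map_smul, S.two, smul_eq_mul] at e2
    refine S.three ?_
    linear_combination (-S.ff (vec k) (S.vv (vec l))) * e2 +
      (S.ff (vec k) (S.vv (vec l)) * S.ff (vec l) (S.vv (vec k)) - 3) * e1

include S in
theorem exists_pow {a : E} (ha : a ^ 3 = 1) : ∃ n : Fin 3, a = ω ^ n.val := by
  have : (a - 1) * ((a - ω) * (a - ω ^ 2)) = 0 := by
    linear_combination ha + (-a ^ 2 + a * ω - ω + 1) * S.hω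
  rcases mul_eq_zero.1 this with h | h
  · exact ⟨0, by simpa using sub_eq_zero.1 h⟩
  · rcases mul_eq_zero.1 h with h | h
    · exact ⟨1, by simpa using sub_eq_zero.1 h⟩
    · exact ⟨2, sub_eq_zero.1 h⟩

include S in
theorem cube (n : ℕ) : (ω ^ n) ^ 3 = 1 := by
  rw [← pow_mul, mul_comm, pow_mul, show ω ^ 3 = 1 by linear_combination (ω - 1) * S.hω, one_pow]

theorem ev_pow (n : ℕ) : ev S.hω (om ^ n) = ω ^ n := by rw [map_pow, ev_om]

theorem ev_star_pow (n : ℕ) : ev S.hω (star (om ^ n)) = (ω ^ n)⁻¹ := by rw [S.ev_inv (om_star n), S.ev_pow]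

theorem same1 (i j : Fin 5) (n : ℕ) :
    SameRf (e i - ω ^ n • e j) (X i - (ω ^ n)⁻¹ • X j) (S.vv (r1 i j n)) (S.ff (r1 i j n)) := by
  have h : ev S.hω th * ((3 : E)⁻¹ * ev S.hω (star th)) = 1 := by
    rw [mul_left_comm, ← map_mul, th_star, map_ofNat, inv_mul_cancel₀ S.three]
  refine ⟨ev S.hω th, left_ne_zero_of_mul_eq_one h, ?_, ?_⟩
  · simp [vv, r1, sub_smul, mul_smul, ← Finset.smul_sum, Finset.sum_sub_distrib, ev_om, apply_ite (ev S.hω), ite_smul]
  · rw [← eq_inv_of_mul_eq_one_right h, ← S.ev_star_pow]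
    simp [ff, r1, sub_smul, mul_smul, ← Finset.smul_sum, Finset.sum_sub_distrib, apply_ite (ev S.hω),
      apply_ite (star : Zw → Zw), ite_smul]

theorem vv2 (a b c : ℕ) :
    S.vv (r2 a b c) = ω ^ a • e 0 + ω ^ b • e 1 + ω ^ c • e 2 + ω ^ (2 * (a + b + c)) • e 3 + e 4 := by
  simp [vv, r2, Fin.sum_univ_five, ev_om]

theorem ff2 (a b c : ℕ) : S.ff (r2 a b c) = (3 : E)⁻¹ • ((ω ^ a)⁻¹ • X 0 + (ω ^ b)⁻¹ • X 1 + (ω ^ c)⁻¹ • X 2 +
    (ω ^ (2 * (a + b + c)))⁻¹ • X 3 + X 4) := by
  simp only [← S.ev_star_pow]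
  simp [ff, r2, Fin.sum_univ_five]

/-- Every reflection of the first kind is one of the 45. -/
theorem cover1 {i j : Fin 5} {a : E} (hij : i ≠ j) (hi : i ≠ 4) (hj : j ≠ 4) (ha : a ^ 3 = 1) :
    ∃ l, SameRf (e i - a • e j) (X i - a⁻¹ • X j) (S.vv (vec l)) (S.ff (vec l)) := by
  obtain ⟨n, rfl⟩ := S.exists_pow ha
  obtain ⟨l, s, h⟩ := ind1 i j n hij hi hj
  exact ⟨l, (S.same1 i j n).trans (S.same (un_star s) h).symm⟩

/-- Every reflection of the second kind is one of the 45. -/
theorem cover2 {a b c d : E} (ha : a ^ 3 = 1) (hb : b ^ 3 = 1) (hc : c ^ 3 = 1) (hd : a * b * c * d = 1) :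
    ∃ l, S.vv (vec l) = a • e 0 + b • e 1 + c • e 2 + d • e 3 + e 4 ∧
      S.ff (vec l) = (3 : E)⁻¹ • (a⁻¹ • X 0 + b⁻¹ • X 1 + c⁻¹ • X 2 + d⁻¹ • X 3 + X 4) := by
  obtain ⟨n, rfl⟩ := S.exists_pow ha
  obtain ⟨m, rfl⟩ := S.exists_pow hb
  obtain ⟨k, rfl⟩ := S.exists_pow hc
  obtain ⟨l, h⟩ := ind2 n m k
  have : d = ω ^ (2 * (n.val + m.val + k.val)) := by
    linear_combination (ω ^ (n.val + m.val + k.val)) ^ 2 * hd - d * S.cube (n.val + m.val + k.val)
  rw [this, ← S.vv2, ← S.ff2, funext h]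
  exact ⟨l, rfl, rfl⟩

end St

theorem det_rf {g : GL ι E} {v : ι → E} {φ : Dual E (ι → E)} (h : φ v = 2) (hg : ∀ y, g • y = y - φ y • v) :
    (g : Matrix ι ι E).det = -1 := by
  have h1 : (g : Matrix ι ι E) = 1 + vecMulVec (-v) fun j => φ (Pi.single j 1) := by
    ext i j
    have := congrFun (hg (Pi.single j 1)) i
    rw [gsmul_def, mulVec_single_one] at this
    simpa [vecMulVec_apply, mul_comm, sub_eq_add_neg, one_apply, Pi.single_apply] using this
  have h2 : φ v = ∑ j, v j * φ (Pi.single j 1) := by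
    conv_lhs => rw [pi_eq_sum_univ' v]
    simp only [map_sum, map_smul, smul_eq_mul]
  rw [h1, vecMulVec_eq Unit, det_one_add_replicateCol_mul_replicateRow, dotProduct_neg, dotProduct_comm, dotProduct,
    ← h2, h]
  norm_num

/-! ### The side of `G₃₃` -/

theorem side_F {F : Type u} [Field F] {P Γ : Subgroup (G F)} (hP : QS P) (h2 : (2 : F) ≠ 0)
    (hΓ : ∀ g, g ∈ Γ ↔ g ∈ P ∨ -g ∈ P) {ω : F} {e : Fin 5 → V F} {x : Fin 5 → Dual F (V F)} (h : G33 Γ ω e x) :
    ∃ t : Fin 45 → PQ P, Fam T t ∧ Function.Injective t := by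
  let X : Fin 5 → Dual F (V F) := fun i => (if i = 4 then (2 : F) else 1) • x i
  have hX : ∀ i, i ≠ 4 → X i = x i := fun i hi => by simp [X, hi]
  have S : St ω e X := ⟨h.hω, h.three, fun i j => by
    simp only [X, LinearMap.smul_apply, h.bi.apply, smul_eq_mul, mul_ite, mul_one, mul_zero]⟩
  have hX' : ∀ a b c d : F, a • X 0 + b • X 1 + c • X 2 + d • X 3 + X 4 =
      a • x 0 + b • x 1 + c • x 2 + d • x 3 + (2 : F) • x 4 := fun a b c d => by simp [X]
  have hr : ∀ l, Rf Γ (S.vv (vec l)) (S.ff (vec l)) := fun l => (h.rf _ _).2 (by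
    rcases ind3 l with ⟨i, j, n, hij, hi, hj, hl⟩ | ⟨a, b, c, hl⟩ <;> rw [funext hl]
    · exact Or.inl ⟨i, j, _, hij, hi, hj, S.cube n, by simpa only [hX i hi, hX j hj] using S.same1 i j n⟩
    · refine Or.inr ⟨_, _, _, ω ^ (2 * (a.val + b.val + c.val)), S.cube a, S.cube b, S.cube c, ?_, ?_⟩
      · linear_combination S.cube (a.val + b.val + c.val)
      · rw [S.vv2, S.ff2, hX']; exact SameRf.refl)
  have hc : ∀ v φ, Rf Γ v φ → ∃ l, SameRf (S.vv (vec l)) (S.ff (vec l)) v φ := fun v φ hv => by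
    rcases (h.rf _ _).1 hv with ⟨i, j, a, hij, hi, hj, ha, hs⟩ | ⟨a, b, c, d, ha, hb, hc, hd, hs⟩
    · obtain ⟨l, hl⟩ := S.cover1 hij hi hj ha
      rw [hX i hi, hX j hj] at hl
      exact ⟨l, hl.symm.trans hs⟩
    · obtain ⟨l, h3, h4⟩ := S.cover2 ha hb hc hd
      exact ⟨l, by rw [h3, h4, hX']; exact hs⟩
  choose g hgΓ hg using fun l => (hr l).mem
  have hm : ∀ l, -g l ∈ P := fun l => ((hΓ _).1 (hgΓ l)).resolve_left fun h0 => h2 (by
    linear_combination (det_rf (S.two l) (hg l)) - mem_specialLinear_iff.1 (hP.le_SL h0))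
  let t : Fin 45 → P := fun l => ⟨-g l, hm l⟩
  have ha : Apart t := fun j k => (S.apart hg j k).imp_right fun ⟨l, h3, h4⟩ =>
    ⟨l, Subtype.ext (by simpa [t] using h3), fun h5 => h4 (by simpa [t] using congrArg Subtype.val h5)⟩
  have hgen : P ≤ Subgroup.closure (Set.range fun l => -g l) := by
    obtain ⟨l, -, h4⟩ := (S.apart hg 1 0).resolve_left (by decide)
    refine hP.le_closure ?_ ⟨0, rfl⟩ (hm 0) fun h5 => h4 ?_
    · rintro a ha _ ⟨k, rfl⟩
      obtain ⟨l, hl⟩ := hc _ _ ((hr k).conj ((hΓ a).2 (Or.inl ha)))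
      refine ⟨l, ?_⟩
      rw [mul_neg, neg_mul]
      refine congrArg Neg.neg (gext fun y => ?_)
      rw [hg, ← hl.apply, mul_smul, mul_smul, hg, smul_sub, smul_inv_smul, dact_apply, gsmul_smul]
    · simpa using (Subgroup.mem_center_iff.1 (scalars_le_center h5) (g l)).symm
  have hf : Fam T t := ⟨fun i j => Subtype.ext (by simpa [t] using S.conj hg i j),
    fun i => Subtype.ext (by simpa [t] using rf_inv (S.two i) (hg i)), by
      apply Subgroup.map_injective P.subtype_injective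
      rw [MonoidHom.map_closure, ← Set.range_comp, ← MonoidHom.range_eq_map, Subgroup.range_subtype]
      exact le_antisymm ((Subgroup.closure_le _).2 (by rintro _ ⟨l, rfl⟩; exact hm l)) hgen⟩
  exact ⟨_, hf.quot _, ha.inj (scalars_subgroupOf_le_center P)⟩

/-! ### The unitary side -/

theorem side_K {K : Type} [Field K] [Fintype K] (hK : Fintype.card K = 2 ^ 2) :
    ∃ t : Fin 45 → PSU 4 K 2, Fam T t ∧ Function.Injective t := by
  have hb := CL.Uni.isBar_bar hK
  have h2 : (2 : K) = 0 := by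
    have := FiniteField.cast_card_eq_zero K
    rw [hK] at this
    exact pow_eq_zero_iff two_ne_zero |>.1 (by exact_mod_cast this)
  have h4 : ∀ a : K, a ^ 4 = a := fun a => by simpa [hK] using FiniteField.pow_card a
  obtain ⟨ω, hω⟩ : ∃ ω : K, ω ^ 2 + ω + 1 = 0 := by
    obtain ⟨a, ha⟩ := hb.exists_ne
    rw [hb.apply] at ha
    exact ⟨a, mul_left_cancel₀ (sub_ne_zero.2 ha) (by linear_combination h4 a)⟩
  have h3 : (3 : K) = 1 := by linear_combination h2
  let e : Fin 5 → Fin 4 → K := ![Pi.single 0 1, Pi.single 1 1, Pi.single 2 1, Pi.single 3 1, 0]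
  let X : Fin 5 → Dual K (Fin 4 → K) :=
    ![LinearMap.proj 0, LinearMap.proj 1, LinearMap.proj 2, LinearMap.proj 3, 0]
  have S : St ω e X := ⟨hω, by simp [h3], fun i j => by fin_cases i <;> fin_cases j <;> simp [e, X, h2]⟩
  have hs : ∀ z, ev hω (star z) = ev hω z ^ 2 := fun z => by
    rw [← hb.apply, ev_apply, ev_apply, map_add, map_mul, map_intCast, map_intCast, hb.apply]
    simp only [QuadraticAlgebra.re_star, QuadraticAlgebra.im_star]
    push_cast
    linear_combination (-(z.im : K)) * hω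
  have h0 : ∀ z, Ev2 z → ev hω z = 0 := fun z hz => by
    obtain ⟨a, ha⟩ := Int.dvd_of_emod_eq_zero hz.1
    obtain ⟨b, hb⟩ := Int.dvd_of_emod_eq_zero hz.2
    rw [ev_apply, ha, hb]
    push_cast
    linear_combination (a + b * ω) * h2
  have hv : ∀ r, S.vv r = ![ev hω (r 0), ev hω (r 1), ev hω (r 2), ev hω (r 3)] := fun r => by
    ext m; fin_cases m <;> simp [St.vv, e, Fin.sum_univ_five]
  have hf : ∀ r y, S.ff r y = hermForm 4 K 2 y (S.vv r) := fun r y => by
    simp [hv, St.ff, X, Fin.sum_univ_five, Fin.sum_univ_four, hermForm, h3, hs, mul_comm]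
  have ut : ∀ (v : Fin 4 → K) (c : K) y, unitaryTransvection 4 2 v c *ᵥ y = y + (c * hermForm 4 K 2 y v) • v :=
    fun v c y => by rw [CL.Uni.unitaryTransvection_mulVec hb, CL.Uni.hermForm_eq hb]
  have hneg : ∀ y z : Fin 4 → K, y - z = y + z := fun y z => by
    ext m; simp only [Pi.sub_apply, Pi.add_apply]; linear_combination (-z m) * h2
  choose g hg using fun l => exists_refl (S.two l)
  have hgu : ∀ l, (g l : Matrix (Fin 4) (Fin 4) K) = unitaryTransvection 4 2 (S.vv (vec l)) 1 := fun l =>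
    matrix_ext_mulVec fun y => by rw [← gsmul_def, hg, ut, one_mul, hf, hneg]
  have hiso : ∀ l, hermForm 4 K 2 (S.vv (vec l)) (S.vv (vec l)) = 0 := fun l => by rw [← hf, S.two, h2]
  let π : SU 4 K 2 →* GL (Fin 4) K := SpecialLinearGroup.toGL.comp (SU 4 K 2).subtype
  have hπ : Function.Injective π := SpecialLinearGroup.toGL_injective.comp Subtype.val_injective
  obtain ⟨t, ht⟩ : ∃ t : Fin 45 → SU 4 K 2, ∀ l, π (t l) = g l := by
    refine ⟨fun l => ⟨⟨g l, by rw [det_rf (S.two l) (hg l)]; linear_combination -h2⟩, fun y z => ?_⟩,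
      fun l => Units.ext rfl⟩
    change hermForm 4 K 2 ((g l : Matrix (Fin 4) (Fin 4) K) *ᵥ y) ((g l : Matrix (Fin 4) (Fin 4) K) *ᵥ z) = _
    rcases eq_or_ne (S.vv (vec l)) 0 with h5 | h5
    · simp [hgu, ut, h5]
    · rw [hgu]
      exact (Cfsg.Agent.S0779.result hK 4 _ h5 (hiso l) 1).2 (Or.inr (by linear_combination h2)) y z
  have ha : Apart t := fun j k => (S.apart hg j k).imp_right fun ⟨l, h5, h6⟩ =>
    ⟨l, hπ (by simpa [ht] using h5), fun h7 => h6 (by simpa [ht] using congrArg π h7)⟩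
  have hu : ∀ a : K, ∃ n, a = ev hω (u4 n) := fun a => by
    rcases eq_or_ne a 0 with rfl | h5
    · exact ⟨0, by simp [u4]⟩
    · obtain ⟨n, rfl⟩ := S.exists_pow (a := a) (mul_left_cancel₀ h5 (by linear_combination h4 a))
      exact ⟨n.succ, by fin_cases n <;> simp [u4, ev_om]⟩
  have hfam : Fam T t := ⟨fun i j => hπ (by simpa [ht] using S.conj hg i j),
    fun i => hπ (by simpa [ht] using rf_inv (S.two i) (hg i)), by
      rw [eq_top_iff, ← Cfsg.Agent.S0780.result hK 4 (by norm_num) (by norm_num), Subgroup.closure_le]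
      rintro A ⟨v, c, hv0, hA⟩
      have hA' : (π A : Matrix (Fin 4) (Fin 4) K) = unitaryTransvection 4 2 v c := hA
      have h1 : v = 0 ∨ c = 0 → A ∈ Subgroup.closure (Set.range t) := fun h => by
        rw [hπ (a₁ := A) (a₂ := 1) (gext fun y => by
          rw [gsmul_def, hA', ut, map_one, one_smul]; rcases h with h | h <;> simp [h])]
        exact Subgroup.one_mem _
      rcases eq_or_ne v 0 with h5 | h5
      · exact h1 (Or.inl h5)
      rcases (Cfsg.Agent.S0779.result hK 4 v h5 hv0 c).1 (fun y z => by rw [← hA']; exact A.2 y z) with h6 | h6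
      · exact h1 (Or.inr h6)
      choose n hn using fun m => hu (v m)
      rcases ind4 (n 0) (n 1) (n 2) (n 3) with ⟨a0, a1, a2, a3⟩ | h7 | ⟨l, s, a0, a1, a2, a3⟩
      · exact absurd (funext fun m => by rw [hn]; fin_cases m <;> simp [a0, a1, a2, a3, u4]) h5
      · have := h0 _ h7
        simp only [map_sub, map_add, map_mul, map_one, hs, ← hn] at this
        rw [hermForm, Fin.sum_univ_four] at hv0
        exact absurd (by linear_combination hv0 - this) (one_ne_zero (α := K))
      · have h8 : v = ω ^ s.val • S.vv (vec l) := by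
          have b0 := h0 _ a0
          have b1 := h0 _ a1
          have b2 := h0 _ a2
          have b3 := h0 _ a3
          simp only [map_sub, map_mul, map_pow, ev_om, ← hn, sub_eq_zero] at b0 b1 b2 b3
          ext m; fin_cases m <;> simp [hv, b0, b1, b2, b3]
        refine Subgroup.subset_closure ⟨l, hπ (gext fun y => ?_)⟩
        rw [ht, gsmul_def, gsmul_def, hA', hgu, ut, ut, h8, smul_smul]
        congr 2
        simp only [hermForm, Fin.sum_univ_four, Pi.smul_apply, smul_eq_mul]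
        have h9 : c = 1 := by linear_combination h6 - h2
        rw [h9]
        linear_combination (-(y 0 * S.vv (vec l) 0 ^ 2 + y 1 * S.vv (vec l) 1 ^ 2 + y 2 * S.vv (vec l) 2 ^ 2 +
          y 3 * S.vv (vec l) 3 ^ 2)) * S.cube s.val⟩
  exact ⟨_, hfam.quot _, ha.inj le_rfl⟩

end Iso

open Iso in
theorem stepIso : StepIso.{u} := fun F _ _ P Γ hP h2 hΓ ω e x h => by
  let _ : Fintype (GaloisField 2 2) := Fintype.ofFinite _
  have hK : Fintype.card (GaloisField 2 2) = 2 ^ 2 := by
    rw [← Nat.card_eq_fintype_card, GaloisField.card 2 2 two_ne_zero]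
  obtain ⟨t, h3, h4⟩ := side_F hP h2 hΓ h
  obtain ⟨t', h5, h6⟩ := side_K hK
  have := hP.simple
  have := CL.Uni.isSimpleGroup_PSU (n := 4) hK (by norm_num) (by norm_num)
  refine ⟨GaloisField 2 2, inferInstance, inferInstance, hK, h3.iso h5 h4 h6 (center_eq_bot hP.nonabelian)
    (center_eq_bot fun hc => ?_)⟩
  have h7 := h5.conj 0 3
  rw [hc.is_comm.comm (t' 0), mul_inv_cancel_right] at h7
  exact absurd (h6 h7) (by decide +kernel)

end CL.Low5
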