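/-
Project LOW5: the type `J₃(4)` does not occur.
-/
import Cfsg.Agent.Low5.Emb

set_option autoImplicit false
set_option linter.unusedSectionVars false
set_option linter.unnecessarySeqFocus false

namespace CL.Low5

open Matrix Cfsg Cfsg.Geo CL.Asch CL.SLn CL.Low Module

universe u

namespace J4A

section
variable {ι : Type} [Fintype ι] [DecidableEq ι] {F : Type u} [Field F] {k : ℕ} {Γ : Subgroup (GL ι F)}
  {u v w : ι → F} {φ ψ χ : Dual F (ι → F)} {e : Fin k → ι → F} {x : Fin k → Dual F (ι → F)}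

theorem in_pl (hb : Bi e x) {i j : Fin k} (hij : i ≠ j) (a b c d : F) :
    In ![e i, e j] ![x i, x j] (a • e i + b • e j) (c • x i + d • x j) := by
  simp [In, pr, prD, Fin.sum_univ_two, hb.apply, hij, hij.symm]

theorem mon_plane (hb : Bi e x) (hw : Mon e x w χ) {i j : Fin k} (hij : i ≠ j) {a b : F}
    (ha : a ≠ 0) (hb' : b ≠ 0) :
    (a⁻¹ • x i + b⁻¹ • x j) w * χ (a • e i + b • e j) = 0 ∨ (a⁻¹ • x i + b⁻¹ • x j) w * χ (a • e i + b • e j) = 1 ∨
      In ![e i, e j] ![x i, x j] w χ := by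
  rcases hw with ⟨m, c, hc, rfl, rfl⟩ | ⟨m, n, c, d, hmn, hc, hd, rfl, rfl⟩
  · by_cases h1 : m = i
    · subst h1
      exact .inr (.inr (by simpa using in_pl hb hij c 0 (2 / c) 0))
    by_cases h3 : m = j
    · subst h3
      exact .inr (.inr (by simpa using in_pl hb hij 0 c 0 (2 / c)))
    exact .inl (by simp [hb.apply, h1, h3])
  · by_cases h1 : m = i
    · subst h1
      by_cases h3 : n = j
      · subst h3
        exact .inr (.inr (in_pl hb hij _ _ _ _))
      · refine .inr (.inl ?_)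
        simp [hb.apply, hij, hij.symm, hmn, hmn.symm, h3, Ne.symm h3]
        field_simp
    by_cases h3 : m = j
    · subst h3
      by_cases h4 : n = i
      · subst h4
        exact .inr (.inr (by rw [add_comm (c • _), add_comm (c⁻¹ • _)]; exact in_pl hb hij _ _ _ _))
      · refine .inr (.inl ?_)
        simp [hb.apply, hij, hij.symm, hmn, hmn.symm, h4, Ne.symm h4]
        field_simp
    by_cases h4 : n = i
    · subst h4
      refine .inr (.inl ?_)
      simp [hb.apply, hij, hij.symm, hmn, hmn.symm, h3, Ne.symm h3]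
      field_simp
    by_cases h5 : n = j
    · subst h5
      refine .inr (.inl ?_)
      simp [hb.apply, hij, hij.symm, hmn, hmn.symm, h1, Ne.symm h1]
      field_simp
    exact .inl (by simp [hb.apply, h1, h3, h4, h5])

theorem mon_val (h2 : (2 : F) ≠ 0) (hb : Bi e x) (hu : Mon e x u φ) (hv : Mon e x v ψ) (hw : Mon e x w χ)
    (t1 : φ u = 2) (t2 : ψ v = 2) (t3 : χ w = 2) (h0 : φ v * ψ u ≠ 0) (hs : ¬ SameRf u φ v ψ) (h : ψ w * χ v = 2)
    (hd : cdet u φ v ψ w χ ≠ 0) : φ v * ψ u = 1 ∨ φ v * ψ u = 2 := by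
  have h21 : (2 : F) ≠ 1 := fun e => one_ne_zero (α := F) (by linear_combination e)
  rcases hv with ⟨m, c, hc, rfl, rfl⟩ | ⟨i, j, a, b, hij, ha, hb', rfl, rfl⟩
  · rcases hu with ⟨n, d, hd', rfl, rfl⟩ | ⟨i, j, a, b, hij, ha, hb', rfl, rfl⟩
    · by_cases h1 : n = m
      · subst h1
        refine absurd ⟨c / d, div_ne_zero hc hd', ?_, ?_⟩ hs <;> match_scalars <;> field_simp
      · exact absurd (by simp [hb.apply, h1]) h0
    · by_cases h1 : i = m
      · subst h1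
        refine .inr ?_
        simp [hb.apply, hij, hij.symm]
        field_simp
      by_cases h3 : j = m
      · subst h3
        refine .inr ?_
        simp [hb.apply, hij, hij.symm]
        field_simp
      exact absurd (by simp [hb.apply, h1, h3]) h0
  · rcases mon_plane hb hu hij ha hb' with h1 | h1 | h1
    · exact absurd (by rw [mul_comm, h1]) h0
    · exact .inl (by rw [mul_comm, h1])
    rcases mon_plane hb hw hij ha hb' with h3 | h3 | h3
    · exact absurd (h.symm.trans h3) h2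
    · exact absurd (h.symm.trans h3) h21
    · exact absurd (cdet_of_plane t1 t2 t3 h1 (in_pl hb hij _ _ _ _) h3) hd

theorem in_refl_iff (t : ψ w = 2) (hw : In e x w ψ) : In e x (v - ψ v • w) (φ - φ w • ψ) ↔ In e x v φ := by
  refine ⟨fun h => ?_, hw.refl⟩
  convert hw.refl h using 1
  · simp only [map_sub, map_smul, t, smul_eq_mul]; module
  · simp only [LinearMap.sub_apply, LinearMap.smul_apply, t, smul_eq_mul]; module

end

variable {F : Type u} [Field F] {Γ : Subgroup (G F)} {e : Fin 3 → V F} {x : Fin 3 → Dual F (V F)}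

/-- `B2Out` for systems of any size. -/
def B2x (Γ : Subgroup (G F)) : Prop :=
  ∀ u φ v ψ w χ, Rf Γ u φ → Rf Γ v ψ → Rf Γ w χ → ψ w * χ v = 2 → Asym u φ v ψ w χ →
    (∀ (k : ℕ) (e : Fin k → V F) (x : Fin k → Dual F (V F)), In e x v ψ → In e x w χ → In e x u φ) ∨
    (cdet u φ v ψ w χ ≠ 0 ∧ (φ v * ψ u = 1 ∨ φ v * ψ u = 2) ∧ (φ w * χ u = 1 ∨ φ w * χ u = 2))

theorem b2x (ho : Od Γ) (hT : Triples Γ (fun _ _ => True) (fun e x => Framed Γ e x ∨ J4 Γ e x)) : B2x Γ := by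
  intro u φ v ψ w χ hu hv hw h hA
  have h2 := ho.two
  obtain ⟨⟨n1, n2⟩, ⟨n3, n4⟩, -⟩ := hA.ne ho.zsym hu hv hw
  have s1 := hA.not_same hu.two
  have s2 := hA.rotate.rotate.swap.not_same hu.two
  rcases hT u φ v ψ w χ hu hv hw hA with ⟨e₀, x₀, hai, i1, i2, i3, -⟩ | ⟨hd, e₀, x₀, -, i1, i2, i3, hB⟩
  · exact .inl fun k e x => in_of_plane hai.bi hv.two hw.two (fun e => h2 (by linear_combination h - e)) i2 i3 i1
  refine .inr ⟨hd, ?_⟩
  rcases hB with ⟨e', x', hb, -, hm⟩ | ⟨-, -, hc, -⟩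
  · exact ⟨mon_val h2 hb (hm _ _ hu i1) (hm _ _ hv i2) (hm _ _ hw i3) hu.two hv.two hw.two (mul_ne_zero n1 n2) s1 h hd,
      mon_val h2 hb (hm _ _ hu i1) (hm _ _ hw i3) (hm _ _ hv i2) hu.two hw.two hv.two (mul_ne_zero n3 n4) s2
        (by rw [mul_comm, h]) fun e => hd (by rw [cdet] at e ⊢; linear_combination e)⟩
  · exact ⟨((hc _ _ _ _ hu hv i1 i2).resolve_left (mul_ne_zero n1 n2)).imp_right fun h => h.resolve_right s1,
      ((hc _ _ _ _ hu hw i1 i3).resolve_left (mul_ne_zero n3 n4)).imp_right fun h => h.resolve_right s2⟩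

/-- The data on a frame of type `B₃`. -/
structure JC (Γ : Subgroup (G F)) (e : Fin 3 → V F) (x : Fin 3 → Dual F (V F)) : Prop where
  od : Od Γ
  b : BCfg Γ e x
  ai : AI Γ e x
  nh : ∀ i : F, i ^ 2 = -1 → NH Γ e x i
  cv : ∀ v φ w ψ, Rf Γ v φ → Rf Γ w ψ → In e x v φ → In e x w ψ →
    φ w * ψ v = 0 ∨ φ w * ψ v = 1 ∨ φ w * ψ v = 2 ∨ SameRf v φ w ψ
  b2 : B2x Γ
  seven : (7 : F) ≠ 0

/-- The coordinates of a reflection; `B` says whether it lies on the span of the frame. -/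
def Q (Γ : Subgroup (G F)) (e : Fin 3 → V F) (x : Fin 3 → Dual F (V F)) (B : Prop) (a0 a1 a2 c0 c1 c2 : F) : Prop :=
  ∃ v φ, Rf Γ v φ ∧ (In e x v φ ↔ B) ∧ x 0 v = a0 ∧ x 1 v = a1 ∧ x 2 v = a2 ∧
    2 * φ (e 0) = c0 ∧ 2 * φ (e 1) = c1 ∧ 2 * φ (e 2) = c2

/-- The possible coordinates on a pair of indices. -/
def PO (a0 a1 c0 c1 : F) : Prop :=
  c0 * a1 = c1 * a0 ∨ (a0 * c0 = 1 ∧ a1 * c1 = 1 ∧ c0 * a1 + c1 * a0 = 0) ∨
    (a0 * c0 = 1 ∧ a1 * c1 = 2 ∧ (c0 * a1 + c1 * a0) ^ 2 = 1) ∨ (a0 * c0 = 2 ∧ a1 * c1 = 1 ∧ (c0 * a1 + c1 * a0) ^ 2 = 1)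

variable {B : Prop} {a0 a1 a2 c0 c1 c2 : F}

theorem pr3 (φ : Dual F (V F)) (y : V F) :
    φ (pr e x y) = φ (e 0) * x 0 y + φ (e 1) * x 1 y + φ (e 2) * x 2 y := by rw [apply_pr, Fin.sum_univ_three]

theorem Q.of {v : V F} {φ : Dual F (V F)} (h : Rf Γ v φ) :
    Q Γ e x (In e x v φ) (x 0 v) (x 1 v) (x 2 v) (2 * φ (e 0)) (2 * φ (e 1)) (2 * φ (e 2)) :=
  ⟨v, φ, h, Iff.rfl, rfl, rfl, rfl, rfl, rfl, rfl⟩

theorem Q.iff {B' : Prop} (h : Q Γ e x B a0 a1 a2 c0 c1 c2) (hB : B ↔ B') : Q Γ e x B' a0 a1 a2 c0 c1 c2 :=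
  propext hB ▸ h

theorem Q.refl {d0 d1 d2 f0 f1 f2 A A' : F} (h2 : (2 : F) ≠ 0) (hw : Q Γ e x True d0 d1 d2 f0 f1 f2)
    (hv : Q Γ e x B a0 a1 a2 c0 c1 c2) (hA' : 2 * A' = f0 * a0 + f1 * a1 + f2 * a2)
    (hA : 2 * A = c0 * d0 + c1 * d1 + c2 * d2) :
    Q Γ e x B (a0 - A' * d0) (a1 - A' * d1) (a2 - A' * d2) (c0 - A * f0) (c1 - A * f1) (c2 - A * f2) := by
  obtain ⟨w, ψ, hw, iw, rfl, rfl, rfl, rfl, rfl, rfl⟩ := hw
  obtain ⟨v, φ, hv, iv, rfl, rfl, rfl, rfl, rfl, rfl⟩ := hv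
  have iw := iw.2 trivial
  obtain rfl : A' = ψ v := mul_left_cancel₀ h2 (by rw [hA', ← (in_iff.1 iw).2 v, pr3]; ring)
  obtain rfl : A = φ w := mul_left_cancel₀ h2 (by rw [hA, ← congrArg φ iw.1, pr3]; ring)
  refine ⟨_, _, hw.refl hv, (in_refl_iff hw.two iw).trans iv, ?_, ?_, ?_, ?_, ?_, ?_⟩ <;>
    simp only [map_sub, map_smul, LinearMap.sub_apply, LinearMap.smul_apply, smul_eq_mul] <;> ring

theorem Q.sc (h : Q Γ e x B a0 a1 a2 c0 c1 c2) {t t' : F} (ht : t' * t = 1) :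
    Q Γ e x B (t * a0) (t * a1) (t * a2) (t' * c0) (t' * c1) (t' * c2) := by
  obtain ⟨v, φ, hv, iv, rfl, rfl, rfl, rfl, rfl, rfl⟩ := h
  have h0 := right_ne_zero_of_mul_eq_one ht
  obtain rfl := eq_inv_of_mul_eq_one_left ht
  have s : SameRf v φ (t • v) (t⁻¹ • φ) := ⟨t, h0, rfl, rfl⟩
  refine ⟨_, _, hv.smul h0, Iff.trans ⟨fun h => h.same s.symm, fun h => h.same s⟩ iv, ?_, ?_, ?_, ?_, ?_, ?_⟩ <;>
    simp only [map_smul, LinearMap.smul_apply, smul_eq_mul] <;> ring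

theorem Q.rf (h2 : (2 : F) ≠ 0) (h : Q Γ e x True a0 a1 a2 c0 c1 c2) :
    Rf Γ (a0 • e 0 + a1 • e 1 + a2 • e 2) ((2 : F)⁻¹ • (c0 • x 0 + c1 • x 1 + c2 • x 2)) := by
  obtain ⟨v, φ, hv, iv, rfl, rfl, rfl, rfl, rfl, rfl⟩ := h
  have iv := iv.2 trivial
  convert hv using 1
  · exact (Fin.sum_univ_three fun i => x i v • e i).symm.trans iv.1
  · refine Eq.trans ?_ ((Fin.sum_univ_three fun i => φ (e i) • x i).symm.trans iv.2)
    match_scalars <;> field_simp

theorem Q.sum (h : Q Γ e x True a0 a1 a2 c0 c1 c2) : a0 * c0 + a1 * c1 + a2 * c2 = 4 := by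
  obtain ⟨v, φ, hv, iv, rfl, rfl, rfl, rfl, rfl, rfl⟩ := h
  have := hv.two
  rw [← (iv.2 trivial).1, pr3] at this
  linear_combination 2 * this

namespace JC

variable (h : JC Γ e x)
include h

theorem two : (2 : F) ≠ 0 := h.od.two

theorem in_r (i : Fin 3) : In e x (e i) ((2 : F) • x i) := ⟨h.b.bi.pr_e i, by rw [prD_smul, h.b.bi.prD_x]⟩

theorem in_m (i j : Fin 3) : In e x (e i - e j) (x i - x j) := by simpa using h.b.bi.in_swap i j 1 1

theorem in_p (i j : Fin 3) : In e x (e i + e j) (x i + x j) := 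
  ⟨by rw [pr_add, h.b.bi.pr_e, h.b.bi.pr_e], by rw [prD_add, h.b.bi.prD_x, h.b.bi.prD_x]⟩

theorem s01 (q : Q Γ e x B a0 a1 a2 c0 c1 c2) : Q Γ e x B a1 a0 a2 c1 c0 c2 := by
  have h2 := h.two
  have : Q Γ e x True 1 (-1) 0 2 (-2) 0 := by
    simpa [h.b.bi.apply] using (Q.of (h.b.minus 0 1 (by decide))).iff (iff_true_intro (h.in_m 0 1))
  convert this.refl h2 q (A' := a0 - a1) (A := (c0 - c1) / 2) (by ring) (by field_simp; ring) using 1 <;>
    field_simp <;> ring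

theorem s12 (q : Q Γ e x B a0 a1 a2 c0 c1 c2) : Q Γ e x B a0 a2 a1 c0 c2 c1 := by
  have h2 := h.two
  have : Q Γ e x True 0 1 (-1) 0 2 (-2) := by
    simpa [h.b.bi.apply] using (Q.of (h.b.minus 1 2 (by decide))).iff (iff_true_intro (h.in_m 1 2))
  convert this.refl h2 q (A' := a1 - a2) (A := (c1 - c2) / 2) (by ring) (by field_simp; ring) using 1 <;>
    field_simp <;> ring

theorem sg2 (q : Q Γ e x B a0 a1 a2 c0 c1 c2) {s : F} (hs : s ^ 2 = 1) : Q Γ e x B a0 a1 (s * a2) c0 c1 (s * c2) := by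
  have h2 := h.two
  rcases sq_eq_one_iff.1 hs with rfl | rfl
  · simpa using q
  have : Q Γ e x True 0 0 1 0 0 (2 * 2) := by
    simpa [h.b.bi.apply] using (Q.of (h.b.short 2)).iff (iff_true_intro (h.in_r 2))
  convert this.refl h2 q (A' := 2 * a2) (A := c2 / 2) (by ring) (by field_simp; ring) using 1 <;>
    field_simp <;> ring

theorem sg1 (q : Q Γ e x B a0 a1 a2 c0 c1 c2) {s : F} (hs : s ^ 2 = 1) : Q Γ e x B a0 (s * a1) a2 c0 (s * c1) c2 :=
  h.s12 (h.sg2 (h.s12 q) hs)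

theorem dl' (q : Q Γ e x B a0 a1 a2 c0 c1 c2) (hs : a0 * c0 + a1 * c1 + a2 * c2 = 4) : B := by
  obtain ⟨v, φ, hv, iv, rfl, rfl, rfl, rfl, rfl, rfl⟩ := q
  obtain ⟨g0, m0, e0⟩ := (h.b.short 0).mem
  obtain ⟨g1, m1, e1⟩ := (h.b.short 1).mem
  obtain ⟨g2, m2, e2⟩ := (h.b.short 2).mem
  refine iv.1 (dl h.two h.od.noTv h.ai (a := -1) (h := g0 * g1 * g2) (fun y => ?_)
    (nrm_of_mem (Γ.mul_mem (Γ.mul_mem m0 m1) m2)) (fun e => h.two (by linear_combination -e)) hv
    (mul_left_cancel₀ h.two (by rw [pr3]; linear_combination hs)))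
  simp [mul_smul, e0, e1, e2, h.b.bi.apply, pr, Fin.sum_univ_three]
  module

theorem not_hom {u : V F} {φ : Dual F (V F)} (hu : Rf Γ u φ) (hi : In ![e 0, e 1] ![x 0, x 1] u φ)
    (h0 : φ (e 0) * x 0 u = 1) (h1 : φ (e 1) * x 1 u = 1) (hσ : φ (e 0) * x 1 u + φ (e 1) * x 0 u = 0) : False := by
  have hb := h.b.bi
  have eu : u = x 0 u • e 0 + x 1 u • e 1 := by simpa [pr, Fin.sum_univ_two] using hi.1.symm
  have eφ : φ = φ (e 0) • x 0 + φ (e 1) • x 1 := by simpa [prD, Fin.sum_univ_two] using hi.2.symm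
  have iu : In e x u φ := hi.of_sub (fun i => by fin_cases i <;> exact hb.pr_e _) fun i => by
    fin_cases i <;> exact hb.prD_x _
  generalize x 0 u = a, x 1 u = b, φ (e 0) = p, φ (e 1) = q at eu eφ h0 h1 hσ
  subst eu eφ
  have hι : (p * b) ^ 2 = -1 := by linear_combination (p * b) * hσ - (q * b) * h0 - h1
  obtain ⟨g0, m0, e0⟩ := ((h.b.short 0).KG (h.in_r 0)).mem
  obtain ⟨g1, m1, e1⟩ := ((h.b.minus 0 1 (by decide)).KG (h.in_m 0 1)).mem
  obtain ⟨g2, m2, e2⟩ := (hu.KG iu).mem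
  have hm := mul_mem (mul_mem m0 m1) m2
  obtain ⟨g, hg⟩ := exists_homology (hb.diag 2) (a := -(p * b)) (fun e => by
    rw [neg_eq_zero.1 e] at hι; norm_num at hι)
  refine h.nh (-(p * b)) (by rw [neg_sq, hι]) (e 2) (x 2) g ⟨hb.pr_e 2, hb.prD_x 2⟩ (hb.diag 2) hg
    (Nrm.KG_congr (a := -(p * b)) hb (nrm_of_mem hm) (fun y => (pr_smul_of_mem hm hb y).1) (fun y => ?_) fun y => ?_)
  · rw [hg, hg, pr_add, pr_smul, hb.pr_e, hb.x_pr]
  · simp [mul_smul, hg, e0, e1, e2, hb.apply, pr, Fin.sum_univ_three]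
    match_scalars
    · linear_combination (x 0 y) * hι + (p * b * x 1 y) * h1
    · linear_combination -(p * b * x 0 y) * h0 - (x 1 y * (q * b)) * h0 - x 1 y * h1
    · ring

theorem po (q : Q Γ e x B a0 a1 a2 c0 c1 c2) : PO a0 a1 c0 c1 := by
  obtain ⟨u, φ, hu, -, rfl, rfl, rfl, rfl, rfl, rfl⟩ := q
  refine or_iff_not_imp_left.2 fun hS => ?_
  have h2 := h.two
  have h1 : (1 : F) ≠ 0 := one_ne_zero
  have hb := h.b.bi
  have key : ∀ i, i = 0 ∨ i = 1 → ∀ (s : F) (w : V F) (χ : Dual F (V F)), s ^ 2 = 1 → Rf Γ w χ → w = e 0 + s • e 1 →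
      χ = x 0 + s • x 1 → (φ (e i) * (2 * x i u) = 1 ∨ φ (e i) * (2 * x i u) = 2) ∧
        ((φ (e 0) + s * φ (e 1)) * (x 0 u + s * x 1 u) = 1 ∨ (φ (e 0) + s * φ (e 1)) * (x 0 u + s * x 1 u) = 2) ∧
        (In ![e 0, e 1] ![x 0, x 1] u φ ∨ φ (e 0) * x 0 u + φ (e 1) * x 1 u ≠ 2) := by
    rintro i hi s _ _ hs hw rfl rfl
    have s0 : s ≠ 0 := fun e => h1 (by rw [← hs, e]; ring)
    have hA : Asym u φ (e i) ((2 : F) • x i) (e 0 + s • e 1) (x 0 + s • x 1) := fun e' => by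
      rcases hi with rfl | rfl <;> simp [hb.apply] at e'
      · exact hS (mul_left_cancel₀ s0 (by linear_combination e'))
      · exact hS (mul_left_cancel₀ s0 (by
          linear_combination (-1 : F) * e'))
    have hc : ((2 : F) • x i) (e 0 + s • e 1) * (x 0 + s • x 1) (e i) = 2 := by
      rcases hi with rfl | rfl <;> simp [hb.apply]
      linear_combination 2 * hs
    obtain ⟨⟨n1, n2⟩, ⟨n3, n4⟩, -⟩ := hA.ne h.od.zsym hu (h.b.short i) hw
    rcases h.b2 _ _ _ _ _ _ hu (h.b.short i) hw hc hA with k | ⟨k1, k2, k3⟩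
    · have i1 : In e x (e 0 + s • e 1) (x 0 + s • x 1) :=
        ⟨by rw [pr_add, pr_smul, hb.pr_e, hb.pr_e], by rw [prD_add, prD_smul, hb.prD_x, hb.prD_x]⟩
      have iu := k 3 e x (h.in_r i) i1
      refine ⟨by
        simpa using ((h.cv _ _ _ _ hu (h.b.short i) iu (h.in_r i)).resolve_left (mul_ne_zero n1 n2)).imp_right
          fun h => h.resolve_right (hA.not_same hu.two), by
        simpa using ((h.cv _ _ _ _ hu hw iu i1).resolve_left (mul_ne_zero n3 n4)).imp_right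
          fun h => h.resolve_right (hA.rotate.rotate.swap.not_same hu.two), .inl (k 2 _ _ ?_ ?_)⟩
      · rcases hi with rfl | rfl
        · simpa using in_pl hb (i := 0) (j := 1) (by decide) 1 0 2 0
        · simpa using in_pl hb (i := 0) (j := 1) (by decide) 0 1 0 2
      · simpa using in_pl hb (i := 0) (j := 1) (by decide) 1 s 1 s
    · refine ⟨by simpa using k2, by simpa using k3, .inr fun e' => k1 ?_⟩
      rcases hi with rfl | rfl <;> simp [cdet, hb.apply]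
      · linear_combination (-2 : F) * e' - 2 * φ (e 1) * x 1 u * hs
      · linear_combination (-2 : F) * e' + (2 * φ (e 1) * x 1 u - 4) * hs
  obtain ⟨k0, kp, kd⟩ := key 0 (.inl rfl) 1 _ _ (by ring) (h.b.plus 0 1 (by decide)) (by simp) (by simp)
  obtain ⟨k1, km, -⟩ := key 1 (.inr rfl) (-1) _ _ (by ring) (h.b.minus 0 1 (by decide)) (by module) (by module)
  have hd : φ (e 0) * x 0 u + φ (e 1) * x 1 u ≠ 2 := by
    refine kd.elim (fun hi hs => ?_) id
    have t0 : φ (e 0) * x 0 u = 1 ∧ φ (e 1) * x 1 u = 1 := by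
      rcases k0 with k0 | k0 <;> rcases k1 with k1 | k1
      · exact absurd (by linear_combination k0 + k1 - 2 * hs) h2
      · exact absurd (by linear_combination k0 + k1 - 2 * hs) h1
      · exact absurd (by linear_combination k0 + k1 - 2 * hs) h1
      · exact ⟨mul_left_cancel₀ h2 (by linear_combination k0), mul_left_cancel₀ h2 (by linear_combination k1)⟩
    refine h.not_hom hu hi t0.1 t0.2 ?_
    rcases kp with kp | kp <;> rcases km with km | km
    · exact absurd (by linear_combination kp + km - 2 * hs) h2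
    · exact absurd (by linear_combination kp + km - 2 * hs) h1
    · exact absurd (by linear_combination kp + km - 2 * hs) h1
    · linear_combination kp - hs
  rcases k0 with k0 | k0 <;> rcases k1 with k1 | k1
  · refine .inl ⟨by linear_combination k0, by linear_combination k1, ?_⟩
    rcases kp with kp | kp <;> rcases km with km | km
    · linear_combination kp - km
    · exact absurd (by linear_combination k0 + k1 - kp - km) h1
    · exact absurd (by linear_combination k0 + k1 - kp - km) h1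
    · exact absurd (by linear_combination k0 + k1 - kp - km) h2
  · refine .inr (.inl ⟨by linear_combination k0, by linear_combination k1, ?_⟩)
    rcases kp with kp | kp <;> rcases km with km | km
    · exact absurd (by linear_combination kp + km - k0 - k1) h1
    · rw [show 2 * φ (e 0) * x 1 u + 2 * φ (e 1) * x 0 u = -1 by linear_combination kp - km]; ring
    · rw [show 2 * φ (e 0) * x 1 u + 2 * φ (e 1) * x 0 u = 1 by linear_combination kp - km]; ring
    · exact absurd (by linear_combination k0 + k1 - kp - km) h1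
  · refine .inr (.inr ⟨by linear_combination k0, by linear_combination k1, ?_⟩)
    rcases kp with kp | kp <;> rcases km with km | km
    · exact absurd (by linear_combination kp + km - k0 - k1) h1
    · rw [show 2 * φ (e 0) * x 1 u + 2 * φ (e 1) * x 0 u = -1 by linear_combination kp - km]; ring
    · rw [show 2 * φ (e 0) * x 1 u + 2 * φ (e 1) * x 0 u = 1 by linear_combination kp - km]; ring
    · exact absurd (by linear_combination k0 + k1 - kp - km) h1
  · exact absurd (mul_left_cancel₀ h2 (by linear_combination k0 + k1)) hd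

omit h in
/-- The normal forms. -/
def _root_.CL.Low5.J4A.Pat (Γ : Subgroup (G F)) (e : Fin 3 → V F) (x : Fin 3 → Dual F (V F)) (B : Prop) : Prop :=
  (∃ β β' : F, ((β ^ 2 = -1 ∧ β' = -β) ∨ (β ^ 2 + β + 2 = 0 ∧ β' = -1 - β)) ∧
    (Q Γ e x B 1 β 0 1 β' 0 ∨ Q Γ e x B 1 β β 1 β' β')) ∨
  (∃ β : F, β ^ 2 + β + 2 = 0 ∧ Q Γ e x B 1 1 β 1 1 (-1 - β)) ∨
  ((3 : F) = 0 ∧ ∃ i β : F, i ^ 2 = -1 ∧ β ^ 2 + β + 2 = 0 ∧ Q Γ e x B 1 i β 1 (-i) (-1 - β))

theorem patMJ {i a c : F} (q : Q Γ e x B 1 i a 1 (-i) c) (hi : i ^ 2 = -1) (h1 : a * c = 2) (h3 : (a + c) ^ 2 = 1) :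
    Pat Γ e x B := by
  have h2 := h.two
  have o : (1 : F) ≠ 0 := one_ne_zero
  have i0 : i ≠ 0 := fun e => o (by rw [e] at hi; linear_combination hi)
  refine .inr (.inr ⟨?_, i, -(a + c) * a, hi, by linear_combination (a ^ 2 + a * (a + c) * 0) * h3 - h1, ?_⟩)
  · rcases h.po (h.s01 (h.s12 (h.s01 q))) with k | k | k | k
    · have : a + c = 0 := mul_left_cancel₀ i0 (by linear_combination k)
      exact absurd (by rw [this] at h3; linear_combination -h3) o
    · exact absurd (by linear_combination k.1 - h1) o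
    · exact absurd (by linear_combination k.1 - h1) o
    · exact mul_left_cancel₀ h2 (by linear_combination h3 + k.2.2 - (a - c) ^ 2 * hi - 4 * h1)
  · convert h.sg2 q (s := -(a + c)) (by linear_combination h3) using 1
    linear_combination h3

theorem patM {i a c : F} (q : Q Γ e x B 1 i a 1 (-i) c) (hi : i ^ 2 = -1) : Pat Γ e x B := by
  have h2 := h.two
  have o : (1 : F) ≠ 0 := one_ne_zero
  have i0 : i ≠ 0 := fun e => o (by rw [e] at hi; linear_combination hi)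
  rcases h.po (h.s12 q) with k | k | k | k
  · obtain rfl : a = c := by linear_combination k
    rcases h.po (h.s01 (h.s12 (h.s01 q))) with l | l | l | l
    · obtain rfl : a = 0 := mul_left_cancel₀ (mul_ne_zero h2 i0) (by linear_combination l)
      exact .inl ⟨i, -i, .inl ⟨hi, rfl⟩, .inl q⟩
    · refine .inl ⟨-i, i, .inl ⟨by rw [neg_sq, hi], by ring⟩, .inr ?_⟩
      convert (h.sg2 (h.s01 q) (s := a) (by linear_combination l.1)).sc (t := -i) (t' := i) (by linear_combination -hi)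
        using 1
      · linear_combination hi
      · ring
      · linear_combination i * l.1
      · linear_combination hi
      · ring
      · linear_combination -i * l.1
    · exact absurd (by linear_combination -l.2.1 - hi) o
    · exact absurd (by linear_combination -l.2.2) o
  · obtain rfl : c = -a := by linear_combination k.2.2
    refine .inl ⟨i, -i, .inl ⟨hi, rfl⟩, .inr ?_⟩
    convert h.sg2 q (s := -a * i) (by linear_combination a ^ 2 * hi + k.2.1) using 1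
    · linear_combination -i * k.2.1
    · linear_combination i * k.2.1
  · exact h.patMJ q hi k.2.1 (by linear_combination k.2.2)
  · exact absurd (by linear_combination -k.1) o

theorem patJ {b a c : F} (q : Q Γ e x B 1 b a 1 (-1 - b) c) (hb : b ^ 2 + b + 2 = 0) : Pat Γ e x B := by
  have h2 := h.two
  have o : (1 : F) ≠ 0 := one_ne_zero
  have b0 : 2 * b + 1 ≠ 0 := fun e => h.seven (by linear_combination 4 * hb - (2 * b + 1) * e)
  have l := h.po (h.s01 (h.s12 (h.s01 q)))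
  rcases h.po (h.s12 q) with k | k | k | k
  · obtain rfl : a = c := by linear_combination k
    rcases l with l | l | l | l
    · obtain rfl : a = 0 := mul_left_cancel₀ b0 (by linear_combination l)
      exact .inl ⟨b, _, .inr ⟨hb, rfl⟩, .inl q⟩
    · exact absurd (by linear_combination l.2.1 + hb) o
    · refine .inr (.inl ⟨b, hb, ?_⟩)
      convert h.sg1 (h.s12 q) (s := a) (by linear_combination l.1) using 1 <;> linear_combination -l.1
    · exact absurd (by linear_combination l.2.1 + hb) o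
  · obtain rfl : c = -a := by linear_combination k.2.2
    exact h.patMJ (h.s12 q) (by linear_combination -k.2.1) (by linear_combination -hb) (by ring)
  · rcases l with l | l | l | l
    · refine .inl ⟨b, _, .inr ⟨hb, rfl⟩, .inr ?_⟩
      have a2 : a ^ 2 = b ^ 2 := mul_left_cancel₀ h2 (by
        linear_combination a ^ 2 * hb - a * b * l + b ^ 2 * k.2.1)
      convert h.sg2 q (s := a * (-1 - b) / 2) (by
        field_simp
        linear_combination (-1 - b) ^ 2 * a2 + (b ^ 2 + b - 2) * hb) using 1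
      · field_simp
        linear_combination (1 + b) * a2 + b * hb
      · field_simp
        linear_combination (1 + b) * k.2.1
    · exact absurd (by linear_combination l.1 - k.2.1) o
    · exact absurd (by linear_combination l.1 - k.2.1) o
    · exact absurd (by linear_combination l.2.1 + hb) o
  · exact absurd (by linear_combination -k.1) o

theorem pat0 (q : Q Γ e x B a0 a1 a2 c0 c1 c2) (h0 : a0 * c0 = 1) (hS : c0 * a1 ≠ c1 * a0) : Pat Γ e x B := by
  have q' : Q Γ e x B 1 (c0 * a1) (c0 * a2) 1 (a0 * c1) (a0 * c2) := by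
    convert q.sc (t := c0) (t' := a0) h0 using 1 <;> linear_combination -h0
  rcases (h.po q).resolve_left hS with k | k | k
  · refine h.patM (i := c0 * a1) (a := c0 * a2) (c := a0 * c2) (by convert q' using 1; linear_combination -k.2.2) ?_
    linear_combination (c0 * a1) * k.2.2 - (a1 * c1) * h0 - k.2.1
  · refine h.patJ (b := -(c0 * a1 + c1 * a0) * (c0 * a1)) (a := c0 * a2) (c := a0 * c2) (by
      convert h.sg1 q' (s := -(c0 * a1 + c1 * a0)) (by linear_combination k.2.2) using 1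
      linear_combination k.2.2) ?_
    linear_combination (c0 * a1) ^ 2 * k.2.2 - (a1 * c1) * h0 - k.2.1
  · exact absurd (by linear_combination h0 - k.1) (one_ne_zero (α := F))

theorem pat (q : Q Γ e x B a0 a1 a2 c0 c1 c2) (hS : c0 * a1 ≠ c1 * a0) : Pat Γ e x B := by
  rcases (h.po q).resolve_left hS with k | k | k
  · exact h.pat0 q k.1 hS
  · exact h.pat0 q k.1 hS
  · exact h.pat0 (h.s01 q) k.2.1 hS.symm

theorem allS (hB : ¬ Pat Γ e x B) (q : Q Γ e x B a0 a1 a2 c0 c1 c2) :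
    c0 * a1 = c1 * a0 ∧ c0 * a2 = c2 * a0 ∧ c1 * a2 = c2 * a1 :=
  ⟨by_contra fun e => hB (h.pat q e), by_contra fun e => hB (h.pat (h.s12 q) e),
    by_contra fun e => hB (h.pat (h.s12 (h.s01 q)) e)⟩

omit h in
theorem prop (k : c0 * a1 = c1 * a0 ∧ c0 * a2 = c2 * a0 ∧ c1 * a2 = c2 * a1) (h0 : ¬ (a0 = 0 ∧ a1 = 0 ∧ a2 = 0)) :
    ∃ μ, c0 = μ * a0 ∧ c1 = μ * a1 ∧ c2 = μ * a2 := by
  by_cases e0 : a0 = 0
  · by_cases e1 : a1 = 0
    · have e2 : a2 ≠ 0 := fun e => h0 ⟨e0, e1, e⟩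
      refine ⟨c2 / a2, ?_, ?_, ?_⟩ <;> field_simp
      · linear_combination k.2.1
      · linear_combination k.2.2
    · refine ⟨c1 / a1, ?_, ?_, ?_⟩ <;> field_simp
      · linear_combination k.1
      · linear_combination -k.2.2
  · refine ⟨c0 / a0, ?_, ?_, ?_⟩ <;> field_simp
    · linear_combination -k.1
    · linear_combination -k.2.1

theorem pat_true : Pat Γ e x True := by
  by_contra hB
  have key : ∀ v φ, Rf Γ v φ → In e x v φ → ∃ μ, ∀ y, pr e x y = y →
      2 * φ y = μ * (x 0 v * x 0 y + x 1 v * x 1 y + x 2 v * x 2 y) := fun v φ hv iv => by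
    obtain ⟨μ, m0, m1, m2⟩ := prop (h.allS hB ((Q.of hv).iff (iff_true_intro iv))) fun k => hv.ne (by
      rw [← iv.1, pr, Fin.sum_univ_three, k.1, k.2.1, k.2.2]; simp)
    refine ⟨μ, fun y hy => ?_⟩
    rw [← congrArg φ hy, pr3]
    linear_combination x 0 y * m0 + x 1 y * m1 + x 2 y * m2
  obtain ⟨u, φ, v, ψ, w, χ, a1, a2, a3, b1, b2, b3, hA⟩ := h.ai.asym
  obtain ⟨μ1, k1⟩ := key _ _ a1 b1
  obtain ⟨μ2, k2⟩ := key _ _ a2 b2
  obtain ⟨μ3, k3⟩ := key _ _ a3 b3
  refine hA (mul_left_cancel₀ (pow_ne_zero 3 h.two) ?_)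
  calc 2 ^ 3 * (φ v * ψ w * χ u) = (2 * φ v) * (2 * ψ w) * (2 * χ u) := by ring
    _ = (2 * φ w) * (2 * χ v) * (2 * ψ u) := by
      rw [k1 v b2.1, k2 w b3.1, k3 u b1.1, k1 w b3.1, k3 v b2.1, k2 u b1.1]; ring
    _ = _ := by ring

theorem fin0 {b μ : F} (hb : b ^ 2 + b + 2 = 0) (q0 : Q Γ e x True 1 1 b 1 1 (-1 - b)) (hB : ¬ Pat Γ e x B)
    (hμ : μ ≠ 0) (q : Q Γ e x B a0 a1 a2 (μ * a0) (μ * a1) (μ * a2)) : a0 = a1 ∨ (a2 = 0 ∧ a0 = -a1) := by
  have h2 := h.two
  have b0 : 2 * b + 1 ≠ 0 := fun e => h.seven (by linear_combination 4 * hb - (2 * b + 1) * e)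
  obtain ⟨A', hA'⟩ : ∃ A', 2 * A' = 1 * a0 + 1 * a1 + (-1 - b) * a2 := ⟨_, mul_div_cancel₀ _ h2⟩
  obtain ⟨A, hA⟩ : ∃ A, 2 * A = μ * a0 * 1 + μ * a1 * 1 + μ * a2 * b := ⟨_, mul_div_cancel₀ _ h2⟩
  obtain ⟨k1, k2, k3⟩ := h.allS hB (q0.refl h2 q hA' hA)
  refine or_iff_not_imp_left.2 fun e => ?_
  have n := mul_ne_zero (mul_ne_zero hμ (sub_ne_zero.2 e)) b0
  exact ⟨mul_left_cancel₀ n (by linear_combination 2 * k1 - (a0 - a1) * hA + μ * (a0 - a1) * hA'),
    mul_left_cancel₀ n (by linear_combination -2 * (k2 - k3) + (a0 - a1) * (-1 - b) * hA - μ * b * (a0 - a1) * hA')⟩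

theorem fin1 {b μ : F} (hb : b ^ 2 + b + 2 = 0) (q0 : Q Γ e x True 1 1 b 1 1 (-1 - b)) (hB : ¬ Pat Γ e x B)
    (hμ : μ ≠ 0) (q : Q Γ e x B a0 a1 a2 (μ * a0) (μ * a1) (μ * a2)) : a2 = 0 := by
  by_contra e
  have k1 := (h.fin0 hb q0 hB hμ q).resolve_right fun k => e k.1
  have k2 := (h.fin0 hb q0 hB hμ (a1 := -a1) (by simpa using h.sg1 q (s := -1) (by ring))).resolve_right fun k => e k.1
  have k3 : a1 = 0 := mul_left_cancel₀ h.two (by linear_combination k2 - k1)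
  rcases h.fin0 hb q0 hB hμ (h.s12 q) with k | k
  · exact e (by rw [← k, k1, k3])
  · exact e (by linear_combination k.2 - k1 - k3)

end JC

end J4A

open J4A in
theorem stepJ4 (hK : SubJ4K.{u}) : StepJ4.{u} := by
  intro F _ _ Γ ho h4 hT e₀ x₀ hA ⟨h7, hn, hc, e, x, hs, hb⟩
  have h : JC Γ e x := ⟨ho, hb, hA.congr hb.bi hs, fun i hi c ψ g h1 => by
    rw [hs.KG_eq]; exact hn i hi c ψ g (hs.in_iff.1 h1),
    fun v φ w ψ h1 h2 h3 h4 => hc v φ w ψ h1 h2 (hs.in_iff.1 h3) (hs.in_iff.1 h4), b2x ho hT, h7⟩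
  have h2 := h.two
  have o : (1 : F) ≠ 0 := one_ne_zero
  obtain ⟨K1, K2⟩ := hK F Γ ho h4 (fun u φ v ψ w χ a1 a2 a3 a4 a5 =>
    (h.b2 u φ v ψ w χ a1 a2 a3 a4 a5).imp_left fun k => k 3) h7 e x hb
  obtain ⟨b, hb', q0⟩ : ∃ b : F, b ^ 2 + b + 2 = 0 ∧ Q Γ e x True 1 1 b 1 1 (-1 - b) := by
    rcases h.pat_true with ⟨β, β', k, q⟩ | k | ⟨h3, i, β, hi, hβ, q⟩
    · rcases k with ⟨k, rfl⟩ | ⟨k, rfl⟩ <;> rcases q with q | q
      · exact absurd (by linear_combination -q.sum - k) h2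
      · exact absurd (by linear_combination -q.sum - 2 * k) o
      · exact absurd (by linear_combination -q.sum - k) o
      · exact absurd (by linear_combination q.sum + 2 * k) o
    · exact k
    · refine absurd ?_ (K1 i β h3 hi hβ)
      convert q.rf h2 using 1 <;> module
  have hB : ¬ J4A.Pat Γ e x False := by
    rintro (⟨β, β', k, q⟩ | ⟨β, k, q⟩ | ⟨h3, i, β, hi, hβ, q⟩)
    · rcases q with ⟨v, φ, hv, -, q0', q1, q2, q3, q4, q5⟩ | ⟨v, φ, hv, -, q0', q1, q2, q3, q4, q5⟩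
      · exact K2 b hb' (by simpa using q0.rf h2) v φ β β' hv k q0' q1 q3 q4
          (.inl ⟨q2, (mul_eq_zero.1 q5).resolve_left h2⟩)
      · exact K2 b hb' (by simpa using q0.rf h2) v φ β β' hv k q0' q1 q3 q4 (.inr ⟨q2, q5⟩)
    · exact h.dl' q (by linear_combination -k)
    · exact h.dl' q (by linear_combination -hi - hβ)
  obtain ⟨v, φ, hv, n1, n2⟩ := exists_moving ho.gen ho.irr hb.bi (by norm_num) (by rw [Fintype.card_fin]; decide)
  have q := (Q.of (e := e) (x := x) hv).iff (iff_false_intro fun k => n2 k.1)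
  have n3 : ¬ (x 0 v = 0 ∧ x 1 v = 0 ∧ x 2 v = 0) := fun k => n1 ((h.ai.pr_eq_zero_iff ho.zsym hv).1 (by
    rw [pr, Fin.sum_univ_three, k.1, k.2.1, k.2.2]; simp))
  obtain ⟨μ, m0, m1, m2⟩ := JC.prop (h.allS hB q) n3
  have hμ : μ ≠ 0 := fun e0 => n1 ((prD_eq_zero_iff hb.bi).2 fun i => by
    rw [e0, zero_mul] at m0 m1 m2
    fin_cases i
    exacts [(mul_eq_zero.1 m0).resolve_left h2, (mul_eq_zero.1 m1).resolve_left h2, (mul_eq_zero.1 m2).resolve_left h2])
  rw [m0, m1, m2] at q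
  exact n3 ⟨h.fin1 hb' q0 hB hμ (h.s12 (h.s01 q)), h.fin1 hb' q0 hB hμ (h.s12 q), h.fin1 hb' q0 hB hμ q⟩

end CL.Low5
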