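/-
Project LOW5: the explicit configurations over `W(B₃)` which cannot occur (J4K).
-/
import Cfsg.Agent.Low5.Emb

set_option autoImplicit false
set_option linter.unusedSectionVars false

namespace CL.Low5

open Matrix Cfsg Cfsg.Geo CL.Asch CL.SLn CL.Low Module

universe u

namespace J4K

variable {F : Type u} [Field F]

/-- the dot product -/
def D (p a : Fin 4 → F) : F := p 0 * a 0 + p 1 * a 1 + p 2 * a 2 + p 3 * a 3

/-- half of the dot product -/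
noncomputable def dt (p : Fin 4 → F) : Dual F (Fin 4 → F) := (2 : F)⁻¹ • Fintype.linearCombination F p

theorem dt_apply (p a : Fin 4 → F) : dt p a = 2⁻¹ * D p a := by
  simp [dt, D, Fintype.linearCombination_apply, Fin.sum_univ_four, mul_comm]

/-- the situation in coordinates -/
structure Env (K : Subgroup (GL (Fin 4) F)) : Prop where
  two : (2 : F) ≠ 0
  tv : ¬ HasTv K
  h4 : ∀ i : F, i ^ 2 = -1 → ∀ A ∈ K, ¬ ∀ z : Fin 4 → F, A • z = i • z
  pl : ∀ a p b q c r, Rf K a (dt p) → Rf K b (dt q) → Rf K c (dt r) → a 3 ≠ 0 → b 3 = 0 → q 3 = 0 → c 3 = 0 →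
    r 3 = 0 → dt q c * dt r b = 2 → Asym a (dt p) b (dt q) c (dt r) → cdet a (dt p) b (dt q) c (dt r) ≠ 0 ∧
      (dt p b * dt q a = 1 ∨ dt p b * dt q a = 2) ∧ (dt p c * dt r a = 1 ∨ dt p c * dt r a = 2)
  r0 : Rf K ![1, 0, 0, 0] (dt ![4, 0, 0, 0])
  r1 : Rf K ![0, 1, 0, 0] (dt ![0, 4, 0, 0])
  r2 : Rf K ![0, 0, 1, 0] (dt ![0, 0, 4, 0])
  m01 : Rf K ![1, -1, 0, 0] (dt ![2, -2, 0, 0])
  m02 : Rf K ![1, 0, -1, 0] (dt ![2, 0, -2, 0])
  p01 : Rf K ![1, 1, 0, 0] (dt ![2, 2, 0, 0])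
  p02 : Rf K ![1, 0, 1, 0] (dt ![2, 0, 2, 0])
  p12 : Rf K ![0, 1, 1, 0] (dt ![0, 2, 2, 0])

theorem setup {Γ : Subgroup (G F)} (o : Od Γ) (h4 : H4Free Γ) (hB : B2Out Γ) {e : Fin 3 → V F}
    {x : Fin 3 → Dual F (V F)} (c : BCfg Γ e x) {d : V F} {χ : Dual F (V F)} (h1 : ∀ i, x i d = 0)
    (h2 : ∀ i, χ (e i) = 0) (h3 : χ d = 1) : ∃ K, Env K ∧ ∀ (a p : Fin 4 → F) v φ, Rf Γ v φ →
      v = a 0 • e 0 + a 1 • e 1 + a 2 • e 2 + a 3 • d →
      φ = (2 : F)⁻¹ • (p 0 • x 0 + p 1 • x 1 + p 2 • x 2 + p 3 • χ) → Rf K a (dt p) := by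
  have hb : Bi ![e 0, e 1, e 2, d] ![x 0, x 1, x 2, χ] :=
    ⟨fun i => by fin_cases i <;> simp [c.bi.diag, h3], fun i j h => by
      fin_cases i <;> fin_cases j <;> simp [c.bi.apply, h1, h2] at h ⊢⟩
  have e1 : ∀ a : Fin 4 → F, up ![e 0, e 1, e 2, d] a = a 0 • e 0 + a 1 • e 1 + a 2 • e 2 + a 3 • d := fun a => by
    simp [up_apply, Fin.sum_univ_four]
  have e2 : ∀ p : Fin 4 → F, dt p ∘ₗ co ![x 0, x 1, x 2, χ] =
      (2 : F)⁻¹ • (p 0 • x 0 + p 1 • x 1 + p 2 • x 2 + p 3 • χ) := fun p => LinearMap.ext fun y => by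
    simp [dt_apply, D, mul_add]
  have k : ∀ (a p : Fin 4 → F) v φ, Rf Γ v φ → v = a 0 • e 0 + a 1 • e 1 + a 2 • e 2 + a 3 • d →
      φ = (2 : F)⁻¹ • (p 0 • x 0 + p 1 • x 1 + p 2 • x 2 + p 3 • χ) → Rf (KK Γ hb) a (dt p) := by
    rintro a p _ _ h rfl rfl
    rwa [rf_KK, e1, e2]
  have h2' := o.two
  have i1 : ∀ a p : Fin 4 → F, a 3 = 0 → p 3 = 0 → In e x (up ![e 0, e 1, e 2, d] a) (dt p ∘ₗ co ![x 0, x 1, x 2, χ]) :=
    fun a p h h' => by
      rw [e1, e2, h, h', zero_smul, zero_smul, add_zero, add_zero]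
      exact ⟨by simp only [pr_add, pr_smul, c.bi.pr_e], by simp only [prD_add, prD_smul, c.bi.prD_x]⟩
  refine ⟨_, ⟨o.two, noTv_KK hb o.noTv, fun i hi A hA h => h4 _ _ i hb o.two hi _ (KG_le hA) ((sc_emb hb).2 h),
    fun a p b q c' r ha hb' hc a3 b3 q3 c3 r3 h h' => ?_, k _ _ _ _ (c.short 0) ?_ ?_, k _ _ _ _ (c.short 1) ?_ ?_,
    k _ _ _ _ (c.short 2) ?_ ?_, k _ _ _ _ (c.minus 0 1 (by decide)) ?_ ?_, k _ _ _ _ (c.minus 0 2 (by decide)) ?_ ?_,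
    k _ _ _ _ (c.plus 0 1 (by decide)) ?_ ?_, k _ _ _ _ (c.plus 0 2 (by decide)) ?_ ?_,
    k _ _ _ _ (c.plus 1 2 (by decide)) ?_ ?_⟩, k⟩
  · rcases hB _ _ _ _ _ _ ((rf_KK hb).1 ha) ((rf_KK hb).1 hb') ((rf_KK hb).1 hc)
      (by simpa only [LinearMap.comp_apply, hb.co_up] using h)
      (by simpa only [Asym, LinearMap.comp_apply, hb.co_up] using h') with t | t
    · have := congrArg χ (t e x (i1 b q b3 q3) (i1 c' r c3 r3)).1
      rw [apply_pr, e1] at this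
      exact absurd (by simpa [h2, h3] using this.symm) a3
    · simpa only [cdet, LinearMap.comp_apply, hb.co_up] using t
  all_goals
    simp only [cons_val]
    match_scalars <;> field_simp <;> norm_num

variable {K : Subgroup (GL (Fin 4) F)}

theorem rfl' {a p b q a' p' : Fin 4 → F} (hb : Rf K b (dt q)) (ha : Rf K a (dt p))
    (h1 : ∀ i, a' i = a i - 2⁻¹ * D q a * b i) (h2 : ∀ i, p' i = p i - 2⁻¹ * D p b * q i) : Rf K a' (dt p') := by
  convert hb.refl ha using 1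
  · exact funext fun i => by simp [h1, dt_apply]
  · exact LinearMap.ext fun y => by simp only [LinearMap.sub_apply, LinearMap.smul_apply, dt_apply, D, h2, smul_eq_mul]; ring

namespace Env

variable (h : Env K) {a₀ a₁ a₂ a₃ p₀ p₁ p₂ p₃ : F}
include h

theorem n0 (k : Rf K ![a₀, a₁, a₂, a₃] (dt ![p₀, p₁, p₂, p₃])) : Rf K ![-a₀, a₁, a₂, a₃] (dt ![-p₀, p₁, p₂, p₃]) := by
  have := h.two
  refine rfl' h.r0 k ?_ ?_ <;> intro i <;> fin_cases i <;> simp [D] <;> field_simp <;> ring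
theorem n1 (k : Rf K ![a₀, a₁, a₂, a₃] (dt ![p₀, p₁, p₂, p₃])) : Rf K ![a₀, -a₁, a₂, a₃] (dt ![p₀, -p₁, p₂, p₃]) := by
  have := h.two
  refine rfl' h.r1 k ?_ ?_ <;> intro i <;> fin_cases i <;> simp [D] <;> field_simp <;> ring
theorem n2 (k : Rf K ![a₀, a₁, a₂, a₃] (dt ![p₀, p₁, p₂, p₃])) : Rf K ![a₀, a₁, -a₂, a₃] (dt ![p₀, p₁, -p₂, p₃]) := by
  have := h.two
  refine rfl' h.r2 k ?_ ?_ <;> intro i <;> fin_cases i <;> simp [D] <;> field_simp <;> ring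
theorem s01 (k : Rf K ![a₀, a₁, a₂, a₃] (dt ![p₀, p₁, p₂, p₃])) : Rf K ![a₁, a₀, a₂, a₃] (dt ![p₁, p₀, p₂, p₃]) := by
  have := h.two
  refine rfl' h.m01 k ?_ ?_ <;> intro i <;> fin_cases i <;> simp [D] <;> field_simp <;> ring
theorem s02 (k : Rf K ![a₀, a₁, a₂, a₃] (dt ![p₀, p₁, p₂, p₃])) : Rf K ![a₂, a₁, a₀, a₃] (dt ![p₂, p₁, p₀, p₃]) := by
  have := h.two
  refine rfl' h.m02 k ?_ ?_ <;> intro i <;> fin_cases i <;> simp [D] <;> field_simp <;> ring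

theorem plane {a p b q c r : Fin 4 → F} (ha : Rf K a (dt p)) (hb : Rf K b (dt q)) (hc : Rf K c (dt r)) (a3 : a 3 = 1)
    (b3 : b 3 = 0) (q3 : q 3 = 0) (c3 : c 3 = 0) (r3 : r 3 = 0) {s t₁ t₂ w : F} (hs : s ≠ 0)
    (h1 : D q c * D r b = 8 ∧ D p b * D q c * D r a - D p c * D r b * D q a = s ∧ D p b * D q a = t₁ ∧
      D p c * D r a = t₂ ∧ 32 - 4 * (t₁ + t₂) + D p b * D q c * D r a + D p c * D r b * D q a = w) :
    w ≠ 0 ∧ (t₁ = 4 ∨ t₁ = 8) ∧ (t₂ = 4 ∨ t₂ = 8) := by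
  obtain ⟨h1, rfl, rfl, rfl, rfl⟩ := h1
  have := h.two
  obtain ⟨k1, k2, k3⟩ := h.pl a p b q c r ha hb hc (a3 ▸ one_ne_zero) b3 q3 c3 r3
    (by simp only [dt_apply]; field_simp; linear_combination h1)
    (fun e => hs (by simp only [dt_apply] at e; field_simp at e; linear_combination e))
  simp only [cdet, dt_apply] at k1 k2 k3
  refine ⟨fun e => k1 ?_, k2.imp (fun e => ?_) fun e => ?_, k3.imp (fun e => ?_) fun e => ?_⟩
  · field_simp; linear_combination e - 4 * h1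
  all_goals field_simp at e; linear_combination e

end Env

/-- the Gaussian integers -/
abbrev Z := ℤ√(-1)

/-- twice the matrix of a reflection -/
def N (l : (Fin 4 → Z) × (Fin 4 → Z)) : Matrix (Fin 4) (Fin 4) (Z) :=
  of fun i j => (if i = j then 2 else 0) - l.1 i * l.2 j

theorem word0 (h2 : (2 : F) ≠ 0) (f : Z →+* F) (W : List ((Fin 4 → Z) × (Fin 4 → Z)))
    (hW : ∀ l ∈ W, Rf K (f ∘ l.1) (dt (f ∘ l.2))) :
    ∃ A ∈ K, ∀ z : Fin 4 → F, (2 : F) ^ W.length • A • z = ((W.map N).prod.map f) *ᵥ z := by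
  induction W with
  | nil => exact ⟨1, one_mem _, fun z => by simp⟩
  | cons l W ih =>
    obtain ⟨A, hA, eA⟩ := ih fun l m => hW l (List.mem_cons_of_mem _ m)
    obtain ⟨g, hg, eg⟩ := (hW l List.mem_cons_self).mem
    refine ⟨g * A, mul_mem hg hA, fun z => ?_⟩
    rw [List.map_cons, List.prod_cons, Matrix.map_mul, ← mulVec_mulVec, ← eA, List.length_cons, pow_succ', mul_smul,
      mul_smul, ← gsmul_smul g, eg]
    generalize (2 : F) ^ W.length • A • z = y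
    ext i
    simp only [mulVec, dotProduct, Fin.sum_univ_four, N, map_apply, of_apply, map_sub, map_mul, dt_apply, D,
      Pi.smul_apply, Pi.sub_apply, smul_eq_mul, Function.comp_apply, apply_ite f, map_zero, map_ofNat]
    fin_cases i <;> simp <;> field_simp <;> ring

theorem word (h2 : (2 : F) ≠ 0) {i : F} (hi : i ^ 2 = -1) {m : ℤ} (hm : (m : F) = 0)
    (W : List ((Fin 4 → Z) × (Fin 4 → Z))) (T : Matrix (Fin 4) (Fin 4) (Z))
    (hT : ∀ j k, m ∣ ((W.map N).prod j k - 2 ^ W.length * T j k).re ∧ m ∣ ((W.map N).prod j k - 2 ^ W.length * T j k).im)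
    (hW : ∀ l ∈ W, Rf K (fun j => (l.1 j).re + (l.1 j).im * i) (dt fun j => (l.2 j).re + (l.2 j).im * i)) :
    ∃ A ∈ K, ∀ z : Fin 4 → F, A • z = (of fun j k => ((T j k).re + (T j k).im * i : F)) *ᵥ z := by
  let f : Z →+* F := Zsqrtd.lift ⟨i, by rw [← pow_two, hi]; simp⟩
  have hf : ∀ z, f z = z.re + z.im * i := fun z => rfl
  obtain ⟨A, hA, e⟩ := word0 h2 f W hW
  refine ⟨A, hA, fun z => smul_right_injective _ (pow_ne_zero W.length h2) ((e z).trans ?_)⟩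
  simp only [← smul_mulVec]
  congr 1
  ext j k
  obtain ⟨⟨a, ha⟩, b, hb⟩ := hT j k
  have := hf ((W.map N).prod j k - 2 ^ W.length * T j k)
  rw [ha, hb, map_sub, map_mul, map_pow, map_ofNat, hf (T j k)] at this
  simp only [Int.cast_mul, hm, zero_mul, add_zero] at this
  exact sub_eq_zero.1 this

/-- the letters -/
def l (a b c d p q r s : Z) : (Fin 4 → Z) × (Fin 4 → Z) := (![a, b, c, d], ![p, q, r, s])

theorem rf_l {i : F} {a p : Fin 4 → F} {t : (Fin 4 → Z) × (Fin 4 → Z)} (h : Rf K a (dt p))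
    (e : ∀ j, (t.1 j).re + (t.1 j).im * i = a j ∧ (t.2 j).re + (t.2 j).im * i = p j) :
    Rf K (fun j => (t.1 j).re + (t.1 j).im * i) (dt fun j => (t.2 j).re + (t.2 j).im * i) := by
  rwa [funext fun j => (e j).1, funext fun j => (e j).2]

def w0 := l 1 0 0 0 4 0 0 0
def w1 := l 0 1 0 0 0 4 0 0
def wm := l 1 (-1) 0 0 2 (-2) 0 0
def wa := l 1 1 0 0 2 2 0 0
def wb := l 1 0 1 0 2 0 2 0
def wc := l 0 1 1 0 0 2 2 0
def u0 := l 1 1 ⟨1, 1⟩ 0 1 1 ⟨1, -1⟩ 0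
def u1 := l 1 ⟨0, 1⟩ ⟨0, 1⟩ 1 1 ⟨0, -1⟩ ⟨0, -1⟩ 1
def u2 := l 1 ⟨1, 1⟩ 0 1 1 ⟨1, -1⟩ 0 1
def u3 := l 1 ⟨1, -1⟩ ⟨1, -1⟩ 1 1 ⟨1, 1⟩ ⟨1, 1⟩ (-1)
def u4 := l 1 ⟨0, 1⟩ ⟨1, 1⟩ 0 1 ⟨0, -1⟩ ⟨1, -1⟩ 0
def u5 := l 1 ⟨0, 1⟩ ⟨1, -1⟩ 0 1 ⟨0, -1⟩ ⟨1, 1⟩ 0

theorem ne_of {a : F} (h : (2 : F) ≠ 0) (h3 : a ≠ 0) {k : ℕ} {b : F} (e : b = 2 ^ k * a) : b ≠ 0 :=
  e ▸ mul_ne_zero (pow_ne_zero k h) h3

namespace Env

variable (h : Env K) {i : F} (hi : i ^ 2 = -1)
include h hi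

theorem std : ∀ t ∈ [w0, w1, wm, wa, wb, wc],
    Rf K (fun j => (t.1 j).re + (t.1 j).im * i) (dt fun j => (t.2 j).re + (t.2 j).im * i) := by
  simp only [List.forall_mem_cons, List.not_mem_nil, false_imp_iff, implies_true, and_true]
  refine ⟨rf_l h.r0 ?_, rf_l h.r1 ?_, rf_l h.m01 ?_, rf_l h.p01 ?_, rf_l h.p02 ?_, rf_l h.p12 ?_⟩ <;> intro j <;>
    fin_cases j <;> simp [l, w0, w1, wm, wa, wb, wc]

theorem mms (k : Rf K ![1, i, i, 1] (dt ![1, -i, -i, 1])) : False := by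
  have s := h.std hi
  have k1 := rf_l (t := u1) (i := i) k fun j => by fin_cases j <;> simp [l, u1]
  obtain ⟨A, hA, e⟩ := word (K := K) h.two hi (m := 0) Int.cast_zero [w0, w1, wb, u1, wm, wb, u1, wa, wc, u1]
    (diagonal fun _ => ⟨0, 1⟩) (by decide +kernel) (by simp_all)
  exact h.h4 i hi A hA fun z => (e z).trans (by ext j; fin_cases j <;> simp [mulVec, dotProduct, Fin.sum_univ_four])

variable (h3 : (3 : F) = 0)
include h3

theorem j0 (k0 : Rf K ![1, 1, 1 + i, 0] (dt ![1, 1, 1 - i, 0])) (k : Rf K ![1, 1 + i, 0, 1] (dt ![1, 1 - i, 0, 1])) :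
    False := by
  have s := h.std hi
  have k1 := rf_l (t := u0) (i := i) k0 fun j => by fin_cases j <;> simp [l, u0, sub_eq_add_neg]
  have k2 := rf_l (t := u2) (i := i) k fun j => by fin_cases j <;> simp [l, u2, sub_eq_add_neg]
  obtain ⟨A, hA, e⟩ := word (K := K) h.two hi (m := 3) (by exact_mod_cast h3) [w0, u0, wc, u2, u0, wc, u2, w0, u0, u2]
    (diagonal fun _ => ⟨0, -1⟩) (by decide +kernel) (by simp_all)
  exact h.h4 (-i) (by rw [neg_sq, hi]) A hA fun z => (e z).trans (by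
    ext j; fin_cases j <;> simp [mulVec, dotProduct, Fin.sum_univ_four])

theorem jj (k0 : Rf K ![1, 1, 1 + i, 0] (dt ![1, 1, 1 - i, 0]))
    (k : Rf K ![1, 1 - i, 1 - i, 1] (dt ![1, 1 + i, 1 + i, -1])) : False := by
  have s := h.std hi
  have k1 := rf_l (t := u0) (i := i) k0 fun j => by fin_cases j <;> simp [l, u0, sub_eq_add_neg]
  have k2 := rf_l (t := u3) (i := i) k fun j => by fin_cases j <;> simp [l, u3, sub_eq_add_neg]
  obtain ⟨A, hA, e⟩ := word (K := K) h.two hi (m := 3) (by exact_mod_cast h3)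
    [w0, wa, u3, wm, wb, u3, u0, wb, u3, u0, w1, u3] (diagonal fun _ => ⟨0, 1⟩) (by decide +kernel) (by simp_all)
  exact h.h4 i hi A hA fun z => (e z).trans (by ext j; fin_cases j <;> simp [mulVec, dotProduct, Fin.sum_univ_four])

theorem p1a (k : Rf K ![1, i, 1 + i, 0] (dt ![1, -i, 1 - i, 0])) : False := by
  have s := h.std hi
  have k1 := rf_l (t := u4) (i := i) k fun j => by fin_cases j <;> simp [l, u4, sub_eq_add_neg]
  obtain ⟨A, hA, e⟩ := word (K := K) h.two hi (m := 3) (by exact_mod_cast h3) [wm, wb, u4, wm, wb, u4]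
    !![⟨1, -1⟩, ⟨0, -1⟩, ⟨0, 1⟩, 0; ⟨0, -1⟩, ⟨1, -1⟩, ⟨0, 1⟩, 0; ⟨0, 1⟩, ⟨0, 1⟩, ⟨1, -1⟩, 0; 0, 0, 0, 1]
    (by decide +kernel) (by simp_all)
  have h2 := h.two
  rcases not_tv (v := ![1, 1, -1, 0]) (φ := dt ![-2 * i, -2 * i, 2 * i, 0]) h.tv hA
    (by simp [dt_apply, D]; exact .inr (by linear_combination -2 * i * h3)) (fun z => (e z).trans (by
      ext j; fin_cases j <;> simp [mulVec, dotProduct, Fin.sum_univ_four, dt_apply, D] <;> field_simp <;> ring)) with a | a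
  · simpa using congrFun a 0
  · have := LinearMap.congr_fun a ![1, 0, 0, 0]
    simp [dt_apply, D, h2] at this
    simp [this] at hi

theorem p1b (k : Rf K ![1, i, 1 - i, 0] (dt ![1, -i, 1 + i, 0])) : False := by
  have s := h.std hi
  have k1 := rf_l (t := u5) (i := i) k fun j => by fin_cases j <;> simp [l, u5, sub_eq_add_neg]
  obtain ⟨A, hA, e⟩ := word (K := K) h.two hi (m := 3) (by exact_mod_cast h3) [wa, wb, u5, wa, wb, u5]
    !![⟨1, 1⟩, ⟨0, -1⟩, ⟨0, -1⟩, 0; ⟨0, -1⟩, ⟨1, 1⟩, ⟨0, 1⟩, 0; ⟨0, -1⟩, ⟨0, 1⟩, ⟨1, 1⟩, 0; 0, 0, 0, 1]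
    (by decide +kernel) (by simp_all)
  have h2 := h.two
  rcases not_tv (v := ![1, -1, -1, 0]) (φ := dt ![2 * i, -2 * i, -2 * i, 0]) h.tv hA
    (by simp [dt_apply, D]; exact .inr (by linear_combination 2 * i * h3)) (fun z => (e z).trans (by
      ext j; fin_cases j <;> simp [mulVec, dotProduct, Fin.sum_univ_four, dt_apply, D] <;> field_simp <;> ring)) with a | a
  · simpa using congrFun a 0
  · have := LinearMap.congr_fun a ![1, 0, 0, 0]
    simp [dt_apply, D, h2] at this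
    simp [this] at hi

end Env

theorem cong {a₀ a₁ a₂ a₃ p₀ p₁ p₂ p₃ a₁' a₂' p₁' p₂' : F} (k : Rf K ![a₀, a₁, a₂, a₃] (dt ![p₀, p₁, p₂, p₃]))
    (h1 : a₁ = a₁') (h2 : a₂ = a₂') (h3 : p₁ = p₁') (h4 : p₂ = p₂') :
    Rf K ![a₀, a₁', a₂', a₃] (dt ![p₀, p₁', p₂', p₃]) := h1 ▸ h2 ▸ h3 ▸ h4 ▸ k

namespace Env

variable (h : Env K) (h7 : (7 : F) ≠ 0) {b : F} (hb : b ^ 2 + b + 2 = 0)
  (k0 : Rf K ![1, 1, b, 0] (dt ![1, 1, -1 - b, 0]))
include h h7 hb k0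

omit h k0 in
theorem hs : 1 + 2 * b ≠ 0 := fun e => h7 (by linear_combination 4 * hb - (1 + 2 * b) * e)

theorem caseM {β p : F} (hβ : β ^ 2 = -1) (k : Rf K ![1, β, 0, 1] (dt ![1, -β, 0, p])) : False := by
  have h2 := h.two
  have hs := hs h7 hb
  have hβ' : -β ≠ 0 := fun e => by simp [neg_eq_zero.1 e] at hβ
  have h3 : (3 : F) = 0 := by
    have := (h.plane k h.m02 (h.n2 (h.s01 (h.s02 (h.s01 k0)))) rfl rfl rfl rfl rfl (s := -4 * β) (t₁ := 2)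
      (t₂ := 3 - β - 2 * b * β) (w := 20) (ne_of h2 hβ' (k := 2) (by ring)) (by simp only [D, cons_val]; grind)).2.1
    exact this.elim (fun e => absurd (by linear_combination -e) h2)
      fun e => by_contra fun n => ne_of h2 n (k := 1) rfl (by linear_combination -e)
  rcases (show β = b - 1 ∨ β = 1 - b by grind) with rfl | rfl
  · exact (h.plane k (h.n2 (h.n1 (h.s02 k0))) h.p02 rfl rfl rfl rfl rfl hs (t₁ := 2) (t₂ := 2) (w := 0)
      (by simp only [D, cons_val]; grind)).1 rfl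
  · exact (h.plane k (h.n2 (h.s02 k0)) h.p02 rfl rfl rfl rfl rfl hs (t₁ := 2) (t₂ := 2) (w := 0)
      (by simp only [D, cons_val]; grind)).1 rfl

theorem caseJ {β : F} (hβ : β ^ 2 + β + 2 = 0) (k : Rf K ![1, β, 0, 1] (dt ![1, -1 - β, 0, 1])) : False := by
  have h2 := h.two
  rcases (show b = β ∨ β = -1 - b by grind) with rfl | rfl
  · have := (h.plane k h.r0 (h.n2 (h.n1 (h.s02 k0))) rfl rfl rfl rfl rfl (s := 4 + 8 * b) (t₁ := 4) (t₂ := 7) (w := 16)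
      (ne_of h2 (hs h7 hb) (k := 2) (by ring)) (by simp only [D, cons_val]; grind)).2.2
    have h3 : (3 : F) = 0 :=
      this.elim (fun e => by linear_combination e) fun e => absurd (by linear_combination -e) (one_ne_zero' F)
    exact h.j0 (i := b - 1) (by grind) h3 (cong k0 rfl (by ring) rfl (by grind)) (cong k (by ring) rfl (by grind) rfl)
  · have := h.plane k h.r1 (h.n2 (h.s01 (h.s02 (h.s01 k0)))) rfl rfl rfl rfl rfl (s := -4 - 8 * b) (t₁ := 8) (t₂ := 2)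
      (w := 12) (ne_of h2 (neg_ne_zero.2 (hs h7 hb)) (k := 2) (by ring)) (by simp only [D, cons_val]; grind)
    exact this.2.2.elim (fun e => h2 (by linear_combination -e)) fun e => this.1 (by linear_combination -2 * e)

theorem caseJJ {β : F} (hβ : β ^ 2 + β + 2 = 0) (k : Rf K ![1, β, β, 1] (dt ![1, -1 - β, -1 - β, -1])) : False := by
  have h2 := h.two
  rcases (show b = β ∨ β = -1 - b by grind) with rfl | rfl
  · exact (h.plane k h.r1 (h.n0 (h.s01 (h.s02 (h.s01 k0)))) rfl rfl rfl rfl rfl (s := 8 + 16 * b) (t₁ := 8) (t₂ := 2)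
      (w := 0) (ne_of h2 (hs h7 hb) (k := 3) (by ring)) (by simp only [D, cons_val]; grind)).1 rfl
  · have := (h.plane k h.p12 (h.n2 (h.s01 (h.s02 (h.s01 k0)))) rfl rfl rfl rfl rfl (s := -8 - 16 * b) (t₁ := 16)
      (t₂ := 7) (w := -4) (ne_of h2 (neg_ne_zero.2 (hs h7 hb)) (k := 3) (by ring)) (by simp only [D, cons_val]; grind)).2.1
    have h3 : (3 : F) = 0 := this.elim (fun e => by_contra fun n => ne_of h2 n (k := 2) rfl (by linear_combination e))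
      fun e => absurd (by linear_combination e) (pow_ne_zero 3 h2)
    exact h.jj (i := b - 1) (by grind) h3 (cong k0 rfl (by ring) rfl (by grind))
      (cong k (by grind) (by grind) (by ring) (by ring))

end Env

end J4K

open J4K in
theorem subJ4K : SubJ4K.{u} := by
  intro F _ _ Γ o h4 hB h7 e x c
  have h2 := o.two
  refine ⟨fun i β h3 hi hβ k => ?_, fun b hb k0 v φ β β' k hβ a0 a1 p0 p1 hc => ?_⟩
  · obtain ⟨d, χ, d1, d2, d3⟩ := c.bi.exists_snoc (by decide)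
    obtain ⟨K, h, l⟩ := setup o h4 hB c d1 d2 d3
    have k1 := l ![1, i, β, 0] ![1, -i, -1 - β, 0] _ _ k (by simp) (by simp only [cons_val]; module)
    rcases (show β = 1 + i ∨ β = 1 - i by grind) with rfl | rfl
    exacts [h.p1a hi h3 (cong k1 rfl rfl rfl (by grind)), h.p1b hi h3 (cong k1 rfl rfl rfl (by grind))]
  have main : ∀ y α π : F, y ≠ 0 → x 2 v = α → 2 * φ (e 2) = π → 4 - (1 + β * β' + α * π) = y →
      ∃ K, Env K ∧ Rf K ![1, 1, b, 0] (dt ![1, 1, -1 - b, 0]) ∧ Rf K ![1, β, α, 1] (dt ![1, β', π, y]) := by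
    rintro y α π hy rfl rfl ey
    have e1 : φ (pr e x v) = 2 - y / 2 := by
      rw [apply_pr, Fin.sum_univ_three, a0, a1, ← ey, ← p1]; field_simp; linear_combination p0
    obtain ⟨K, h, l⟩ := setup o h4 hB c (d := v - pr e x v) (χ := (2 / y) • (φ - prD e x φ))
      (fun i => by rw [map_sub, c.bi.x_pr, sub_self]) (fun i => by simp [c.bi.prD_e])
      (by simp only [LinearMap.smul_apply, LinearMap.sub_apply, prD_apply, map_sub, c.bi.pr_pr, k.two, e1,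
            smul_eq_mul]; field_simp; ring)
    refine ⟨K, h, l _ _ _ _ k0 (by simp) (by simp), l _ _ _ _ k ?_ ?_⟩
    · simp [pr, Fin.sum_univ_three, a0, a1]
    · simp only [cons_val, prD, Fin.sum_univ_three, ← p1]
      match_scalars <;> field_simp
      · linear_combination p0
      all_goals ring
  rcases hβ with ⟨hβ, rfl⟩ | ⟨hβ, rfl⟩ <;> rcases hc with ⟨c1, c2⟩ | ⟨c1, c2⟩
  · obtain ⟨K, h, k1, k2⟩ := main 2 0 0 h2 c1 (by rw [c2, mul_zero]) (by grind)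
    exact h.caseM h7 hb k1 hβ k2
  · obtain ⟨K, h, k1, k2⟩ := main 1 _ _ one_ne_zero c1 c2 (by grind)
    exact h.mms hβ k2
  · obtain ⟨K, h, k1, k2⟩ := main 1 0 0 one_ne_zero c1 (by rw [c2, mul_zero]) (by grind)
    exact h.caseJ h7 hb k1 hβ k2
  · obtain ⟨K, h, k1, k2⟩ := main (-1) _ _ (by simp) c1 c2 (by grind)
    exact h.caseJJ h7 hb k1 hβ k2

end CL.Low5
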