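/-
Project LOW5: primitive planes, the types `3 A₆`, `3 A₇`, and elements of order four with a hyperplane eigenspace
do not occur.
-/
import Cfsg.Agent.Low5.Emb

set_option autoImplicit false
set_option linter.unusedSectionVars false
set_option linter.unnecessarySeqFocus false

namespace CL.Low5

open Matrix Cfsg Cfsg.Geo CL.Asch CL.SLn CL.Low Module

universe u

namespace JWH4

variable {ι : Type} [Fintype ι] [DecidableEq ι] {F : Type u} [Field F] {k : ℕ} {Γ : Subgroup (GL ι F)}
  {u v w d : ι → F} {φ ψ χ : Dual F (ι → F)} {e : Fin k → ι → F} {x : Fin k → Dual F (ι → F)}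

theorem nq_mono {K L : Subgroup (GL ι F)} (h : NQ L) (hle : K ≤ L) : NQ K := fun a ha b hb =>
  h a (Subgroup.commutator_mono hle hle ha) b (Subgroup.commutator_mono hle hle hb)

/-- A normalising element that is a homology on the span of `e`. -/
theorem not_nh (hb : Bi e x) {R : GL ι F} (hR : Nrm Γ R) {a c : F} (ha : a ≠ 0) (e0 : pr e x w = w)
    (e1 : pr e x d = 0) (e2 : ∀ y, ψ (pr e x y) = ψ y) (e3 : ∀ y, χ (pr e x y) = 0) (e4 : ψ w = 1)
    (h : ∀ y, R • y = y + ((a - 1) * ψ y) • w + (c * χ y) • d) : ¬ NH Γ e x a := by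
  intro hn
  obtain ⟨g, hg⟩ := exists_homology e4 ha
  have hc : ∀ y, pr e x (R • y) = R • pr e x y := fun y => by
    rw [h, h, pr_add, pr_add, pr_smul, pr_smul, e0, e1, e2, e3, smul_zero, mul_zero, zero_smul]
  refine hn w ψ g (in_iff.2 ⟨e0, e2⟩) e4 hg (Nrm.KG_congr (a := 1) hb (hR.KG hc) hc (fun y => ?_) fun y => ?_)
  · rw [hg, hg, pr_add, pr_smul, e0, e2]
  · rw [hg, h, e3, mul_zero, zero_smul, add_zero, one_smul]

theorem pr_one (c : ι → F) (η : Dual F (ι → F)) (y : ι → F) : pr ![c] ![η] y = η y • c := by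
  simp [pr]

theorem prD_one (c : ι → F) (η : Dual F (ι → F)) (φ : Dual F (ι → F)) : prD ![c] ![η] φ = φ c • η := by
  simp [prD]

theorem pr_two (c c' : ι → F) (η η' : Dual F (ι → F)) (y : ι → F) :
    pr ![c, c'] ![η, η'] y = η y • c + η' y • c' := by
  simp [pr, Fin.sum_univ_two]

theorem bi_one {c : ι → F} {η : Dual F (ι → F)} (h : η c = 1) : Bi ![c] ![η] :=
  ⟨fun i => by fin_cases i; simpa using h, fun i j hij => absurd (Subsingleton.elim i j) hij⟩

/-- Two coordinates carrying homologies of order four that the reflection moves to each other. -/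
theorem mon_two (h2 : (2 : F) ≠ 0) (hT : ¬ HasTv Γ) (hb : Bi e x) {a : F} (ha : a ^ 2 = -1) {j l : Fin k}
    (hjl : j ≠ l) {g h : GL ι F} (hg : Nrm Γ g) (hh : Nrm Γ h) (eg : ∀ y, g • y = y + ((a - 1) * x j y) • e j)
    (eh : ∀ y, h • y = y + ((a - 1) * x l y) • e l) (hv : Rf Γ v φ) (h1 : φ (e j) * x j v = 1)
    (h3 : φ (e l) * x l v = 1) : Mon e x v φ := by
  have jj := hb.diag j
  have ll := hb.diag l
  have jl := hb.off j l hjl
  have lj := hb.off l j hjl.symm
  have egh : ∀ y, (g * h) • y = y + ((a - 1) * x j y) • e j + ((a - 1) * x l y) • e l := fun y => by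
    simp only [mul_smul, eg, eh, map_add, map_smul, jl, smul_eq_mul]; module
  have hr : Rf Γ ((x j v • e j + x l v • e l) + (v - (x j v • e j + x l v • e l)))
      ((φ (e j) • x j + φ (e l) • x l) + (φ - (φ (e j) • x j + φ (e l) • x l))) := by simpa using hv
  have ha2 : a ^ 2 ≠ 1 := fun e => h2 (by linear_combination ha - e)
  have key := dl2 h2 hT (hg.mul hh) hr ha2
    (by simp only [egh, map_add, map_smul, jj, ll, jl, lj, smul_eq_mul]; module)
    (by simp only [egh, map_add, map_sub, map_smul, jj, ll, jl, lj, smul_eq_mul]; module)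
    (fun y => by
      simp only [egh, map_add, map_smul, LinearMap.add_apply, LinearMap.smul_apply, jj, ll, jl, lj, smul_eq_mul]; ring)
    (fun y => by
      simp only [egh, map_add, map_smul, LinearMap.add_apply, LinearMap.sub_apply, LinearMap.smul_apply, jj, ll, jl, lj,
        smul_eq_mul]; ring)
    (by simp only [map_add, map_sub, map_smul, LinearMap.add_apply, LinearMap.smul_apply, jj, ll, jl, lj,
        smul_eq_mul]; ring)
    (by simp only [map_add, map_smul, LinearMap.add_apply, LinearMap.sub_apply, LinearMap.smul_apply, jj, ll, jl, lj,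
        smul_eq_mul]; ring)
    (by simp only [map_add, map_sub, map_smul, LinearMap.add_apply, LinearMap.sub_apply, LinearMap.smul_apply, jj, ll,
        jl, lj, smul_eq_mul, hv.two]; linear_combination (-1 : F) * h1 - h3)
  refine Or.inr ⟨j, l, x j v, x l v, hjl, right_ne_zero_of_mul_eq_one h1, right_ne_zero_of_mul_eq_one h3,
    sub_eq_zero.1 key.1, ?_⟩
  rw [← eq_inv_of_mul_eq_one_left h1, ← eq_inv_of_mul_eq_one_left h3]
  exact sub_eq_zero.1 key.2

/-- The frames whose lines are centres of normalising homologies of ratio `a`. -/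
def HF (Γ : Subgroup (GL ι F)) (a : F) (k : ℕ) (e : Fin k → ι → F) (x : Fin k → Dual F (ι → F)) : Prop :=
  Bi e x ∧ ∀ j, ∃ h, Nrm Γ h ∧ ∀ y, h • y = y + ((a - 1) * x j y) • e j

theorem HF.snoc {a : F} (hP : HF Γ a k e x) (hv : Rf Γ v φ) {j : Fin k} (h1 : φ (e j) * x j v = 1)
    (h0 : ∀ l, l ≠ j → x l v = 0 ∧ φ (e l) = 0) : ∃ e' x', HF Γ a (k + 1) e' x' := by
  obtain ⟨hb, hh⟩ := hP
  obtain ⟨s, hs, es⟩ := hv.mem
  have jj := hb.diag j
  refine ⟨Fin.snoc e (e j - φ (e j) • v), Fin.snoc x (x j - x j v • φ), hb.snoc (fun l => ?_) (fun l => ?_) ?_,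
    fun l => ?_⟩
  · by_cases hl : l = j
    · subst hl; simp only [map_sub, map_smul, jj, smul_eq_mul]; linear_combination -h1
    · simp only [map_sub, map_smul, hb.off l j hl, (h0 l hl).1, smul_eq_mul]; ring
  · by_cases hl : l = j
    · subst hl; simp only [LinearMap.sub_apply, LinearMap.smul_apply, jj, smul_eq_mul]; linear_combination -h1
    · simp only [LinearMap.sub_apply, LinearMap.smul_apply, hb.off j l (Ne.symm hl), (h0 l hl).2, smul_eq_mul]; ring
  · simp only [map_sub, map_smul, LinearMap.sub_apply, LinearMap.smul_apply, jj, hv.two, smul_eq_mul]; ring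
  · refine Fin.lastCases ?_ (fun l => ?_) l
    · obtain ⟨h, hn, eh⟩ := hh j
      refine ⟨s * h * s, ((nrm_of_mem hs).mul hn).mul (nrm_of_mem hs), fun y => ?_⟩
      simp only [Fin.snoc_last, mul_smul, es, eh, map_add, map_sub, map_smul, LinearMap.sub_apply, LinearMap.smul_apply,
        hv.two, smul_eq_mul]
      module
    · simpa only [Fin.snoc_castSucc] using hh l

end JWH4

open JWH4

theorem stepPrim : StepPrim.{u} := by
  intro hP h3 F _ _ Γ hΓ e x hA
  obtain ⟨⟨h, hh, hs⟩, hF | hQ⟩ := hP F Γ hΓ.two hΓ.noTv e x hA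
  · exact hF
  obtain ⟨v, φ, hv, h1, h2⟩ := exists_moving hΓ.gen hΓ.irr hA.bi two_pos (by simp)
  obtain ⟨d, χ, a1, a2, -, hA', -⟩ := hA.snoc hv (fun e0 => h1 ((hA.pr_eq_zero_iff hΓ.zsym hv).1 e0)) h1 fun e0 =>
    h2 (dl hΓ.two hΓ.noTv hA hs (nrm_of_mem hh) (fun e1 => hΓ.two (by linear_combination -e1)) hv e0).1
  exact absurd (nq_mono (h3 F Γ hΓ.two hΓ.noTv _ _ hA').1 (KG_mono fun v φ h => h.snoc a1 a2)) hQ

theorem stepJW : StepJW.{u} := by
  rintro F _ _ Γ hΓ hQ e x hA ⟨h3, hi, hω, ω, eω, h, hh, hs⟩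
  have hb := hA.bi
  obtain ⟨v, φ, hv, h1, h2⟩ := exists_moving hΓ.gen hΓ.irr hb three_pos (by simp)
  have key := hQ 3 e x ω h hb hs (nrm_of_mem hh) (Or.inl ⟨eω, h3⟩) v φ hv
  set w := pr e x v with hw
  set ψ := prD e x φ with hψ
  set d := v - w with hd
  set χ := φ - ψ with hχ
  have e0 : pr e x w = w := hb.pr_pr v
  have e1 : pr e x d = 0 := by rw [hd, pr_sub, e0, sub_self]
  have e2 : ∀ y, ψ (pr e x y) = ψ y := fun y => by rw [hψ, prD_apply, prD_apply, hb.pr_pr]
  have e3 : ∀ y, χ (pr e x y) = 0 := fun y => by rw [hχ, LinearMap.sub_apply, hψ, prD_apply, hb.pr_pr, sub_self]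
  have e4 : ψ d = 0 := by rw [← e2, e1, map_zero]
  have e5 : χ w = 0 := e3 v
  have e6 : ψ w = φ w := by rw [hψ, prD_apply, e0]
  have hω3 : ω ^ 3 = 1 := by linear_combination (ω - 1) * eω
  have hω0 : ω ≠ 0 := fun e => by simp [e] at eω
  rcases key with key | key | key | ⟨-, k0, k2, i, ei, g, hg, eg⟩
  · exact h1 key.2
  · exact h2 key.1
  · rw [key] at e6
    have hr : Rf Γ (w + d) (ψ + χ) := by simpa [hd, hχ] using hv
    have e7 : χ d = 1 := by
      have := hr.two
      simp only [map_add, LinearMap.add_apply, e4, e5, e6] at this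
      linear_combination this
    have e8 : ∀ y, ψ (h • y) = ω * ψ y := fun y => by rw [hs, map_add, map_smul, e2, smul_eq_mul]; ring
    have e9 : ∀ y, χ (h • y) = χ y := fun y => by rw [hs, map_add, map_smul, e3, smul_zero, add_zero]
    have hr' := hr.nrm' (nrm_of_mem hh) (ψ := ω ^ 2 • ψ + χ) fun y => by
      simp only [LinearMap.add_apply, LinearMap.smul_apply, e8, e9, smul_eq_mul]
      linear_combination ψ y * hω3
    rw [smul_add, hs.eig e0, hs.fix e1] at hr'
    obtain ⟨s, hs1, es⟩ := hr.mem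
    obtain ⟨t, ht1, et⟩ := hr'.mem
    refine not_nh hb (nrm_of_mem (Γ.mul_mem hs1 ht1)) (pow_ne_zero 2 hω0) (c := ω - 1) e0 e1 e2 e3 e6 (fun y => ?_)
      (hω (ω ^ 2) (by linear_combination (ω ^ 2 - ω + 1) * eω))
    simp only [mul_smul, es, et, map_add, map_sub, map_smul, LinearMap.add_apply, LinearMap.smul_apply, e4, e5, e6, e7,
      smul_eq_mul]
    match_scalars
    · ring
    · linear_combination (-ψ y) * hω3
    · linear_combination ψ y * hω3
  · have hi0 : i ≠ 0 := fun e => by simp [e] at ei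
    refine not_nh hb (nrm_of_mem hg) hi0 (ψ := (φ w)⁻¹ • ψ) (c := (i - 1) / (2 - φ w)) e0 e1 (fun y => ?_) e3 ?_
      (fun y => ?_) (hi i ei)
    · simp only [LinearMap.smul_apply, e2]
    · simp only [LinearMap.smul_apply, e6, smul_eq_mul, inv_mul_cancel₀ k0]
    · rw [eg]
      simp only [LinearMap.smul_apply, smul_eq_mul]
      match_scalars <;> ring

theorem stepH4 : StepH4.{u} := by
  intro F _ _ Γ hΓ hQ e x i hb h2 ei g hg hs
  obtain ⟨d, χ, a1, a2, a3⟩ := hb.exists_snoc (by simp)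
  have hy : ∀ y, pr e x y = y - χ y • d := fun y => by
    have := (hb.snoc a1 a2 a3).pr_eq_self (by simp) y
    rw [pr_snoc] at this
    exact eq_sub_of_add_eq this
  have hi0 : i ≠ 0 := fun e => by simp [e] at ei
  have ha : (-i) ^ 2 = -1 := by rw [neg_sq, ei]
  refine mono hΓ.toCtx (HF Γ (-i)) (fun _ _ _ h => h.1) (fun k e x hP v φ hv => ?_) one_pos ![d] ![χ]
    ⟨bi_one a3, fun j => ?_⟩
  · have key : ∀ j, (x j v = 0 ∧ φ (e j) = 0) ∨ Mon e x v φ ∨ φ (e j) * x j v = 1 := fun j => by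
      obtain ⟨h, hn, eh⟩ := hP.2 j
      have jj := hP.1.diag j
      rcases hQ 1 ![e j] ![x j] (-i) h (bi_one jj) (fun y => by rw [eh, pr_one, smul_smul]) hn (Or.inr ha) v φ hv with
        c | c | c | c
      · rw [pr_one, prD_one] at c
        refine Or.inl ⟨?_, ?_⟩
        · simpa [jj] using congrArg (x j) c.1
        · simpa [jj] using LinearMap.congr_fun c.2 (e j)
      · obtain ⟨c1, c2⟩ := c
        rw [pr_one] at c1
        rw [prD_one] at c2
        have c0 : x j v ≠ 0 := fun e0 => hv.ne (by rw [← c1, e0, zero_smul])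
        have c3 : φ (e j) * x j v = 2 := by
          rw [← hv.two]
          conv_rhs => rw [← c2]
          rfl
        refine Or.inr (Or.inl (Or.inl ⟨j, x j v, c0, c1.symm, ?_⟩))
        rw [← c3, mul_div_assoc, div_self c0, mul_one, c2]
      · rw [pr_one, map_smul, smul_eq_mul, mul_comm] at c
        exact Or.inr (Or.inr c)
      · exact absurd (by linear_combination ha - c.1) hi0
    by_cases hm : Mon e x v φ
    · exact Or.inr (Or.inl hm)
    by_cases h0 : ∃ j, φ (e j) * x j v = 1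
    swap
    · exact Or.inl fun j => (key j).resolve_right fun c => c.elim hm fun c => h0 ⟨j, c⟩
    obtain ⟨j, hj⟩ := h0
    refine Or.inr (Or.inr (hP.snoc hv hj fun l hl => (key l).resolve_right fun c => c.elim hm fun c => ?_))
    obtain ⟨h, hn, eh⟩ := hP.2 j
    obtain ⟨h', hn', eh'⟩ := hP.2 l
    exact hm (mon_two h2 hΓ.noTv hP.1 ha (Ne.symm hl) hn hn' eh eh' hv hj c)
  · refine ⟨scal (Fin 5) (Units.mk0 (-i) (neg_ne_zero.2 hi0)) * g,
      (nrm_of_mem hg).of_smul (a := -i) fun y => by rw [mul_smul, scal_gsmul, Units.val_mk0], fun y => ?_⟩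
    fin_cases j
    rw [mul_smul, scal_gsmul, Units.val_mk0, hs, hy]
    simp only [Fin.zero_eta, Matrix.cons_val_zero]
    match_scalars
    · linear_combination -ei
    · linear_combination χ y * ei

end CL.Low5
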