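/-
Project LOW5, job L11K: `L₂(11) < M₁₁ < SL₅(3)`.
-/
import Cfsg.Agent.Low5.Defs2
import Cfsg.Agent.Cls.SLnCard

set_option autoImplicit false

namespace CL.Low5

open Matrix Cfsg Cfsg.Geo CL.Asch CL.SLn CL.Low Module
open scoped commutatorElement Pointwise

universe u

namespace L11K

abbrev R := ZMod 3

abbrev T := R × R × R × R × R

abbrev TT := T × T × T × T × T

def dot (r v : T) : R := r.1 * v.1 + r.2.1 * v.2.1 + r.2.2.1 * v.2.2.1 + r.2.2.2.1 * v.2.2.2.1 + r.2.2.2.2 * v.2.2.2.2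

def lin (A : TT) (v : T) : T := (dot A.1 v, dot A.2.1 v, dot A.2.2.1 v, dot A.2.2.2.1 v, dot A.2.2.2.2 v)

def toV (v : T) : V R := ![v.1, v.2.1, v.2.2.1, v.2.2.2.1, v.2.2.2.2]

def mat (A : TT) : Matrix (Fin 5) (Fin 5) R := of ![toV A.1, toV A.2.1, toV A.2.2.1, toV A.2.2.2.1, toV A.2.2.2.2]

theorem toV_surj (v : V R) : ∃ w, toV w = v := ⟨(v 0, v 1, v 2, v 3, v 4), by ext i; fin_cases i <;> rfl⟩

theorem toV_inj {v w : T} (h : toV v = toV w) : v = w :=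
  Prod.ext (congrFun h 0) (Prod.ext (congrFun h 1) (Prod.ext (congrFun h 2) (Prod.ext (congrFun h 3) (congrFun h 4))))

/-- The function `f` describes the matrix `A`. -/
def Rp (A : Matrix (Fin 5) (Fin 5) R) (f : T → T) : Prop := ∀ v, A *ᵥ toV v = toV (f v)

theorem rp (A : TT) : Rp (mat A) (lin A) := fun v => by
  ext i
  fin_cases i <;> simp [mat, toV, lin, dot, mulVec, dotProduct, Fin.sum_univ_five]

theorem Rp.mul {A B : Matrix (Fin 5) (Fin 5) R} {f g : T → T} (h : Rp A f) (h' : Rp B g) : Rp (A * B) (f ∘ g) :=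
  fun v => by rw [← mulVec_mulVec, h', h]; rfl

theorem Rp.pow {A : Matrix (Fin 5) (Fin 5) R} {f : T → T} (h : Rp A f) : ∀ n, Rp (A ^ n) f^[n]
  | 0 => fun v => by simp
  | n + 1 => pow_succ A n ▸ (h.pow n).mul h

theorem Rp.one {A : Matrix (Fin 5) (Fin 5) R} {f : T → T} (h : Rp A f) (e : A = 1) (v : T) : f v = v :=
  toV_inj (by rw [← h, e, one_mulVec])

/-- The standard basis. -/
def bas : List T := [(1, 0, 0, 0, 0), (0, 1, 0, 0, 0), (0, 0, 1, 0, 0), (0, 0, 0, 1, 0), (0, 0, 0, 0, 1)]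

/-- Agreement on the basis. -/
def same (f g : T → T) : Bool := bas.all fun v => decide (f v = g v)

theorem Rp.eq {A B : Matrix (Fin 5) (Fin 5) R} {f g : T → T} (h : Rp A f) (h' : Rp B g) (e : same f g = true) :
    A = B := by
  have : ∀ j : Fin 5, ∃ v ∈ bas, toV v = Pi.single j 1 := by decide +kernel
  ext i j
  obtain ⟨v, hv, e'⟩ := this j
  have := (h v).trans ((congrArg toV (of_decide_eq_true (List.all_eq_true.1 e v hv))).trans (h' v).symm)
  rw [e', mulVec_single_one, mulVec_single_one] at this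
  exact congrFun this i

theorem rp_one : Rp 1 id := fun _ => one_mulVec _

/-- The companion matrix. -/
def comp (c : T) : TT :=
  ((0, 0, 0, 0, c.1), (1, 0, 0, 0, c.2.1), (0, 1, 0, 0, c.2.2.1), (0, 0, 1, 0, c.2.2.2.1), (0, 0, 0, 1, c.2.2.2.2))

/-- The matrices inverting the shift. -/
def mT (a b c d e : R) : TT := ((a, b, c, d, e), (b, c, d, e, a), (c, d, e, a, b), (d, e, a, b, c), (e, a, b, c, d))

def mS : TT := comp (1, 0, 0, 0, 0)
def mA : TT := ((2, 0, 2, 1, 0), (0, 0, 1, 2, 0), (2, 0, 1, 0, 0), (1, 0, 2, 2, 1), (1, 1, 0, 1, 0))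
def mA' : TT := ((2, 2, 0, 0, 0), (2, 0, 2, 0, 1), (2, 2, 1, 0, 0), (2, 1, 1, 0, 0), (2, 1, 2, 1, 0))
def mK : TT := ((0, 0, 0, 0, 2), (0, 1, 0, 0, 0), (0, 2, 1, 0, 0), (2, 2, 0, 0, 0), (0, 1, 0, 1, 0))
def mU : TT := ((1, 1, 0, 0, 0), (0, 1, 0, 0, 0), (0, 0, 1, 0, 0), (0, 0, 0, 1, 0), (0, 0, 0, 0, 1))
def e0 : T := (1, 0, 0, 0, 0)

/-- The polynomial, the normal basis, its inverse, the Frobenius map, the new matrix. -/
def dat : List (T × TT × TT × TT × TT) :=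
  [((1, 0, 2, 1, 2), ((0, 0, 1, 1, 0), (1, 0, 2, 0, 0), (0, 0, 1, 2, 0), (0, 1, 1, 1, 0), (0, 0, 0, 2, 1)),
    ((2, 1, 2, 0, 0), (2, 0, 0, 1, 0), (2, 0, 2, 0, 0), (2, 0, 1, 0, 0), (2, 0, 1, 0, 1)), 
    ((1, 0, 2, 1, 0), (0, 0, 1, 2, 1), (0, 0, 1, 1, 0), (0, 1, 1, 1, 0), (0, 0, 2, 0, 0)), mA),
   ((1, 1, 2, 1, 0), ((2, 2, 0, 0, 1), (1, 0, 0, 1, 1), (2, 2, 1, 1, 0), (0, 2, 0, 2, 2), (1, 2, 0, 1, 2)),
    ((2, 2, 0, 0, 1), (2, 1, 0, 2, 1), (2, 1, 1, 1, 2), (2, 2, 0, 1, 0), (2, 0, 0, 2, 2)), 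
    ((1, 0, 0, 2, 0), (0, 0, 1, 1, 1), (0, 0, 1, 1, 0), (0, 1, 2, 1, 0), (0, 0, 1, 2, 0)), mA')]

/-- The 22 vectors. -/
def lX : List T :=
  [(1, 0, 0, 0, 0), (2, 0, 2, 1, 1), (0, 1, 0, 0, 0), (0, 0, 0, 0, 1), (0, 0, 0, 1, 0), (1, 2, 0, 2, 1), (1, 1, 2, 0, 2),
   (0, 2, 1, 1, 2), (0, 0, 1, 0, 0), (2, 1, 1, 2, 0), (2, 2, 2, 2, 2), (2, 0, 0, 0, 0), (1, 0, 1, 2, 2), (0, 2, 0, 0, 0),
   (0, 0, 0, 0, 2), (0, 0, 0, 2, 0), (2, 1, 0, 1, 2), (2, 2, 1, 0, 1), (0, 1, 2, 2, 1), (0, 0, 2, 0, 0), (1, 2, 2, 1, 0),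
   (1, 1, 1, 1, 1)]

theorem comp_cases : ∀ a b c d e : R, (lin (comp (a, b, c, d, e)))^[11] e0 = e0 → ∃ x ∈ dat, (a, b, c, d, e) = x.1 := by
  decide +kernel

theorem dat_spec : ∀ x ∈ dat, (x.2.2.2.2 = mA ∨ x.2.2.2.2 = mA') ∧ same (lin x.2.1 ∘ lin x.2.2.1) id = true ∧
    same (lin x.2.2.1 ∘ lin x.2.1) id = true ∧ same (lin (comp x.1) ∘ lin x.2.1) (lin x.2.1 ∘ lin x.2.2.2.2) = true ∧
    same (lin x.2.2.2.1 ∘ lin x.2.1) (lin x.2.1 ∘ lin mS) = true ∧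
    ∀ i : Fin 5, (mat x.2.2.2.1).col i = toV ((lin (comp x.1))^[3 * i] e0) :=
  List.forall_mem_cons.2 ⟨⟨Or.inl rfl, by decide +kernel⟩, List.forall_mem_singleton.2 ⟨Or.inr rfl, by decide +kernel⟩⟩

theorem t_cases : ∀ A ∈ [mA, mA'], ∀ a b c d e : R, (lin (mT a b c d e) ∘ lin (mT a b c d e)) e0 = e0 →
    (lin (mT a b c d e) ∘ lin A)^[3] e0 = e0 → (a, b, c, d, e) = e0 := by decide +kernel

theorem pres : ∀ A ∈ [mA, mA', mS, mT 1 0 0 0 0, mK], ∀ v ∈ lX, ∃ w ∈ lX, lin A v = w := by decide +kernel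

theorem K_facts : same (lin mK)^[3] id = true ∧ same (lin mU)^[3] id = true ∧
    same (lin mK ∘ lin (mT 1 0 0 0 0))^[8] id = true ∧ same (lin mK ∘ lin (mT 1 0 0 0 0))^[4] id = false ∧
    ∃ v ∈ lX, ∀ w ∈ lX, lin mU v ≠ w := by decide +kernel

/-- Counting fixed vectors. -/
theorem cnt {g : Matrix (Fin 5) (Fin 5) R} {p : ℕ} [Fact p.Prime] (hg : g ^ p = 1) {W : Submodule R (V R)}
    (hW : ∀ w ∈ W, g *ᵥ w ∈ W) :
    3 ^ finrank R W ≡ 3 ^ finrank R ↥(W ⊓ LinearMap.ker (toLin' (g - 1))) [MOD p] := by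
  classical
  let f : Function.End W := fun w => ⟨g *ᵥ w, hW _ w.2⟩
  have h1 : ∀ n (w : W), ((f ^ n) w : V R) = g ^ n *ᵥ w := fun n => by
    induction n with
    | zero => exact fun w => by rw [pow_zero, pow_zero, one_mulVec]; rfl
    | succ n ih => exact fun w => by rw [pow_succ, pow_succ, ← mulVec_mulVec]; exact ih (f w)
  have h2 := Equiv.Perm.card_fixedPoints_modEq (f := f) (p := p) (n := 1)
    (funext fun w => Subtype.ext (by rw [pow_one, h1, hg, one_mulVec]; rfl))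
  have e : ∀ w : V R, w ∈ LinearMap.ker (toLin' (g - 1)) ↔ g *ᵥ w = w := fun w => by
    rw [LinearMap.mem_ker, toLin'_apply, sub_mulVec, one_mulVec, sub_eq_zero]
  have h3 : Nat.card f.fixedPoints = Nat.card ↥(W ⊓ LinearMap.ker (toLin' (g - 1))) := Nat.card_congr
    ⟨fun w => ⟨w.1, w.1.2, (e _).2 (congrArg Subtype.val w.2)⟩, fun w => ⟨⟨w, w.2.1⟩, Subtype.ext ((e _).1 w.2.2)⟩,
      fun _ => rfl, fun _ => rfl⟩
  rwa [Fintype.card_eq_nat_card, Fintype.card_eq_nat_card, h3, natCard_eq_pow_finrank (K := R) (V := W),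
    natCard_eq_pow_finrank (K := R) (V := ↥(W ⊓ _)), Nat.card_zmod] at h2

theorem rank_le (W : Submodule R (V R)) : finrank R W ≤ 5 := W.finrank_le.trans_eq (by simp)

theorem eq_top_of {W : Submodule R (V R)} (h : finrank R W = 5) : W = ⊤ :=
  Submodule.eq_top_of_finrank_eq (h.trans (by simp))

/-- An element of order eleven acts irreducibly. -/
theorem irr11 {x : Matrix (Fin 5) (Fin 5) R} (hx : x ^ 11 = 1) (h1 : x ≠ 1) {W : Submodule R (V R)}
    (hW : ∀ w ∈ W, x *ᵥ w ∈ W) : W = ⊥ ∨ W = ⊤ := by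
  haveI : Fact (Nat.Prime 11) := ⟨by norm_num⟩
  have key : ∀ k ≤ 5, 3 ^ k ≡ 1 [MOD 11] → k = 0 ∨ k = 5 := by decide
  have h2 := cnt hx (W := ⊤) fun _ _ => trivial
  rw [top_inf_eq, finrank_top, finrank_fintype_fun_eq_card, Fintype.card_fin] at h2
  rcases key _ (rank_le _) (h2.symm.trans (by decide)) with h | h
  · have h3 := cnt hx hW
    rw [Submodule.finrank_eq_zero.1 h, inf_bot_eq, finrank_bot] at h3
    exact (key _ (rank_le _) h3).imp Submodule.finrank_eq_zero.1 eq_top_of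
  · exact absurd (sub_eq_zero.1 (toLin'.map_eq_zero_iff.1 (LinearMap.ker_eq_top.1 (eq_top_of h)))) h1

theorem fix5 {y : Matrix (Fin 5) (Fin 5) R} (hy : y ^ 5 = 1) : ∃ v ≠ 0, y *ᵥ v = v := by
  haveI := Fact.mk Nat.prime_five
  have h2 := cnt hy (W := ⊤) fun _ _ => trivial
  rw [top_inf_eq, finrank_top, finrank_fintype_fun_eq_card, Fintype.card_fin] at h2
  obtain ⟨v, hv, h0⟩ := (Submodule.ne_bot_iff (LinearMap.ker (toLin' (y - 1)))).1 fun e => by
    rw [e, finrank_bot] at h2; exact absurd h2 (by decide)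
  exact ⟨v, h0, by rwa [LinearMap.mem_ker, toLin'_apply, sub_mulVec, one_mulVec, sub_eq_zero] at hv⟩

theorem cayley (x : Matrix (Fin 5) (Fin 5) R) : ∃ c : V R, x ^ 5 = ∑ i : Fin 5, c i • x ^ i.val := by
  have h := x.aeval_self_charpoly
  have hd : x.charpoly.natDegree = 5 := x.charpoly_natDegree_eq_dim.trans (Fintype.card_fin 5)
  rw [Polynomial.aeval_eq_sum_range, hd, Finset.sum_range_succ, (hd ▸ x.charpoly_monic.coeff_natDegree :), one_smul,
    ← Fin.sum_univ_eq_sum_range (fun i => x.charpoly.coeff i • x ^ i)] at h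
  exact ⟨fun i => -x.charpoly.coeff i, by simpa [neg_smul] using eq_neg_of_add_eq_zero_right h⟩

/-- The normal form of the Frobenius group of order 55. -/
theorem frame {x y : G R} (hx : x ^ 11 = 1) (h1 : x ≠ 1) (hy : y ^ 5 = 1) (hxy : y * x * y⁻¹ = x ^ 3) :
    ∃ D : G R, ∃ A ∈ [mA, mA'], (D⁻¹ * x * D).val = mat A ∧ (D⁻¹ * y * D).val = mat mS := by
  have hx' : x.val ^ 11 = 1 := congrArg Units.val hx
  obtain ⟨v, v0, hv⟩ := fix5 (show y.val ^ 5 = 1 from congrArg Units.val hy)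
  obtain ⟨c, hc⟩ := cayley x.val
  obtain ⟨⟨a, b, c, d, e⟩, rfl⟩ := toV_surj c
  let B : Matrix (Fin 5) (Fin 5) R := of fun r i => (x.val ^ i.val *ᵥ v) r
  have hB : ∀ (m : Matrix (Fin 5) (Fin 5) R) r (i : Fin 5), (m * B) r i = ((m * x.val ^ i.val) *ᵥ v) r := fun m r i => by
    rw [← mulVec_mulVec]; rfl
  have h2 : x.val * B = B * mat (comp (a, b, c, d, e)) := by
    ext r j
    rw [hB, ← pow_succ']
    fin_cases j <;> simp [B, mat, comp, toV, mul_apply, Fin.sum_univ_five]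
    simp [hc, toV, Fin.sum_univ_five, add_mulVec, smul_mulVec, mul_comm]
  have h3 : B *ᵥ toV e0 = v := by
    rw [show toV e0 = Pi.single 0 1 by decide +kernel, mulVec_single_one]
    exact one_mulVec v
  have hu : IsUnit B := by
    rw [← mulVec_surjective_iff_isUnit]
    refine LinearMap.range_eq_top.1 ((irr11 hx' (fun e => h1 (Units.ext e)) (W := LinearMap.range (toLin' B)) ?_).resolve_left
      fun h => v0 ((Submodule.mem_bot R).1 (h ▸ ⟨_, h3⟩)))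
    rintro _ ⟨w, rfl⟩
    exact ⟨mat _ *ᵥ w, by rw [toLin'_apply, toLin'_apply, mulVec_mulVec, mulVec_mulVec, h2]⟩
  have h4 : ∀ n, B * mat (comp (a, b, c, d, e)) ^ n = x.val ^ n * B := fun n => (SemiconjBy.pow_right h2.symm n :)
  obtain ⟨⟨c', N, I, Y, A⟩, hz, rfl⟩ := comp_cases a b c d e (((rp _).pow 11).one
    (hu.mul_left_cancel (by rw [h4, hx', one_mul, mul_one])) e0)
  obtain ⟨k1, k2, k3, k4, k5, k6⟩ := dat_spec _ hz
  have h5 : y.val * B = B * mat Y := by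
    ext r j
    have : y * x ^ j.val = x ^ (3 * j.val) * y := by rw [pow_mul, ← hxy, conj_pow, inv_mul_cancel_right]
    rw [hB, ← Units.val_pow_eq_pow_val, ← Units.val_mul, this, Units.val_mul, ← mulVec_mulVec, hv,
      show (B * mat Y) r j = (B *ᵥ (mat Y).col j) r from rfl, k6, ← (rp _).pow, mulVec_mulVec, h4, ← mulVec_mulVec, h3,
      Units.val_pow_eq_pow_val]
  let N' : G R := ⟨mat N, mat I, ((rp _).mul (rp _)).eq rp_one k2, ((rp _).mul (rp _)).eq rp_one k3⟩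
  have key : ∀ (g : G R) (m), g.val * (B * mat N) = B * mat N * m → ((hu.unit * N')⁻¹ * g * (hu.unit * N')).val = m :=
    fun g m h => by rw [mul_assoc, Units.val_mul, Units.inv_mul_eq_iff_eq_mul]; exact h
  refine ⟨hu.unit * N', A, by rcases k1 with rfl | rfl <;> simp, key _ _ ?_, key _ _ ?_⟩
  · rw [← mul_assoc, h2, mul_assoc, ((rp _).mul (rp _)).eq ((rp _).mul (rp _)) k4, mul_assoc]
  · rw [← mul_assoc, h5, mul_assoc, ((rp _).mul (rp _)).eq ((rp _).mul (rp _)) k5, mul_assoc]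

/-- The stabiliser of the 22 vectors. -/
def K0 : Subgroup (G R) := MulAction.stabilizer (G R) (toV '' {v | v ∈ lX})

theorem mem_K0 {g : G R} {A : TT} (h : g.val = mat A) (hA : A ∈ [mA, mA', mS, mT 1 0 0 0 0, mK]) : g ∈ K0 := by
  rw [K0, MulAction.mem_stabilizer_set_iff_smul_set_subset (Set.toFinite _)]
  rintro _ ⟨_, ⟨v, hv, rfl⟩, rfl⟩
  obtain ⟨w, hw, e⟩ := pres A hA v hv
  exact ⟨w, hw, by rw [← e, ← rp, ← h]; rfl⟩

/-- The conclusion, in any group. -/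
def Out {H : Type*} [Group H] (x y t : H) : Prop :=
  ∃ K : Subgroup H, x ∈ K ∧ y ∈ K ∧ t ∈ K ∧ (∃ a ∈ K, a ^ 3 = 1 ∧ (a * t) ^ 8 = 1 ∧ (a * t) ^ 4 ≠ 1) ∧
    ∃ u, u ^ 3 = 1 ∧ u ∉ K

theorem Out.of_equiv {H H' : Type*} [Group H] [Group H'] (e : H ≃* H') {x y t : H} (h : Out (e x) (e y) (e t)) :
    Out x y t := by
  obtain ⟨K, h1, h2, h3, ⟨a, h4, h5, h6, h7⟩, u, h8, h9⟩ := h
  obtain ⟨a, rfl⟩ := e.surjective a
  obtain ⟨u, rfl⟩ := e.surjective u
  simp only [← map_mul, ← map_pow, Ne, EmbeddingLike.map_eq_one_iff] at h5 h6 h7 h8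
  exact ⟨K.comap e.toMonoidHom, h1, h2, h3, ⟨a, h4, h5, h6, h7⟩, u, h8, h9⟩

theorem out0 {x y t : G R} {A : TT} (hA : A ∈ [mA, mA']) (hx : x.val = mat A) (hy : y.val = mat mS) (h1 : t * t = 1)
    (h2 : y * t * y = t) (h3 : (t * x) ^ 3 = 1) : Out x y t := by
  have h4 : mat mS * t.val * mat mS = t.val := hy ▸ congrArg Units.val h2
  have h5 : ∀ i j, t.val (i + 1) j = t.val i (j + 1) := fun i j => by
    rw [← congrFun (congrFun h4 (i + 1)) j]
    fin_cases i <;> fin_cases j <;> simp [mat, mS, comp, toV, mul_apply, Fin.sum_univ_five, vecMul, dotProduct]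
  have h6 : t.val = mat (mT (t.val 0 0) (t.val 0 1) (t.val 0 2) (t.val 0 3) (t.val 0 4)) := by
    have k1 : ∀ j, t.val 1 j = t.val 0 (j + 1) := h5 0
    have k2 : ∀ j, t.val 2 j = t.val 1 (j + 1) := h5 1
    have k3 : ∀ j, t.val 3 j = t.val 2 (j + 1) := h5 2
    have k4 : ∀ j, t.val 4 j = t.val 3 (j + 1) := h5 3
    ext i j
    fin_cases i <;> fin_cases j <;> simp [mat, mT, toV, k1, k2, k3, k4]
  have h7 := t_cases A hA _ _ _ _ _ (((rp _).mul (rp _)).one (by rw [← h6]; exact congrArg Units.val h1) e0)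
    ((((rp _).mul (rp _)).pow 3).one (by rw [← h6, ← hx]; exact congrArg Units.val h3) e0)
  simp only [e0, Prod.mk.injEq] at h7
  rw [h7.1, h7.2.1, h7.2.2.1, h7.2.2.2.1, h7.2.2.2.2] at h6
  obtain ⟨k1, k2, k3, k4, v, hv, k5⟩ := K_facts
  have un : ∀ M, same (lin M)^[3] id = true → ∃ g : G R, g.val = mat M ∧ g ^ 3 = 1 := fun M h =>
    have h' := ((rp M).pow 3).eq rp_one h
    ⟨⟨mat M, mat M ^ 2, (pow_succ' _ _).symm.trans h', (pow_succ _ _).symm.trans h'⟩, rfl, Units.ext h'⟩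
  obtain ⟨a, a1, a2⟩ := un _ k1
  obtain ⟨u, u1, u2⟩ := un _ k2
  have h8 : ∀ n, Rp ((a * t) ^ n).val (lin mK ∘ lin (mT 1 0 0 0 0))^[n] := fun n => by
    rw [Units.val_pow_eq_pow_val, Units.val_mul, a1, h6]; exact ((rp _).mul (rp _)).pow n
  refine ⟨K0, mem_K0 hx (by rcases List.mem_pair.1 hA with rfl | rfl <;> simp), mem_K0 hy (by simp), mem_K0 h6 (by simp),
    ⟨a, mem_K0 a1 (by simp), a2, Units.ext ((h8 8).eq rp_one k3), fun e => ?_⟩, u, u2, fun h => ?_⟩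
  · rw [funext ((h8 4).one (congrArg Units.val e))] at k4
    exact absurd k4 (by decide)
  · obtain ⟨w, hw, e⟩ := (MulAction.mem_stabilizer_iff.1 h).le (Set.smul_mem_smul_set ⟨v, hv, rfl⟩)
    exact k5 w hw (toV_inj (by rw [e, ← rp, ← u1]; rfl))

/-- The relations. -/
structure Rel {H : Type*} [Group H] (x y t : H) : Prop where
  x11 : x ^ 11 = 1
  x1 : x ≠ 1
  y5 : y ^ 5 = 1
  yx : y * x * y⁻¹ = x ^ 3
  t2 : t * t = 1
  yt : y * t * y = t
  tx : (t * x) ^ 3 = 1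

theorem Rel.map {H H' : Type*} [Group H] [Group H'] {x y t : H} (h : Rel x y t) (f : H →* H')
    (hf : Function.Injective f) : Rel (f x) (f y) (f t) := by
  obtain ⟨a1, a2, a3, a4, a5, a6, a7⟩ := h
  constructor <;> simp only [← map_mul, ← map_pow, ← map_inv, Ne, map_eq_one_iff f hf, *, not_false_iff]

theorem out {x y t : G R} (h : Rel x y t) : Out x y t := by
  obtain ⟨D, A, hA, h1, h2⟩ := frame h.x11 h.x1 h.y5 h.yx
  have h' := h.map (MulAut.conj D⁻¹).toMonoidHom (MulAut.conj D⁻¹).injective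
  exact .of_equiv (MulAut.conj D⁻¹) (out0 hA h1 h2 h'.t2 h'.yt h'.tx)

theorem Rel.gen {H : Type*} [Group H] [IsSimpleGroup H] (hc : Nat.card H = 660) {x y t : H} (h : Rel x y t)
    {K : Subgroup H} (hx : x ∈ K) (hy : y ∈ K) (ht : t ∈ K) : K = ⊤ := by
  haveI : Fact (Nat.Prime 11) := ⟨by norm_num⟩
  haveI := Fact.mk Nat.prime_five
  haveI := Fact.mk Nat.prime_three
  have ox := orderOf_eq_prime h.x11 h.x1
  have k : ∀ n, x ^ n = 1 → 11 ∣ n := fun n e => ox ▸ orderOf_dvd_of_pow_eq_one e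
  have oy := orderOf_eq_prime h.y5 fun e => by
    have := h.yx
    rw [e, one_mul, inv_one, mul_one, pow_succ, right_eq_mul] at this
    exact absurd (k _ this) (by norm_num)
  have ot := orderOf_eq_prime ((sq t).trans h.t2) fun e => absurd (k 3 (by simpa [e] using h.tx)) (by norm_num)
  have otx := orderOf_eq_prime h.tx fun e => absurd (k 2 (by
    rw [eq_inv_of_mul_eq_one_right e, sq, ← _root_.mul_inv_rev, h.t2, inv_one])) (by norm_num)
  have h1 : 11 * 5 * 2 * 3 ∣ Nat.card K :=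
    Nat.Coprime.mul_dvd_of_dvd_of_dvd (by norm_num) (Nat.Coprime.mul_dvd_of_dvd_of_dvd (by norm_num)
      (Nat.Coprime.mul_dvd_of_dvd_of_dvd (by norm_num) (ox ▸ K.orderOf_dvd_natCard hx) (oy ▸ K.orderOf_dvd_natCard hy))
      (ot ▸ K.orderOf_dvd_natCard ht)) (otx ▸ K.orderOf_dvd_natCard (K.mul_mem ht hx))
  have h2 := K.card_mul_index
  obtain ⟨m, hm⟩ := h1
  rw [hc, hm, mul_assoc] at h2
  rcases (Nat.dvd_prime Nat.prime_two).1 (Dvd.intro_left m (Nat.eq_of_mul_eq_mul_left (by norm_num) h2)) with e | e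
  · exact Subgroup.index_eq_one.1 e
  · exact (K.normal_of_index_eq_two e).eq_bot_or_eq_top.resolve_left fun e => h.x1 (Subgroup.mem_bot.1 (e ▸ hx))

instance : Fact (Nat.Prime 11) := ⟨by norm_num⟩

theorem psl : Nat.card (ProjectiveSpecialLinearGroup (Fin 2) (ZMod 11)) = 660 ∧
    ∃ x y t : ProjectiveSpecialLinearGroup (Fin 2) (ZMod 11), Rel x y t := by
  have h := card_PSL_mul (ι := Fin 2) (F := ZMod 11)
  rw [card_SL_two, ZMod.card, Fintype.card_fin] at h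
  let x : SpecialLinearGroup (Fin 2) (ZMod 11) := ⟨!![1, 1; 0, 1], by decide +kernel⟩
  let y : SpecialLinearGroup (Fin 2) (ZMod 11) := ⟨!![5, 0; 0, 9], by decide +kernel⟩
  let t : SpecialLinearGroup (Fin 2) (ZMod 11) := ⟨!![0, -1; 1, 0], by decide +kernel⟩
  let π := QuotientGroup.mk' (Subgroup.center (SpecialLinearGroup (Fin 2) (ZMod 11)))
  have h1 : π (-1) = 1 := (QuotientGroup.eq_one_iff _).2 (Subgroup.mem_center_iff.2 fun g => by simp)
  refine ⟨Nat.eq_of_mul_eq_mul_left (by norm_num : 0 < 2) h, π x, π y, π t, ?_, fun e => ?_, ?_, ?_, ?_, ?_, ?_⟩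
  · rw [← map_pow, show x ^ 11 = 1 by decide +kernel, map_one]
  · exact absurd (Subgroup.mem_center_iff.1 ((QuotientGroup.eq_one_iff _).1 e) t) (by decide +kernel)
  · rw [← map_pow, show y ^ 5 = 1 by decide +kernel, map_one]
  · rw [mul_inv_eq_iff_eq_mul, ← map_pow, ← map_mul, ← map_mul, show y * x = x ^ 3 * y by decide +kernel]
  · rw [← map_mul, show t * t = -1 by decide +kernel, h1]
  · rw [← map_mul, ← map_mul, show y * t * y = t from Subtype.ext (by decide +kernel)]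
  · rw [← map_mul, ← map_pow, show (t * x) ^ 3 = -1 by decide +kernel, h1]

end L11K

open L11K in
theorem l11K (hZ : SubZ5.{u}) (_ : L11Data.{u}) : L11K.{u} := by
  rintro F _ _ P hF hP ⟨e⟩
  obtain ⟨hc, x, y, t, h⟩ := psl
  rw [← Nat.card_congr e.toEquiv] at hc
  have e' := (hZ F P hP (Or.inr (by rw [hc]; norm_num))).equiv
  haveI := hP.simple
  haveI : IsSimpleGroup P := e'.isSimpleGroup
  rw [← Nat.card_congr e'.toEquiv] at hc
  have h1 := h.map (e'.trans e).symm.toMonoidHom (e'.trans e).symm.injective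
  generalize (e'.trans e).symm.toMonoidHom x = x at h1
  generalize (e'.trans e).symm.toMonoidHom y = y at h1
  generalize (e'.trans e).symm.toMonoidHom t = t at h1
  let φ : G F ≃* G R := Units.mapEquiv (ZMod.ringEquivOfPrime F Nat.prime_three hF).symm.mapMatrix.toMulEquiv
  obtain ⟨K, k1, k2, k3, ⟨a, k4, k5, k6, k7⟩, u, k8, k9⟩ : Out (x : G F) y t :=
    .of_equiv φ (out ((h1.map P.subtype P.subtype_injective).map φ.toMonoidHom φ.injective))
  have hs : ∀ g : G F, g ^ 3 = 1 → g ∈ specialLinear (Fin 5) F := fun g hg => mem_specialLinear_iff.2 (by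
    rw [← FiniteField.pow_card g.val.det, hF, ← det_pow, ← Units.val_pow_eq_pow_val, hg, Units.val_one, det_one])
  refine ⟨K ⊓ specialLinear (Fin 5) F, lt_of_le_of_ne (le_inf (Subgroup.subgroupOf_eq_top.1
    (h1.gen hc k1 k2 k3)) hP.le_SL) fun e => k7 ?_, lt_of_le_of_ne inf_le_right fun e => k9 (e.ge (hs u k8)).1⟩
  have h2 : (a * t) ^ 660 = 1 :=
    hc ▸ congrArg Subtype.val (pow_card_eq_one' (x := (⟨a * t, P.mul_mem (e.ge ⟨k4, hs a k5⟩) t.2⟩ : P)))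
  rwa [show 660 = 8 * 82 + 4 from rfl, pow_add, pow_mul, k6, one_pow, one_mul] at h2

end CL.Low5
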