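/-
Project LOW5, steps NP and SYM: symmetric systems of transvections or reflections have real traces (helper28).
-/
import Cfsg.Agent.Low5.Defs2

set_option autoImplicit false
set_option linter.unusedSectionVars false

namespace CL.Low5

open Matrix Cfsg Cfsg.Geo CL.Asch CL.SLn CL.Low Module
open scoped commutatorElement

universe u

namespace NP

variable {ι : Type} [Fintype ι] [DecidableEq ι] {F : Type u} [Field F] {P : Subgroup (GL ι F)}
  {v w y y' : ι → F} {φ ψ χ χ' : Dual F (ι → F)} {T : Set ((ι → F) × Dual F (ι → F))} {ε l l' : F} {g : GL ι F}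

/-- the generators in `trace_lemma` -/
abbrev gen (T : Set ((ι → F) × Dual F (ι → F))) (ε : F) : Set (GL ι F) :=
  {g | ∃ t ∈ T, (∀ y, g • y = y - t.2 y • t.1) ∧ ∀ y, g⁻¹ • y = y - (ε * t.2 y) • t.1}

theorem nrm_gen (h : ∀ t ∈ T, (g • t.1, dact g t.2) ∈ T) : Nrm (Subgroup.closure (gen T ε)) g := fun _ hn =>
  (Subgroup.closure_le ((Subgroup.closure (gen T ε)).comap (MulAut.conj g).toMonoidHom)).2 (by
    rintro n ⟨t, ht, e1, e2⟩
    refine Subgroup.subset_closure ⟨_, h t ht, fun y => ?_, fun y => ?_⟩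
    · show (g * n * g⁻¹) • y = _
      rw [mul_smul, mul_smul, e1, smul_sub, smul_inv_smul, gsmul_smul, dact_apply]
    · show (g * n * g⁻¹)⁻¹ • y = _
      rw [conj_inv, mul_smul, mul_smul, e2, smul_sub, smul_inv_smul, gsmul_smul, dact_apply]) hn

theorem tr_gen [Finite F] (μ : (ι → F) × Dual F (ι → F) → F) (hμ : ∀ t ∈ T, μ t ≠ 0)
    (hT : ∀ s ∈ T, ∀ t ∈ T, μ t * s.2 t.1 = ε * μ s * t.2 s.1) (hg : g ∈ Subgroup.closure (gen T ε)) :
    tr g⁻¹ = tr g :=
  Eq.symm (trace_lemma ((RingHom.fst F F).eqLocus (RingHom.snd F F)) T μ hμ (fun s hs t ht => by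
    have := hμ t ht
    show s.2 t.1 = ε * (μ s / μ t) * t.2 s.1
    field_simp
    linear_combination hT s hs t ht) hg).1

theorem zsym (h : ¬ LinPair P) (h1 : Rt P v φ) (h2 : Rt P w ψ) (e : ψ v = 0) : φ w = 0 :=
  by_contra fun h0 => h ⟨v, w, φ, ψ, h1.tv, h2.tv, h1.ne, h2.ne', h0, e⟩

theorem cj (h1 : Rt P y χ) (h2 : Rt P y' χ') : Rt P (y' + χ y' • y) (χ' - χ' y • χ) := by
  simpa using h2.conj_tv (t := 1) (by simpa using h1.tv)

/-- the multiplier of a root of the star -/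
structure St (P : Subgroup (GL ι F)) (v w : ι → F) (φ ψ : Dual F (ι → F)) (y : ι → F) (χ : Dual F (ι → F)) (l : F) :
    Prop where
  rt : Rt P y χ
  ne : φ y ≠ 0 ∨ ψ y ≠ 0
  a : χ v = l * ψ v * φ y
  b : χ w = -l * φ w * ψ y

variable (hv : Rt P v φ) (hw : Rt P w ψ) (ha : φ w ≠ 0) (hc : ψ v ≠ 0)
  (H : ∀ y χ, Rt P y χ → φ w * ψ y * χ v + φ y * χ w * ψ v = 0)
include hv hw ha hc H

theorem exists_st (hl : ¬ LinPair P) (h : Rt P y χ) (h0 : φ y ≠ 0 ∨ ψ y ≠ 0) : ∃ l ≠ 0, St P v w φ ψ y χ l := by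
  have e := H y χ h
  by_cases h1 : φ y = 0
  · have h2 := h0.resolve_left (not_not.2 h1)
    exact ⟨-χ w / (φ w * ψ y), div_ne_zero (neg_ne_zero.2 fun h3 => h2 (zsym hl hw h h3)) (mul_ne_zero ha h2), h, h0,
      by rw [h1, mul_zero, zsym hl h hv h1], by field_simp⟩
  · exact ⟨χ v / (ψ v * φ y), div_ne_zero (fun h3 => h1 (zsym hl hv h h3)) (mul_ne_zero hc h1), h, h0,
      by field_simp, by field_simp; linear_combination e⟩

theorem pair0 (h : St P v w φ ψ y χ l) (h' : St P v w φ ψ y' χ' l') (hb : φ y' * ψ y ≠ φ y * ψ y') :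
    l' * χ y' + l * χ' y = 0 := by
  have e := H _ _ (cj h.rt h'.rt)
  simp only [map_add, map_smul, LinearMap.sub_apply, LinearMap.smul_apply, smul_eq_mul, h.a, h.b, h'.a, h'.b] at e
  exact mul_left_cancel₀ (mul_ne_zero (mul_ne_zero ha hc) (sub_ne_zero.2 hb)) (by linear_combination e)

theorem pair (h : St P v w φ ψ y χ l) (h' : St P v w φ ψ y' χ' l') : l' * χ y' + l * χ' y = 0 := by
  by_cases hb : φ y' * ψ y = φ y * ψ y'
  swap
  · exact pair0 hv hw ha hc H h h' hb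
  have v0 := hv.tv.1
  have w0 := hw.tv.1
  by_cases h1 : φ y' = 0
  · have h2 := h'.ne.resolve_left (not_not.2 h1)
    have h3 : φ y = 0 := (mul_eq_zero.1 (by rw [← hb, h1, zero_mul])).resolve_right h2
    have h4 := h.ne.resolve_left (not_not.2 h3)
    have e := pair0 hv hw ha hc H h (l' := l') ⟨cj hw h'.rt, .inr (by simpa [w0] using h2),
      by simp only [map_add, map_smul, LinearMap.sub_apply, LinearMap.smul_apply, smul_eq_mul, h'.a, h'.b]; ring,
      by simp [w0, h'.b]⟩ (by simp [h1, h2, h3, h4, ha])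
    simp only [map_add, map_smul, LinearMap.sub_apply, LinearMap.smul_apply, smul_eq_mul, h.b, h'.b] at e
    linear_combination e
  · have h3 : φ y ≠ 0 := fun h3 => h1 ((mul_eq_zero.1 (by rw [hb, h3, zero_mul])).resolve_right
      (h.ne.resolve_left (not_not.2 h3)))
    have e := pair0 hv hw ha hc H h (l' := l') ⟨cj hv h'.rt, .inl (by simpa [v0] using h1), by simp [v0, h'.a],
      by simp only [map_add, map_smul, LinearMap.sub_apply, LinearMap.smul_apply, smul_eq_mul, h'.a, h'.b]; ring⟩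
      (by
        simp only [map_add, map_smul, smul_eq_mul, v0, mul_zero, add_zero, hb, mul_add]
        simp [h1, h3, hc])
    simp only [map_add, map_smul, LinearMap.sub_apply, LinearMap.smul_apply, smul_eq_mul, h.a, h'.a] at e
    linear_combination e

end NP

open NP in
theorem subNP : SubNP.{u} := fun F _ _ P hP hl hR v φ w ψ hv hw ha => by
  by_contra H
  push Not at H
  have hc : ψ v ≠ 0 := fun e => ha (zsym hl hv hw e)
  let T : Set (V F × Dual F (V F)) := {t | Rt P t.1 t.2 ∧ (φ t.1 ≠ 0 ∨ ψ t.1 ≠ 0)}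
  choose! μ hμ hs using fun (t : V F × Dual F (V F)) (ht : t ∈ T) => exists_st hv hw ha hc H hl ht.1 ht.2
  have mem : ∀ {g : G F} {u η}, Rt P u η → (∀ x, g • x = x + η x • u) → φ u ≠ 0 ∨ ψ u ≠ 0 →
      g ∈ Subgroup.closure (gen T (-1)) := fun {g u η} h e h0 =>
    Subgroup.subset_closure ⟨(-u, η), ⟨⟨h.tv.neg_left, neg_ne_zero.2 h.ne, h.ne'⟩, by simpa using h0⟩,
      fun x => by simp [e], fun x => by simp [inv_smul_of_tv h.tv.1 e]⟩
  obtain ⟨w0, g, hg, e⟩ := hw.tv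
  have ht : IsTv g := ⟨w, ψ, hw.ne, hw.ne', w0, e⟩
  refine hR fun l hl' => tr_gen μ hμ (fun s hs' t ht => ?_) (hP.le_of_normal (fun g hg => ?_) (mem hw e (.inl ha)) hg
    ht.not_mem_scalars hl')
  · linear_combination pair hv hw ha hc H (hs s hs') (hs t ht)
  refine Subgroup.closure_induction (p := fun g _ => Nrm (Subgroup.closure (gen T (-1))) g) ?_ (by simp [Nrm])
    (fun _ _ _ _ => Nrm.mul) (fun _ _ => Nrm.inv) (hP.tvGen ⟨_, ‹_›, ht⟩ hg)
  rintro g ⟨hg, u, η, h1, h2, h3, e⟩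
  by_cases h0 : φ u ≠ 0 ∨ ψ u ≠ 0
  · exact nrm_of_mem (mem ⟨⟨h3, g, hg, e⟩, h1, h2⟩ e h0)
  · push Not at h0
    exact nrm_gen fun t ht => ⟨ht.1.conj hg, by simpa [e, h0.1, h0.2] using ht.2⟩

open NP in
theorem subSym : SubSym.{u} := fun F _ _ Γ hc H l hl => by
  classical
  by_cases h0 : ∃ v φ, Rf Γ v φ
  swap
  · rw [hc.gen.induction (P := fun g => g = 1) rfl (fun a b e e' => by rw [e, e', mul_one])
      (fun g v φ h _ => (h0 ⟨v, φ, h⟩).elim) hl, inv_one]
  obtain ⟨v, φ, hv⟩ := h0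
  let T : Set (V F × Dual F (V F)) := {t | Rf Γ t.1 t.2 ∧ (φ t.1 ≠ 0 ∨ t = (v, φ))}
  let μ : V F × Dual F (V F) → F := fun t => if φ t.1 = 0 then 1 else t.2 v / φ t.1
  have m1 : μ (v, φ) = 1 := by
    simp only [μ]
    split_ifs with e
    exacts [rfl, div_self e]
  have m2 : ∀ t ∈ T, t.2 v = μ t * φ t.1 := by
    rintro t ⟨-, e | rfl⟩
    · simp only [μ, if_neg e, div_mul_cancel₀ _ e]
    · rw [m1, one_mul]
  have mem : ∀ {g : G F} {u η}, (u, η) ∈ T → (∀ x, g • x = x - η x • u) → g ∈ Subgroup.closure (gen T 1) :=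
    fun {g u η} h e => Subgroup.subset_closure ⟨_, h, e, fun x => by rw [rf_inv h.1.two e, e, one_mul]⟩
  have key : ∀ g ∈ Subgroup.closure (gen T 1), tr g⁻¹ = tr g := fun g => tr_gen μ (by
    rintro t ⟨h, e | rfl⟩
    · simp only [μ, if_neg e]
      exact div_ne_zero (fun e' => e (hc.zsym _ _ _ _ h hv e')) e
    · rw [m1]; exact one_ne_zero) fun s hs t ht => by
    have e1 := m2 s hs
    have e2 := m2 t ht
    obtain ⟨h1, e | rfl⟩ := hs
    · obtain ⟨h2, e' | rfl⟩ := ht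
      · have := not_not.1 (H _ _ _ _ _ _ hv h1 h2)
        rw [e1, e2] at this
        exact mul_left_cancel₀ (mul_ne_zero e e') (by linear_combination this)
      · rw [m1, e1]; ring
    · rw [m1, e2]; ring
  obtain ⟨g, -, e⟩ := hv.mem
  rcases hc.nirr _ (fun g hg => hc.gen.induction (P := Nrm (Subgroup.closure (gen T 1))) (by simp [Nrm])
    (fun _ _ => Nrm.mul) (fun g u η h e => by
      by_cases h0 : φ u = 0
      · obtain ⟨g', hg', e'⟩ := h.mem
        obtain rfl : g = g' := gext fun x => (e x).trans (e' x).symm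
        refine nrm_gen fun t ht => ⟨ht.1.conj hg', ht.2.imp (by simp [e, h0]) ?_⟩
        rintro rfl
        refine Prod.ext (by simp [e, hc.zsym _ _ _ _ hv h h0]) (LinearMap.ext fun x => ?_)
        simp [rf_inv h.two e, e, h0]
      · exact nrm_of_mem (mem ⟨h, .inl h0⟩ e)) hg)
    ⟨v, φ, hv, hv.two, hv.ne, hv.ne', g, mem ⟨hv, .inr rfl⟩ e, e⟩ l hl with h | h
  · exact key l h
  · have := key _ h
    rwa [inv_neg, tr_neg, tr_neg, neg_inj] at this

end CL.Low5
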