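/-
Project LOW5: if `G(3, 3, 3)` is the only asymmetric configuration, the traces lie in `ℤ[ω]`.
-/
import Cfsg.Agent.Low5.Emb

set_option autoImplicit false
set_option linter.unusedSectionVars false
set_option linter.unnecessarySeqFocus false

namespace CL.Low5

open Matrix Cfsg Cfsg.Geo CL.Asch CL.SLn CL.Low Module

universe u

namespace Om

section

variable {ι : Type} [Fintype ι] [DecidableEq ι] {F : Type u} [Field F] {Γ : Subgroup (GL ι F)}
  {u v w : ι → F} {φ ψ χ : Dual F (ι → F)}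

/-- The product of the reflection `(v, φ)` with any other one has order at most three. -/
def Q01 (Γ : Subgroup (GL ι F)) (v : ι → F) (φ : Dual F (ι → F)) : Prop :=
  ∀ w ψ, Rf Γ w ψ → φ w * ψ v = 0 ∨ φ w * ψ v = 1 ∨ SameRf v φ w ψ

theorem Q01.same (h : Q01 Γ v φ) (hs : SameRf v φ w ψ) : Q01 Γ w ψ := fun u χ hu => by
  rw [hs.pair]
  exact (h u χ hu).imp_right (Or.imp_right fun e => hs.symm.trans e)

theorem Q01.conj (h : Q01 Γ v φ) {g : GL ι F} (hg : g ∈ Γ) : Q01 Γ (g • v) (dact g φ) := fun w ψ hw => by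
  have := h _ _ (hw.conj (Γ.inv_mem hg))
  rw [dact_apply, inv_inv] at this
  refine this.imp_right (Or.imp_right fun ⟨t, ht, e1, e2⟩ => ⟨t, ht, ?_, LinearMap.ext fun y => ?_⟩)
  · rw [← gsmul_smul, ← e1, smul_inv_smul]
  · simpa using LinearMap.congr_fun e2 (g⁻¹ • y)

theorem Q01.refl (hw : Rf Γ w ψ) (h : Q01 Γ v φ) : Q01 Γ (v - ψ v • w) (φ - φ w • ψ) := by
  obtain ⟨g, hg, e⟩ := hw.mem
  have : dact g φ = φ - φ w • ψ := LinearMap.ext fun y => by
    rw [dact_apply, rf_inv hw.two e, e, map_sub, map_smul, LinearMap.sub_apply, LinearMap.smul_apply, smul_eq_mul,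
      smul_eq_mul, mul_comm]
  rw [← e, ← this]
  exact h.conj hg

theorem Q01.of_neg (hv : Rf Γ v φ) (h : Q01 Γ v φ) (hw : Rf Γ w ψ) (h1 : φ w = -1) (h2 : ψ v = -1) : Q01 Γ w ψ := by
  have := Q01.refl hv (Q01.refl hw h)
  simp only [map_sub, map_smul, LinearMap.sub_apply, LinearMap.smul_apply, hv.two, h1, h2, smul_eq_mul] at this
  convert this using 1 <;> module

/-- Normalisation of a reflection whose product with `(v, φ)` has order three. -/
theorem norm_one (h : φ w * ψ v = 1) : ∃ w' ψ', SameRf w ψ w' ψ' ∧ φ w' = -1 ∧ ψ' v = -1 := by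
  have h0 : ψ v ≠ 0 := right_ne_zero_of_mul_eq_one h
  refine ⟨_, _, ⟨-ψ v, neg_ne_zero.2 h0, rfl, rfl⟩, ?_, ?_⟩
  · rw [map_smul, smul_eq_mul]; linear_combination -h
  · rw [LinearMap.smul_apply, smul_eq_mul]; field_simp

theorem Q01.of_one (hv : Rf Γ v φ) (h : Q01 Γ v φ) (hw : Rf Γ w ψ) (h1 : φ w * ψ v = 1) : Q01 Γ w ψ := by
  obtain ⟨w', ψ', e1, e2, e3⟩ := norm_one h1
  exact (Q01.of_neg hv h (hw.same e1) e2 e3).same e1.symm

/-- The pairs `(m + n ω, m + n ω²)`. -/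
def omR {ω : F} (hω : ω ^ 2 + ω + 1 = 0) : Subring (F × F) where
  carrier := {p | ∃ a b : ℤ, p.1 = a + b * ω ∧ p.2 = a + b * ω ^ 2}
  mul_mem' := by
    rintro p q ⟨a, b, e1, e2⟩ ⟨c, d, e3, e4⟩
    refine ⟨a * c - b * d, a * d + b * c - b * d, ?_, ?_⟩
    · rw [Prod.fst_mul, e1, e3]; push_cast; linear_combination (b * d : F) * hω
    · rw [Prod.snd_mul, e2, e4]; push_cast; linear_combination (b * d * (ω ^ 2 - ω + 1) : F) * hω
  one_mem' := ⟨1, 0, by simp, by simp⟩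
  add_mem' := by
    rintro p q ⟨a, b, e1, e2⟩ ⟨c, d, e3, e4⟩
    exact ⟨a + c, b + d, by rw [Prod.fst_add, e1, e3]; push_cast; ring, by rw [Prod.snd_add, e2, e4]; push_cast; ring⟩
  zero_mem' := ⟨0, 0, by simp, by simp⟩
  neg_mem' := by
    rintro p ⟨a, b, e1, e2⟩
    exact ⟨-a, -b, by rw [Prod.fst_neg, e1]; push_cast; ring, by rw [Prod.snd_neg, e2]; push_cast; ring⟩

theorem pair_mem {ω : F} (hω : ω ^ 2 + ω + 1 = 0) (hz : ZSym Γ) (h0 : Rf Γ u χ) (hQ : Q01 Γ u χ) (hv : Rf Γ v φ)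
    (hw : Rf Γ w ψ) (a1 : χ v = -1) (a2 : φ u = -1) (b1 : χ w = -1) (b2 : ψ u = -1) : (φ w, ψ v) ∈ omR hω := by
  have hq := Q01.of_neg h0 hQ hv a1 a2
  rcases hq w ψ hw with e | e | ⟨t, -, rfl, rfl⟩
  · rcases mul_eq_zero.1 e with e | e
    · exact ⟨0, 0, by simp [e], by simp [hz _ _ _ _ hv hw e]⟩
    · exact ⟨0, 0, by simp [hz _ _ _ _ hw hv e], by simp [e]⟩
  · have := hq _ _ (h0.refl hw)
    simp only [map_sub, map_smul, LinearMap.sub_apply, LinearMap.smul_apply, a1, a2, b1, b2, smul_eq_mul] at this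
    rcases this with k | k | ⟨t, ht, k1, k2⟩
    · have k1 : φ w = 1 := sub_eq_zero.1 (pow_eq_zero_iff (n := 2) (by decide) |>.1 (by
        linear_combination (-φ w) * k + (φ w - 1) * e))
      rw [k1, one_mul] at e
      exact ⟨1, 0, by simp [k1], by simp [e]⟩
    · rcases mul_eq_zero.1 (show (φ w + ω) * (φ w + ω ^ 2) = 0 by
        linear_combination (-φ w) * k + (φ w - 1) * e + (φ w + ω - 1) * hω) with k1 | k1
      · exact ⟨0, -1, by push_cast; linear_combination k1, by push_cast; linear_combination -k + e - k1 + hω⟩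
      · exact ⟨1, 1, by push_cast; linear_combination k1 - hω, by push_cast; linear_combination -k + e - k1⟩
    · have k3 := congrArg φ k1
      have k4 := LinearMap.congr_fun k2 v
      simp only [map_sub, map_smul, LinearMap.sub_apply, LinearMap.smul_apply, a1, a2, hv.two, smul_eq_mul] at k3 k4
      have k5 : (φ w - 1) * (ψ v - 1) = 4 := by
        rw [show φ w - 1 = t * 2 by linear_combination k3, show ψ v - 1 = t⁻¹ * 2 by linear_combination k4]
        field_simp; norm_num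
      have k6 : φ w = -1 := eq_neg_of_add_eq_zero_left (pow_eq_zero_iff (n := 2) (by decide) |>.1 (by
        linear_combination (-φ w) * k5 + (φ w - 1) * e))
      exact ⟨-1, 0, by simp [k6], by push_cast; linear_combination e - k5 - k6⟩
  · rw [map_smul, a1, smul_eq_mul, mul_neg, mul_one, neg_inj] at b1
    subst b1
    exact ⟨2, 0, by simp [hv.two], by simp [hv.two]⟩

theorem om_of [Finite F] {ω : F} (hω : ω ^ 2 + ω + 1 = 0) (hg : RfGen Γ) (hz : ZSym Γ) (h0 : Rf Γ u χ) (hQ : Q01 Γ u χ) :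
    ∃ N : Subgroup (GL ι F), (∀ g ∈ Γ, Nrm N g) ∧ Rf N u χ ∧ ∀ g ∈ N, (tr g, tr g⁻¹) ∈ omR hω := by
  let T : Set ((ι → F) × Dual F (ι → F)) := {t | t = (u, χ) ∨ Rf Γ t.1 t.2 ∧ χ t.1 = -1 ∧ t.2 u = -1}
  let N := Subgroup.closure {g : GL ι F | ∃ t ∈ T, (∀ y, g • y = y - t.2 y • t.1) ∧
      ∀ y, g⁻¹ • y = y - (1 * t.2 y) • t.1}
  have hT : ∀ t ∈ T, Rf Γ t.1 t.2 := by
    rintro t (rfl | ht)
    exacts [h0, ht.1]
  have mem : ∀ t ∈ T, ∀ g : GL ι F, (∀ y, g • y = y - t.2 y • t.1) → g ∈ N := fun t ht g e =>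
    Subgroup.subset_closure ⟨t, ht, e, fun y => by rw [rf_inv (hT t ht).two e, e, one_mul]⟩
  refine ⟨N, fun g hg' => hg.induction (P := Nrm N) (fun a ha => by simpa using ha) (fun _ _ => Nrm.mul)
    (fun s w ψ hw es => ?_) hg', ⟨h0.two, h0.ne, h0.ne', ?_⟩, fun g hg => (trace_lemma (omR hω) T (ε := 1) (fun _ => 1)
      (fun _ _ => one_ne_zero) ?_ hg).1⟩
  · rcases hQ w ψ hw with e | e | e
    · obtain ⟨e1, e2⟩ : χ w = 0 ∧ ψ u = 0 := (mul_eq_zero.1 e).elim (fun e => ⟨e, hz _ _ _ _ h0 hw e⟩)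
        fun e => ⟨hz _ _ _ _ hw h0 e, e⟩
      intro n hn
      induction hn using Subgroup.closure_induction with
      | mem n hn =>
        obtain ⟨t, ht, en, -⟩ := hn
        refine mem (t.1 - ψ t.1 • w, t.2 - t.2 w • ψ) ?_ _ fun y => ?_
        · rcases ht with rfl | ⟨t1, t2, t3⟩
          · exact .inl (by simp [e1, e2])
          · exact .inr ⟨hw.refl t1, by simp [e1, t2], by simp [e2, t3]⟩
        · simp only [rf_inv hw.two es, mul_smul, es, en, map_sub, map_smul, hw.two, LinearMap.sub_apply,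
            LinearMap.smul_apply, smul_eq_mul]
          module
      | one => simp
      | mul a b _ _ ha hb => simpa [mul_assoc] using N.mul_mem ha hb
      | inv a _ ha => simpa [mul_assoc] using N.inv_mem ha
    · obtain ⟨w', ψ', e1, e2, e3⟩ := norm_one e
      exact nrm_of_mem (mem (w', ψ') (.inr ⟨hw.same e1, e2, e3⟩) s fun y => by rw [es, e1.apply])
    · exact nrm_of_mem (mem (u, χ) (.inl rfl) s fun y => by rw [es, e.apply])
  · obtain ⟨g, -, e⟩ := h0.mem
    exact ⟨g, mem (u, χ) (.inl rfl) g e, e⟩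
  · simp only [div_one, one_mul]
    rintro s (rfl | ⟨s1, s2, s3⟩) t (rfl | ⟨t1, t2, t3⟩)
    · exact ⟨2, 0, by simp [h0.two], by simp [h0.two]⟩
    · exact ⟨-1, 0, by simp [t2], by simp [t3]⟩
    · exact ⟨-1, 0, by simp [s3], by simp [s2]⟩
    · exact pair_mem hω hz h0 hQ s1 t1 s2 s3 t2 t3

end

/-- The reflection `e 0 - e 1` of a configuration `G(3, 3, 3)`. -/
theorem c01 {F : Type u} [Field F] {Γ : Subgroup (G F)} (hP : Pat Γ) {ω : F} {e : Fin 3 → V F}
    {x : Fin 3 → Dual F (V F)} (h : TCfg Γ ω e x) : Q01 Γ (e 0 - e 1) (x 0 - x 1) := fun w ψ hw => by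
  rw [LinearMap.sub_apply, map_sub]
  rcases hP ω e x h w ψ hw with h1 | ⟨i, h1, h2⟩ | ⟨i, j, l, a, h1, h2, h3, h4, h5, h6, h7, h8, h9, h10⟩ | ⟨h1, h2⟩
  · exact .inl (by simp [h1])
  · fin_cases i
    · exact .inr (.inl (by rw [(h2 1 (by decide)).1, (h2 1 (by decide)).2, ← h1]; simp [mul_comm]))
    · exact .inr (.inl (by rw [(h2 0 (by decide)).1, (h2 0 (by decide)).2, ← h1]; simp [mul_comm]))
    · exact .inl (by rw [(h2 0 (by decide)).1, (h2 1 (by decide)).1]; simp)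
  · have a0 : a ≠ 0 := fun k => by simp [k] at h4
    have h11 : ψ (e j) * x j w = 1 := by rw [h6, h7, ← h5]; field_simp
    have key : l = 2 → (x i w - x j w) * (ψ (e i) - ψ (e j)) = 0 ∨ (x i w - x j w) * (ψ (e i) - ψ (e j)) = 1 ∨
        (x j w = -x i w ∧ ψ (e j) = -ψ (e i) ∧ In e x w ψ) := fun _ => by
      rcases mul_eq_zero.1 (show (a - 1) * (a ^ 2 + a + 1) = 0 by linear_combination h4) with k | k
      · obtain rfl : a = 1 := sub_eq_zero.1 k
        by_cases h2 : (2 : F) = 0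
        · exact .inl (by rw [h6]; linear_combination (x i w) * (ψ (e i) - ψ (e j)) * h2)
        · exact .inr (.inr ⟨by simpa using h6, by simpa using h7, h10 h2⟩)
      · refine .inr (.inl ?_)
        rw [h6, h7, show a⁻¹ = a ^ 2 from inv_eq_of_mul_eq_one_right (by linear_combination h4)]
        linear_combination (1 + a) * (1 + a ^ 2) * h5 + k + h4
    have fin : x 1 w = -x 0 w → ψ (e 1) = -ψ (e 0) → ψ (e 0) * x 0 w = 1 → x 2 w = 0 → ψ (e 2) = 0 → In e x w ψ →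
        SameRf (e 0 - e 1) (x 0 - x 1) w ψ := fun k1 k2 k3 k4 k5 k6 => by
      refine ⟨x 0 w, right_ne_zero_of_mul_eq_one k3, ?_, ?_⟩
      · conv_lhs => rw [← k6.1, pr, Fin.sum_univ_three, k1, k4]
        module
      · conv_lhs => rw [← k6.2, prD, Fin.sum_univ_three, k2, k5, eq_inv_of_mul_eq_one_left k3]
        module
    have : (l = 2 ∧ i = 0 ∧ j = 1) ∨ (l = 2 ∧ i = 1 ∧ j = 0) ∨ (l = 1 ∧ (i = 0 ∨ j = 0)) ∨ (l = 0 ∧ (i = 1 ∨ j = 1)) := by
      clear * - h1 h2 h3; revert i j l; decide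
    rcases this with ⟨rfl, rfl, rfl⟩ | ⟨rfl, rfl, rfl⟩ | ⟨rfl, rfl | rfl⟩ | ⟨rfl, rfl | rfl⟩
    · exact (key rfl).imp_right (Or.imp_right fun k => fin k.1 k.2.1 h5 h8 h9 k.2.2)
    · refine (key rfl).imp (fun k => ?_) (Or.imp (fun k => ?_) fun k => fin ?_ ?_ h11 h8 h9 k.2.2)
      · linear_combination k
      · linear_combination k
      · linear_combination k.1
      · linear_combination k.2.1
    · exact .inr (.inl (by rw [h8, h9]; linear_combination h5))
    · exact .inr (.inl (by rw [h8, h9]; linear_combination h11))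
    · exact .inr (.inl (by rw [h8, h9]; linear_combination h5))
    · exact .inr (.inl (by rw [h8, h9]; linear_combination h11))
  · have k0 := h1 0
    have k1 := h1 1
    rcases mul_eq_zero.1 (show (x 0 w - x 1 w) * (x 0 w ^ 2 + x 0 w * x 1 w + x 1 w ^ 2) = 0 by
      linear_combination h2 0 1) with k | k
    · exact .inl (by rw [k, zero_mul])
    · refine .inr (.inl (mul_left_cancel₀ h.three ?_))
      linear_combination (1 + 3 * ψ (e 1) * x 1 w + 3 * ψ (e 1) * x 0 w) * k0 + (2 + 3 * ψ (e 0) * x 1 w) * k1 -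
        9 * ψ (e 0) * ψ (e 1) * k

end Om

theorem stepOm : StepOm.{u} := fun F _ _ Γ hΓ hP ω e x h g hg => by
  have hc : Ctx Γ := hΓ.elim (·.toCtx) (·.toCtx)
  have h0 : Rf Γ (e 0 - e 1) (x 0 - x 1) := by simpa using h.rf 0 1 (by decide) 1 (one_pow 3)
  obtain ⟨N, n1, n2, n3⟩ := Om.om_of h.hω hc.gen hc.zsym h0 (Om.c01 hP h)
  rcases hc.nirr N n1 ⟨_, _, h0, n2⟩ g hg with k | k
  · exact n3 g k
  · have := (Om.omR h.hω).neg_mem (n3 _ k)
    rwa [inv_neg, tr_neg, tr_neg, Prod.neg_mk, neg_neg, neg_neg] at this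

end CL.Low5
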