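/-
Project LOW5: the position of a reflection relative to `G(3, 3, 3)`.
-/
import Cfsg.Agent.Low5.Emb

set_option autoImplicit false
set_option linter.unusedSectionVars false

namespace CL.Low5

open Matrix Cfsg Cfsg.Geo CL.Asch CL.SLn CL.Low Module

universe u

namespace PatP

variable {F : Type u} [Field F] {Γ : Subgroup (G F)} {ω : F} {e : Fin 3 → V F} {x : Fin 3 → Dual F (V F)}
  {u v w : V F} {φ ψ χ : Dual F (V F)}

theorem ne0 {a : F} (h : a ^ 3 = 1) : a ≠ 0 := fun e => by simp [e] at h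

theorem cube (h : ω ^ 2 + ω + 1 = 0) : ω ^ 3 = 1 := by linear_combination (ω - 1) * h

theorem cube2 (h : ω ^ 2 + ω + 1 = 0) : (ω ^ 2) ^ 3 = 1 := by linear_combination (ω - 1) * (ω ^ 3 + 1) * h

theorem inv1 (h : ω ^ 2 + ω + 1 = 0) : ω⁻¹ = ω ^ 2 := inv_eq_of_mul_eq_one_right (by linear_combination cube h)

theorem inv2 (h : ω ^ 2 + ω + 1 = 0) : (ω ^ 2)⁻¹ = ω := inv_eq_of_mul_eq_one_right (by linear_combination cube h)

theorem ne1 (h : ω ^ 2 + ω + 1 = 0) (h3 : (3 : F) ≠ 0) : ω ≠ 1 := fun e => h3 (by rw [e] at h; linear_combination h)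

theorem ne2 (h : ω ^ 2 + ω + 1 = 0) (h3 : (3 : F) ≠ 0) : ω ^ 2 ≠ 1 := fun e =>
  ne1 h h3 (by linear_combination cube h - ω * e)

theorem same_four (h2 : φ v = 2) (h : SameRf v φ w ψ) : φ w * ψ v = 4 := by
  rw [mul_comm, h.pair, h2]; norm_num

theorem same_swap (i j : Fin 3) {b : F} (hb : b ≠ 0) :
    SameRf (e i - b⁻¹ • e j) (x i - b⁻¹⁻¹ • x j) (e j - b • e i) (x j - b⁻¹ • x i) :=
  ⟨-b, neg_ne_zero.2 hb, by match_scalars <;> field_simp, by match_scalars <;> field_simp⟩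

theorem c_same (hb : Bi e x) {i j : Fin 3} (hij : i ≠ j) {a b : F} (ha : a ^ 3 = 1) (hb' : b ^ 3 = 1) :
    (x i - a⁻¹ • x j) (e i - b • e j) * (x i - b⁻¹ • x j) (e i - a • e j) = 1 ∨ a = b := by
  refine or_iff_not_imp_right.2 fun h => ?_
  have a0 := ne0 ha
  have b0 := ne0 hb'
  have : a ^ 2 + a * b + b ^ 2 = 0 :=
    mul_left_cancel₀ (sub_ne_zero.2 h) (by linear_combination ha - hb')
  simp only [LinearMap.sub_apply, LinearMap.smul_apply, map_sub, map_smul, hb.diag, hb.off _ _ hij,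
    hb.off _ _ hij.symm, smul_eq_mul]
  field_simp
  linear_combination this

theorem c_std (hb : Bi e x) {i j k l : Fin 3} (hij : i ≠ j) (hkl : k ≠ l) {a b : F} (ha : a ^ 3 = 1) (hb' : b ^ 3 = 1) :
    (x i - a⁻¹ • x j) (e k - b • e l) * (x k - b⁻¹ • x l) (e i - a • e j) = 1 ∨
      SameRf (e i - a • e j) (x i - a⁻¹ • x j) (e k - b • e l) (x k - b⁻¹ • x l) := by
  have a0 := ne0 ha
  have b0 := ne0 hb'
  by_cases h1 : k = i ∧ l = j
  · obtain ⟨rfl, rfl⟩ := h1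
    exact (c_same hb hij ha hb').imp_right fun h => by rw [h]; exact SameRf.refl
  by_cases h2 : k = j ∧ l = i
  · obtain ⟨rfl, rfl⟩ := h2
    have hs := same_swap (e := e) (x := x) l k b0
    refine (c_same hb hij ha (b := b⁻¹) (by rw [inv_pow, hb', inv_one])).imp (fun h => ?_) fun h => by rw [h]; exact hs
    rw [mul_comm, hs.pair, mul_comm, h]
  left
  simp only [LinearMap.sub_apply, LinearMap.smul_apply, map_sub, map_smul, hb.apply, smul_eq_mul]
  fin_cases i <;> fin_cases j <;> fin_cases k <;> fin_cases l <;> simp at hij hkl h1 h2 ⊢ <;> field_simp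

theorem tri (hT : TriOnly Γ) (hu : Rf Γ u φ) (hv : Rf Γ v ψ) (hw : Rf Γ w χ) (hA : Asym u φ v ψ w χ) :
    ∃ (e : Fin 3 → V F) (x : Fin 3 → Dual F (V F)), In e x u φ ∧ In e x v ψ ∧ In e x w χ ∧
      ∀ v φ w ψ, Rf Γ v φ → In e x v φ → Rf Γ w ψ → In e x w ψ → φ w * ψ v = 1 ∨ SameRf v φ w ψ := by
  obtain ⟨ω, e, x, hc, h1, h2, h3, h4⟩ := hT u φ v ψ w χ hu hv hw hA
  refine ⟨e, x, h1, h2, h3, fun v φ w ψ a1 a2 a3 a4 => ?_⟩
  obtain ⟨i, j, a, hij, ha, s1⟩ := h4 v φ a1 a2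
  obtain ⟨k, l, b, hkl, hb, s2⟩ := h4 w ψ a3 a4
  refine (c_std hc.bi hij hkl ha hb).imp (fun h => ?_) fun h => (s1.symm.trans h).trans s2
  rw [s1.pair, mul_comm, s2.pair, mul_comm, h]

theorem tri1 (hT : TriOnly Γ) (hu : Rf Γ u φ) (hv : Rf Γ v ψ) (hw : Rf Γ w χ) (hA : Asym u φ v ψ w χ) :
    φ v * ψ u = 1 ∧ φ w * χ u = 1 := by
  obtain ⟨e, x, h1, h2, h3, h4⟩ := tri hT hu hv hw hA
  exact ⟨(h4 _ _ _ _ hu h1 hv h2).resolve_right (hA.not_same hu.two),
    (h4 _ _ _ _ hu h1 hw h3).resolve_right (hA.swap.rotate.not_same hu.two)⟩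

theorem vdm (h : ω ^ 2 + ω + 1 = 0) (h3 : (3 : F) ≠ 0) {p q a b : F} (e1 : (p - q) * (a - b) = 1)
    (e2 : (p - ω * q) * (a - ω ^ 2 * b) = 1) (e3 : (p - ω ^ 2 * q) * (a - ω * b) = 1) :
    p * a + q * b = 1 ∧ q * a = 0 ∧ p * b = 0 := by
  have hc := cube h
  have s : p * a + q * b = 1 := mul_left_cancel₀ h3 (by
    linear_combination e1 + e2 + e3 + (q * a + p * b) * h - 2 * q * b * hc)
  have t : q * a = 0 := mul_left_cancel₀ (mul_ne_zero (ne0 hc) (sub_ne_zero.2 (ne1 h h3))) (by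
    linear_combination e2 - ω ^ 2 * e1 + (ω ^ 2 - 1) * s - q * b * hc)
  exact ⟨s, t, by linear_combination s - e1 - t⟩

variable (hT : TriOnly Γ) (hc : TCfg Γ ω e x) (hv : Rf Γ v φ)
include hT hc hv

theorem pairs {i j : Fin 3} (h : φ (e i) * x i v ≠ φ (e j) * x j v) :
    (φ (e i) * x i v = 1 ∧ x j v = 0 ∧ φ (e j) = 0) ∨ (φ (e j) * x j v = 1 ∧ x i v = 0 ∧ φ (e i) = 0) := by
  have hij : i ≠ j := fun e => h (e ▸ rfl)
  have hω := hc.hω
  have h3 := cube hω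
  have r1 := hc.rf i j hij 1 (one_pow 3)
  have r2 := hc.rf i j hij ω h3
  rw [inv1 hω] at r2
  rw [inv_one, one_smul, one_smul] at r1
  have d1 := hc.bi.diag
  have o1 := hc.bi.off _ _ hij
  have o2 := hc.bi.off _ _ hij.symm
  have hA : Asym v φ _ _ _ _ := fun e0 : φ (e i - e j) * (x i - x j) (e i - ω • e j) * (x i - ω ^ 2 • x j) v =
      φ (e i - ω • e j) * (x i - ω ^ 2 • x j) (e i - e j) * (x i - x j) v => by
    simp only [LinearMap.sub_apply, LinearMap.smul_apply, map_sub, map_smul, d1, o1, o2, smul_eq_mul] at e0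
    refine h (mul_left_cancel₀ (mul_ne_zero (pow_ne_zero 2 (ne0 h3)) (sub_ne_zero.2 (ne2 hω hc.three))) ?_)
    linear_combination e0 + ((ω ^ 2 - 1) * (φ (e i) * x i v - φ (e j) * x j v)) * hω +
      (-φ (e i) * x i v + φ (e i) * x j v - φ (e j) * x i v + φ (e j) * x j v) * h3
  obtain ⟨c1, c2⟩ := tri1 hT hv r1 r2 hA
  obtain ⟨e', x', a1, a2, a3, a4⟩ := tri hT hv r1 r2 hA
  have c3 := (a4 _ _ _ _ hv a1 (r1.refl r2) (a2.refl a3)).resolve_right fun hs => h (by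
    have b1 := hs.pair (e i) (x i)
    have b2 := hs.pair (e j) (x j)
    simp only [LinearMap.sub_apply, LinearMap.smul_apply, map_sub, map_smul, d1, o1, o2, smul_eq_mul] at b1 b2
    linear_combination b2 - b1 + h3)
  simp only [LinearMap.sub_apply, LinearMap.smul_apply, map_sub, map_smul, d1, o1, o2, smul_eq_mul] at c1 c2 c3
  obtain ⟨s, t1, t2⟩ := vdm hω hc.three c1 c2 (by
    linear_combination c3 + (φ (e j) * x j v - φ (e i) * x i v) * h3)
  by_cases h0 : φ (e j) * x j v = 0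
  · rw [h0, add_zero] at s
    have := mul_ne_zero_iff.1 (s ▸ one_ne_zero : φ (e i) * x i v ≠ 0)
    exact Or.inl ⟨s, (mul_eq_zero.1 t2).resolve_left this.1, (mul_eq_zero.1 t1).resolve_right this.2⟩
  · have := mul_ne_zero_iff.1 h0
    have b := (mul_eq_zero.1 t1).resolve_left this.1
    exact Or.inr ⟨by rw [← s, b, mul_zero, zero_add], b, (mul_eq_zero.1 t2).resolve_right this.2⟩

theorem two_one {i j l : Fin 3} (li : l ≠ i) (lj : l ≠ j) (ij : i ≠ j) (h1 : φ (e i) * x i v = 1)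
    (h2 : φ (e j) * x j v = 1) (h3 : x l v = 0) (h4 : φ (e l) = 0) : (-(φ (e i) * x j v)) ^ 3 = 1 := by
  obtain ⟨b, hb, hτ⟩ : ∃ b : F, b ^ 3 = 1 ∧ (φ (e i) * x j v * b) ^ 2 ≠ 1 := by
    by_cases h : (φ (e i) * x j v) ^ 2 = 1
    · exact ⟨ω, cube hc.hω, by rw [mul_pow, h, one_mul]; exact ne2 hc.hω hc.three⟩
    · exact ⟨1, one_pow 3, by rwa [mul_one]⟩
  have b0 := ne0 hb
  have r1 := hc.rf i l li.symm 1 (one_pow 3)
  have r2 := hc.rf j l lj.symm b hb
  rw [inv_one, one_smul, one_smul] at r1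
  have d1 := hc.bi.diag
  have o := hc.bi.off
  have hA : Asym v φ _ _ _ _ := fun e0 : φ (e i - e l) * (x i - x l) (e j - b • e l) * (x j - b⁻¹ • x l) v =
      φ (e j - b • e l) * (x j - b⁻¹ • x l) (e i - e l) * (x i - x l) v => by
    simp only [LinearMap.sub_apply, LinearMap.smul_apply, map_sub, map_smul, d1, o _ _ ij, o _ _ ij.symm, o _ _ li,
      o _ _ lj, o _ _ li.symm, o _ _ lj.symm, smul_eq_mul, h3, h4] at e0
    field_simp at e0
    exact hτ (by linear_combination (φ (e i) * x j v) * e0 + φ (e j) * x j v * h1 + h2)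
  obtain ⟨e', x', a1, a2, a3, a4⟩ := tri hT hv r1 r2 hA
  have c : (φ - φ (e i - e l) • (x i - x l)) (e j - b • e l) * (x j - b⁻¹ • x l) (v - (x i - x l) v • (e i - e l)) *
      (φ (e i) * x j v * b) = -(φ (e i) * x j v * b - 1) ^ 2 := by
    simp only [LinearMap.sub_apply, LinearMap.smul_apply, map_sub, map_smul, d1, o _ _ ij, o _ _ ij.symm, o _ _ li,
      o _ _ lj, o _ _ li.symm, o _ _ lj.symm, smul_eq_mul, h3, h4]
    field_simp
    linear_combination (φ (e i) * x j v * b - φ (e j) * x j v) * h1 + (φ (e i) * x j v * b - 1) * h2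
  rcases a4 _ _ _ _ (r1.refl hv) (a2.refl a1) r2 a3 with h | h
  · rw [h] at c
    linear_combination -(φ (e i) * x j v * b + 1) * c + (φ (e i) * x j v) ^ 3 * hb
  · rw [same_four (r1.refl hv).two h] at c
    have : φ (e i) * x j v * b + 1 = 0 := pow_eq_zero_iff two_ne_zero |>.1 (by linear_combination c)
    exact absurd (by linear_combination (φ (e i) * x j v * b - 1) * this) hτ

omit hT in
theorem all_zero (hz : ZSym Γ) (h : ∀ i, φ (e i) * x i v = 0) (i : Fin 3) : x i v = 0 ∧ φ (e i) = 0 := by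
  have h3 := cube hc.hω
  have n1 := sub_ne_zero.2 (ne1 hc.hω hc.three)
  have n2 := sub_ne_zero.2 (ne2 hc.hω hc.three)
  have z1 : ∀ i j, i ≠ j → φ (e i) = 0 → φ (e j) = 0 → x j v = 0 := fun i j hij a b => by
    have e1 := hz _ _ _ _ hv (hc.rf i j hij 1 (one_pow 3)) (by simp [a, b])
    have e2 := hz _ _ _ _ hv (hc.rf i j hij ω h3) (by simp [a, b])
    simp only [LinearMap.sub_apply, LinearMap.smul_apply, smul_eq_mul, inv1 hc.hω, inv_one] at e1 e2
    exact mul_left_cancel₀ n2 (by linear_combination e1 - e2)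
  have z2 : ∀ i j, i ≠ j → x i v = 0 → x j v = 0 → φ (e j) = 0 := fun i j hij a b => by
    have e1 := hz _ _ _ _ (hc.rf i j hij 1 (one_pow 3)) hv (by simp [a, b])
    have e2 := hz _ _ _ _ (hc.rf i j hij ω h3) hv (by simp [a, b])
    simp only [map_sub, map_smul, smul_eq_mul] at e1 e2
    exact mul_left_cancel₀ n1 (by linear_combination e1 - e2)
  have hp : ∀ i, φ (e i) = 0 := fun i => by
    by_contra hi
    have a := (mul_eq_zero.1 (h i)).resolve_left hi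
    have b : ∀ j, j ≠ i → φ (e j) = 0 := fun j hj => (mul_eq_zero.1 (h j)).elim id (z2 i j hj.symm a)
    obtain ⟨j, l, ji, li, lj⟩ := (by decide : ∀ i : Fin 3, ∃ j l, j ≠ i ∧ l ≠ i ∧ l ≠ j) i
    exact hi (z2 j i ji (z1 l j lj (b l li) (b j ji)) a)
  obtain ⟨j, hj⟩ := exists_ne i
  exact ⟨z1 j i hj (hp j) (hp i), hp i⟩

theorem eq_step {X : F} (h0 : X ≠ 0) (h : ∀ i, φ (e i) * x i v = X) {i j l : Fin 3} (li : l ≠ i) (lj : l ≠ j)
    (ij : i ≠ j) {a b : F} (ha : a ^ 3 = 1) (hb : b ^ 3 = 1) (h1 : a * x i v ≠ x j v) (h2 : b * x j v ≠ x l v)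
    (h3 : b * (a * x i v) ≠ x l v) : (φ (e i) - a * φ (e j)) * (x i v - a⁻¹ * x j v) = 1 := by
  have a0 := ne0 ha
  have b0 := ne0 hb
  have d1 := hc.bi.diag
  have o := hc.bi.off
  have n : ∀ i, x i v ≠ 0 := fun i e => h0 (by rw [← h i, e, mul_zero])
  have hp : ∀ i, φ (e i) = X / x i v := fun i => eq_div_of_mul_eq (n i) (h i)
  have := (tri1 hT hv (hc.rf i j ij a ha) (hc.rf j l lj.symm b hb) fun e0 => by
    simp only [LinearMap.sub_apply, LinearMap.smul_apply, map_sub, map_smul, d1, o _ _ ij, o _ _ ij.symm, o _ _ li,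
      o _ _ lj, o _ _ li.symm, o _ _ lj.symm, smul_eq_mul, hp] at e0
    have n1 := n i
    have n2 := n j
    have n3 := n l
    field_simp at e0
    exact mul_ne_zero (mul_ne_zero (sub_ne_zero.2 h1) (sub_ne_zero.2 h2)) (sub_ne_zero.2 h3)
      (by linear_combination -e0)).1
  simpa using this

omit hT hv in
theorem avoid {y y' : F} (z : F) (hy : y ≠ 0) (hy' : y' ≠ 0) : ∃ b : F, b ^ 3 = 1 ∧ b * y ≠ z ∧ b * y' ≠ z := by
  by_contra hne
  push Not at hne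
  have n1 := ne1 hc.hω hc.three
  have n2 := ne2 hc.hω hc.three
  have n3 : ω ^ 2 ≠ ω := fun e => n1 (mul_left_cancel₀ (ne0 (cube hc.hω)) (by linear_combination e))
  have e1 := hne 1 (one_pow 3)
  have e2 := hne ω (cube hc.hω)
  have e3 := hne _ (cube2 hc.hω)
  have k : ∀ {a b y : F}, y ≠ 0 → a ≠ b → a * y = z → b * y ≠ z := fun hy hab h1 h2 =>
    hab (mul_right_cancel₀ hy (h1.trans h2.symm))
  by_cases c1 : 1 * y = z
  · exact k hy' n3 (e3 (k hy n2.symm c1)) (e2 (k hy n1.symm c1))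
  by_cases c2 : ω * y = z
  · exact k hy' n2 (e3 (k hy n3.symm c2)) (e1 c1)
  · exact k hy' n1 (e2 c2) (e1 c1)

theorem eq_cube {X : F} (h0 : X ≠ 0) (h : ∀ i, φ (e i) * x i v = X) (i j : Fin 3) : x i v ^ 3 = x j v ^ 3 := by
  by_contra hne
  have ij : i ≠ j := fun e => hne (e ▸ rfl)
  obtain ⟨l, li, lj⟩ := (by decide : ∀ i j : Fin 3, ∃ l, l ≠ i ∧ l ≠ j) i j
  have n : ∀ i, φ (e i) ≠ 0 ∧ x i v ≠ 0 := fun i => mul_ne_zero_iff.1 (h i ▸ h0)
  have k : ∀ a : F, a ^ 3 = 1 → (φ (e i) - a * φ (e j)) * (x i v - a⁻¹ * x j v) = 1 := fun a ha => by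
    obtain ⟨b, hb, h1, h2⟩ := avoid hc (x l v) (n j).2 (mul_ne_zero (ne0 ha) (n i).2)
    exact eq_step hT hc hv h0 h li lj ij ha hb (fun e => hne (by rw [← e, mul_pow, ha, one_mul])) h1 h2
  have e1 := k 1 (one_pow 3)
  have e2 := k ω (cube hc.hω)
  have e3 := k _ (cube2 hc.hω)
  rw [inv1 hc.hω] at e2
  rw [inv2 hc.hω] at e3
  exact mul_ne_zero (n j).1 (n i).2 (vdm hc.hω hc.three (by simpa using e1) e2 e3).2.1

theorem eq_third {X : F} (h0 : X ≠ 0) (h : ∀ i, φ (e i) * x i v = X) : 3 * X = 1 := by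
  have n : ∀ i, x i v ≠ 0 := fun i e => h0 (by rw [← h i, e, mul_zero])
  have h3 := cube hc.hω
  have k : ∀ i j, (ω * x j v / x i v) ^ 3 = 1 := fun i j => by
    rw [div_pow, mul_pow, h3, one_mul, eq_cube hT hc hv h0 h j i, div_self (pow_ne_zero 3 (n i))]
  have k2 : ∀ {a y : F}, a ≠ 1 → y ≠ 0 → a * y ≠ y := fun ha hy e => ha (mul_right_cancel₀ hy (by simpa using e))
  have n0 := n 0
  have n1 := n 1
  have w0 := ne0 h3
  have := eq_step hT hc hv h0 h (i := 0) (j := 1) (l := 2) (by decide) (by decide) (by decide) (k 0 1) (k 1 2)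
    (by rw [div_mul_cancel₀ _ n0]; exact k2 (ne1 hc.hω hc.three) n1)
    (by rw [div_mul_cancel₀ _ n1]; exact k2 (ne1 hc.hω hc.three) (n 2))
    (by rw [div_mul_cancel₀ _ n0, show ω * x 2 v / x 1 v * (ω * x 1 v) = ω ^ 2 * x 2 v by field_simp]
        exact k2 (ne2 hc.hω hc.three) (n 2))
  rw [eq_div_of_mul_eq n0 (h 0), eq_div_of_mul_eq n1 (h 1)] at this
  field_simp at this
  exact mul_left_cancel₀ w0 (by linear_combination this + X * hc.hω)

omit hT hv in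
theorem exists_sc : ∃ h ∈ Γ, Sc e x ω h := by
  have h3 := cube hc.hω
  obtain ⟨a, ha, ea⟩ := (hc.rf 1 0 (by decide) ω h3).mem
  obtain ⟨b, hb, eb⟩ := (hc.rf 1 0 (by decide) 1 (one_pow 3)).mem
  obtain ⟨c, hc', ec⟩ := (hc.rf 1 2 (by decide) ω h3).mem
  obtain ⟨d, hd, ed⟩ := (hc.rf 1 2 (by decide) 1 (one_pow 3)).mem
  refine ⟨a * b * (c * d), mul_mem (mul_mem ha hb) (mul_mem hc' hd), fun y => ?_⟩
  simp only [mul_smul, ea, eb, ec, ed, LinearMap.sub_apply, LinearMap.smul_apply, map_sub, map_smul, hc.bi.apply,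
    smul_eq_mul, pr, Fin.sum_univ_three, inv1 hc.hω, inv_one]
  simp
  match_scalars <;> grind

omit hT in
theorem in_of_two (ho : Od Γ) (h : φ (pr e x v) = 2) : In e x v φ := by
  obtain ⟨g, hg, hs⟩ := exists_sc hc
  have hb := hc.bi
  have e1 : pr e x (v - pr e x v) = 0 := by rw [pr_sub, hb.pr_pr, sub_self]
  obtain ⟨a, b⟩ := dl2 (w := pr e x v) (d := v - pr e x v) (ψ := prD e x φ) (χ := φ - prD e x φ) ho.two ho.noTv
    (nrm_of_mem hg) (by simpa using hv) (ne2 hc.hω hc.three) (hs.eig (hb.pr_pr v)) (hs.fix e1)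
    (fun y => by rw [hs, prD_apply, prD_apply, pr_add, pr_smul, hb.pr_pr, map_add, map_smul, smul_eq_mul]; ring)
    (fun y => by simp [hs y, prD_apply, pr_add, pr_smul, hb.pr_pr]) (by rw [prD_apply, e1, map_zero])
    (by simp [prD_apply, hb.pr_pr]) (by simp [prD_apply, pr_sub, hb.pr_pr, h, hv.two])
  exact ⟨(sub_eq_zero.1 a).symm, (sub_eq_zero.1 b).symm⟩

end PatP

open PatP in
theorem stepPat : StepPat.{u} := by
  intro F _ _ Γ hΓ hT ω e x hc v φ hv
  have hz : ZSym Γ := hΓ.elim (·.zsym) (·.zsym)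
  by_cases h : ∀ i, φ (e i) * x i v = φ (e 0) * x 0 v
  · by_cases h0 : φ (e 0) * x 0 v = 0
    · exact Or.inl (all_zero hc hv hz fun i => (h i).trans h0)
    · exact Or.inr (Or.inr (Or.inr ⟨fun i => h i ▸ eq_third hT hc hv h0 h, eq_cube hT hc hv h0 h⟩))
  obtain ⟨i, l, h1, h2, h3⟩ : ∃ i l, φ (e i) * x i v = 1 ∧ x l v = 0 ∧ φ (e l) = 0 := by
    obtain ⟨i, hi⟩ := not_forall.1 h
    exact (pairs hT hc hv hi).elim (fun h => ⟨_, _, h⟩) fun h => ⟨_, _, h⟩
  have n := mul_ne_zero_iff.1 (h1 ▸ one_ne_zero : φ (e i) * x i v ≠ 0)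
  have li : l ≠ i := fun e => n.2 (e ▸ h2)
  obtain ⟨j, ij, lj, hj⟩ := (by decide : ∀ i l : Fin 3, l ≠ i → ∃ j, i ≠ j ∧ l ≠ j ∧ ∀ m, m = i ∨ m = j ∨ m = l) i l li
  by_cases h4 : φ (e j) * x j v = 1
  · have m := mul_ne_zero_iff.1 (h4 ▸ one_ne_zero : φ (e j) * x j v ≠ 0)
    refine Or.inr (Or.inr (Or.inl ⟨i, j, l, _, ij, li, lj, two_one hT hc hv li lj ij h1 h4 h2 h3, h1,
      by linear_combination -x j v * h1, ?_, h2, h3, fun h2' => in_of_two hc hv
        (hΓ.resolve_right fun h => h2' h.two) ?_⟩))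
    · have := n.1
      have := m.2
      field_simp
      exact h4
    · rw [apply_pr, ← Finset.add_sum_erase _ _ (Finset.mem_univ i),
        ← Finset.add_sum_erase _ _ (Finset.mem_erase.2 ⟨ij.symm, Finset.mem_univ j⟩), h1, h4,
        Finset.sum_eq_zero fun m hm => ?_]
      · norm_num
      · simp only [Finset.mem_erase] at hm
        rw [((hj m).resolve_left hm.2.1).resolve_left hm.1, h2, mul_zero]
  · refine Or.inr (Or.inl ⟨i, h1, fun m hm => ?_⟩)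
    rcases (hj m).resolve_left hm with rfl | rfl
    · exact ((pairs hT hc hv (h1 ▸ Ne.symm h4)).resolve_right fun h => n.2 h.2.1).2
    · exact ⟨h2, h3⟩

end CL.Low5
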