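/-
Project LOW5: asymmetric planes.
-/
import Cfsg.Agent.Low5.Emb

set_option autoImplicit false
set_option linter.unusedSectionVars false

namespace CL.Low5

open Matrix Cfsg Cfsg.Geo CL.Asch CL.SLn CL.Low Module
open scoped commutatorElement

universe u

namespace Plane

variable {F : Type u} [Field F] {u v w : Fin 2 → F} {φ ψ χ : Dual F (Fin 2 → F)} {g r s t : GL (Fin 2) F}
  {L : Subgroup (GL (Fin 2) F)}

theorem mk_one : ProjGenLinGroup.mk g = 1 ↔ ∃ a : F, (g : Matrix (Fin 2) (Fin 2) F) = a • 1 := by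
  rw [CL.SL2.pgl_mk_eq_one_iff_isScal, CL.GL2.isScal_iff]

theorem cay (A : Matrix (Fin 2) (Fin 2) F) : A * A = A.trace • A - A.det • 1 := by
  ext i j
  fin_cases i <;> fin_cases j <;> simp [mul_apply, trace_fin_two, det_fin_two] <;> ring

theorem tr_zero (h1 : ProjGenLinGroup.mk g ≠ 1) (h2 : ProjGenLinGroup.mk (g * g) = 1) : tr g = 0 := by
  obtain ⟨a, ha⟩ := mk_one.1 h2
  rw [Units.val_mul, cay, sub_eq_iff_eq_add, ← add_smul] at ha
  by_contra h
  exact h1 (mk_one.2 ⟨_, by rw [mul_smul (tr g)⁻¹, ← ha, smul_smul, inv_mul_cancel₀ h, one_smul]⟩)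

theorem sq_neg (h1 : ProjGenLinGroup.mk g ≠ 1) (h2 : ProjGenLinGroup.mk (g * g) = 1) (h3 : GeneralLinearGroup.det g = 1) :
    g * g = -1 := Units.ext (by
  have := tr_zero h1 h2
  rw [Units.val_mul, cay, show (g : Matrix (Fin 2) (Fin 2) F).trace = 0 from this,
    show (g : Matrix (Fin 2) (Fin 2) F).det = 1 from congrArg Units.val h3]
  simp)

theorem tr_rf (h : φ u = 2) (hr : ∀ y, r • y = y - φ y • u) : tr r = 0 := by
  have := tr_rank_one hr 1
  rw [mul_one, tr_one, one_smul, h] at this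
  simpa using this

theorem rf_ne (h2 : (2 : F) ≠ 0) (h : φ u = 2) (hr : ∀ y, r • y = y - φ y • u) : ProjGenLinGroup.mk r ≠ 1 := fun e => by
  obtain ⟨a, ha⟩ := mk_one.1 e
  have h1 := tr_rf h hr
  rw [tr, ha, trace_smul, trace_one, Fintype.card_fin, Nat.cast_ofNat, smul_eq_mul, mul_eq_zero, or_iff_left h2] at h1
  exact r.ne_zero (by rw [ha, h1, zero_smul])

theorem tr_three (h1 : φ u = 2) (h2 : ψ v = 2) (h3 : χ w = 2) (hr : ∀ y, r • y = y - φ y • u)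
    (hs : ∀ y, s • y = y - ψ y • v) (ht : ∀ y, t • y = y - χ y • w) :
    tr (r * s * t) = -4 + φ v * ψ u + φ w * χ u + ψ w * χ v - φ v * ψ w * χ u := by
  rw [mul_assoc, tr_rank_one hr, tr_rank_one hs, tr_rf h3 ht]
  simp only [mul_smul, hs, ht, map_sub, map_smul, smul_eq_mul, h1, h2]
  ring

/-- If the product of three reflections is projectively an involution, the triple is symmetric. -/
theorem dih (h1 : φ u = 2) (h2 : ψ v = 2) (h3 : χ w = 2) (hr : ∀ y, r • y = y - φ y • u)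
    (hs : ∀ y, s • y = y - ψ y • v) (ht : ∀ y, t • y = y - χ y • w) (e1 : ProjGenLinGroup.mk (r * s * t) ≠ 1)
    (e2 : ProjGenLinGroup.mk (r * s * t * (r * s * t)) = 1) : ¬ Asym u φ v ψ w χ := fun hA => by
  have a := tr_zero e1 e2
  have b := tr_zero (g := (r * s * t)⁻¹) (by rwa [map_inv, Ne, inv_eq_one]) (by
    rw [← _root_.mul_inv_rev, map_inv, e2, inv_one])
  rw [_root_.mul_inv_rev, _root_.mul_inv_rev, rf_inv h1 hr, rf_inv h2 hs, rf_inv h3 ht, ← mul_assoc,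
    tr_three h3 h2 h1 ht hs hr] at b
  rw [tr_three h1 h2 h3 hr hs ht] at a
  exact hA (by linear_combination b - a)

theorem small [Finite F] (hT : ¬ HasTv L) : Low.Small (ProjGenLinGroup.mk.comp L.subtype).range := by
  obtain ⟨p, hp⟩ := CharP.exists F
  have := Fact.mk (CharP.char_is_prime F p)
  refine small_range p _ fun h => hT ?_
  obtain ⟨g, hg⟩ := exists_prime_orderOf_dvd_card' p h
  refine ⟨g, g.2, isTv_of_sq (by simp) (fun e => this.out.ne_one ?_) (matrix_ext_mulVec fun y => ?_)⟩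
  · rw [← hg, orderOf_eq_one_iff]; exact Subtype.ext e
  · have h1 := sq_zero_on_plane (p := p) (u := (g : GL (Fin 2) F)) (W := ⊤)
      (by rw [← hg, ← Subgroup.coe_pow, pow_orderOf_eq_one]; rfl) (by simp) (fun _ _ => trivial) (w := y) trivial
    rw [← mulVec_mulVec, sub_mulVec, sub_mulVec, one_mulVec, one_mulVec, zero_mulVec]
    exact sub_eq_zero.2 h1

/-- The conclusion in `GL₂`. -/
def Out (L : Subgroup (GL (Fin 2) F)) : Prop :=
  -1 ∈ L ∧ ((∃ (e : Fin 2 → Fin 2 → F) (x : Fin 2 → Dual F (Fin 2 → F)), Bi e x ∧ ∀ v φ, Rf L v φ → Mon e x v φ) ∨ ¬ NQ L)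

theorem central (h2 : (2 : F) ≠ 0) (hg : RfGen L) (hi : Irr L) (h : Rf L v φ) (hL : r ∈ L) (hr : ∀ y, r • y = y - φ y • v)
    (hc : ∀ g ∈ L, ProjGenLinGroup.mk (g * r) = ProjGenLinGroup.mk (r * g)) : Out L := by
  have hb0 : Bi ![v] ![(2 : F)⁻¹ • φ] := ⟨fun i => by fin_cases i; simp [h.two, h2], fun i j e => by omega⟩
  obtain ⟨d, χ, d1, d2, d3⟩ := hb0.exists_snoc (by simp)
  have d4 : φ d = 0 := by simpa [h2] using d1 0
  have d5 : χ v = 0 := d2 0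
  have hb : Bi ![v, d] ![(2 : F)⁻¹ • φ, χ] := ⟨fun i => by fin_cases i <;> simp [h.two, h2, d3], fun i j e => by
    fin_cases i <;> fin_cases j <;> simp [d4, d5] at e ⊢⟩
  have key : ∀ w (ψ : Dual F (Fin 2 → F)), ∀ s ∈ L, (∀ y, s • y = y - ψ y • w) → ∃ l : F, (∀ y, s • r • y = l • r • s • y) ∧
      (1 - ψ v * (2⁻¹ * φ w)) * (1 - l) = 0 ∧ ψ v * χ w * (1 + l) = 0 ∧ ψ d * (2⁻¹ * φ w) * (1 + l) = 0 ∧
        (1 - ψ d * χ w) * (1 - l) = 0 := fun w ψ s hs es => by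
    obtain ⟨l, hl⟩ := (mk_one (g := s * r * (r * s)⁻¹)).1 (by rw [map_mul, map_inv, hc s hs, mul_inv_cancel])
    have h1 : ∀ y : Fin 2 → F, s • r • y = l • r • s • y := fun y => by
      rw [← mul_smul, ← inv_mul_cancel_right (s * r) (r * s), mul_smul, gsmul_def, hl, smul_mulVec, one_mulVec, mul_smul]
    have a1 := congrArg φ (h1 v)
    have a2 := congrArg χ (h1 v)
    have a3 := congrArg φ (h1 d)
    have a4 := congrArg χ (h1 d)
    simp only [hr, es, map_sub, map_smul, smul_eq_mul, h.two, d3, d4, d5] at a1 a2 a3 a4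
    refine ⟨l, h1, ?_, by linear_combination a2, ?_, by linear_combination a4⟩
    · field_simp; linear_combination -a1
    · field_simp; linear_combination -a3
  refine ⟨?_, .inl ⟨_, _, hb, fun w ψ hw => ?_⟩⟩
  · by_contra hn
    refine (irr_rf hg hi (Submodule.span F {v}) fun w ψ hw y hy => ?_).elim
      (fun e => h.ne (Submodule.span_singleton_eq_bot.1 e)) fun e => ?_
    swap
    · obtain ⟨c, rfl⟩ := Submodule.mem_span_singleton.1 (e.ge (Submodule.mem_top (x := d)))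
      simp [d5] at d3
    obtain ⟨c, rfl⟩ := Submodule.mem_span_singleton.1 hy
    obtain ⟨s, hs, es⟩ := hw.mem
    obtain ⟨l, l0, -, l2, -⟩ := key w ψ s hs es
    rcases mul_eq_zero.1 l2 with e | e
    · rw [← hb.pr_eq_self (by simp) w, pr, Fin.sum_univ_two, smul_add, smul_smul, smul_smul, map_smul, smul_eq_mul,
        show c * ψ v * (![(2 : F)⁻¹ • φ, χ] 1) w = 0 by rw [mul_assoc]; exact mul_eq_zero_of_right c e, zero_smul, add_zero]
      exact Submodule.smul_mem _ _ (Submodule.mem_span_singleton_self v)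
    · refine absurd (mul_mem (mul_mem hs hL) (mul_mem hs hL)) (fun e1 => hn ?_)
      rwa [show s * r * (s * r) = -1 from gext fun y => by
        rw [mul_smul, mul_smul, l0, ← mul_smul s, ← mul_assoc, rf_sq hw.two es, one_mul, ← mul_smul r, rf_sq h.two hr,
          eq_neg_of_add_eq_zero_right e, neg_gsmul, neg_smul, one_smul]] at e1
  obtain ⟨s, hs, es⟩ := hw.mem
  obtain ⟨l, -, l1, l2, l3, l4⟩ := key w ψ s hs es
  obtain ⟨i1, i2⟩ := in_of_card hb (by simp) w ψ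
  rw [pr, Fin.sum_univ_two] at i1
  rw [prD, Fin.sum_univ_two] at i2
  have i3 := hw.two
  rw [← hb.pr_eq_self (by simp) w, apply_pr, Fin.sum_univ_two] at i3
  change ψ v * (2⁻¹ * φ w) + ψ d * χ w = 2 at i3
  change (2⁻¹ * φ w) • _ + χ w • _ = _ at i1
  change ψ v • _ + ψ d • _ = _ at i2
  generalize 2⁻¹ * φ w = α, χ w = β, ψ v = γ, ψ d = δ at *
  by_cases e : l = 1
  · rw [e, one_add_one_eq_two, mul_eq_zero, or_iff_left h2] at l2 l3
    by_cases e1 : γ * α = 0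
    · rw [e1, zero_add] at i3
      have hδ := left_ne_zero_of_mul (i3 ▸ h2)
      have hβ := right_ne_zero_of_mul (i3 ▸ h2)
      refine .inl ⟨1, β, hβ, ?_, ?_⟩
      · rw [← i1, (mul_eq_zero.1 l3).resolve_left hδ, zero_smul, zero_add]
      · rw [← i2, (mul_eq_zero.1 l2).resolve_right hβ, zero_smul, zero_add, ← i3, mul_div_cancel_right₀ _ hβ]
    · have hγ := left_ne_zero_of_mul e1
      have hα := right_ne_zero_of_mul e1
      rw [(mul_eq_zero.1 l2).resolve_left hγ, mul_zero, add_zero] at i3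
      refine .inl ⟨0, α, hα, ?_, ?_⟩
      · rw [← i1, (mul_eq_zero.1 l2).resolve_left hγ, zero_smul, add_zero]
      · rw [← i2, (mul_eq_zero.1 l3).resolve_right hα, zero_smul, add_zero, ← i3, mul_div_cancel_right₀ _ hα]
  · rw [mul_eq_zero, or_iff_left (sub_ne_zero.2 (Ne.symm e)), sub_eq_zero, eq_comm] at l1 l4
    exact .inr ⟨0, 1, α, β, zero_ne_one, right_ne_zero_of_mul_eq_one l1, right_ne_zero_of_mul_eq_one l4, i1.symm, by
      rw [← i2, eq_inv_of_mul_eq_one_left l1, eq_inv_of_mul_eq_one_left l4]⟩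

/-- A four-group generated by commutators. -/
def KB (X : Type*) [Group X] : Prop := ∃ a b : X, ⁅a, b⁆ ≠ 1 ∧ ⁅a⁻¹, b⁆ ≠ 1 ∧ ⁅a, b⁆ * ⁅a⁻¹, b⁆ ≠ 1 ∧
  ⁅a, b⁆ * ⁅a, b⁆ = 1 ∧ ⁅a⁻¹, b⁆ * ⁅a⁻¹, b⁆ = 1 ∧ ⁅a, b⁆ * ⁅a⁻¹, b⁆ * (⁅a, b⁆ * ⁅a⁻¹, b⁆) = 1

theorem klein (h2 : (2 : F) ≠ 0) {X : Type*} [Group X] (hX : KB X) (f : L →* X) (hs : Function.Surjective f)
    (hf : ∀ g : L, f g = 1 ↔ ProjGenLinGroup.mk (g : GL (Fin 2) F) = 1) : Out L := by
  obtain ⟨a, b, h⟩ := hX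
  obtain ⟨a, rfl⟩ := hs a
  obtain ⟨b, rfl⟩ := hs b
  simp only [← map_inv, ← map_commutatorElement, ← map_mul, Ne, hf] at h
  obtain ⟨a1, a2, a3, a4, a5, a6⟩ := h
  have hd : ∀ a : L, GeneralLinearGroup.det ((⁅a, b⁆ : L) : GL (Fin 2) F) = 1 := fun a =>
    (map_commutatorElement (GeneralLinearGroup.det.comp L.subtype) a b).trans
      (commutatorElement_eq_one_iff_mul_comm.2 (mul_comm _ _))
  have b1 := sq_neg a1 a4 (hd _)
  have b2 := sq_neg a2 a5 (hd _)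
  have b3 := sq_neg a3 a6 (by rw [Subgroup.coe_mul, map_mul, hd, hd, mul_one])
  have m : ∀ a : L, ((⁅a, b⁆ : L) : GL (Fin 2) F) ∈ ⁅L, L⁆ := fun a => Subgroup.commutator_mem_commutator a.2 b.2
  refine ⟨b1 ▸ mul_mem (Subtype.property _) (Subtype.property _), .inr fun hN => h2 ?_⟩
  have := hN _ (m a) _ (m a⁻¹) (by rw [show 4 = 2 * 2 from rfl, pow_mul, sq, sq, b1, neg_mul_neg, one_mul]) (by
    rw [Subgroup.coe_mul, ← b2, ← mul_assoc, mul_left_inj] at b3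
    rw [mul_inv_eq_iff_eq_mul, eq_inv_mul_iff_mul_eq, ← mul_assoc, b3]) (b2.trans b1.symm)
  rw [b1] at this
  have h3 := congrArg (fun g : GL (Fin 2) F => (g : Matrix (Fin 2) (Fin 2) F) 0 0) this
  simp only [Units.val_neg, Units.val_one, Matrix.neg_apply, one_apply_eq] at h3
  linear_combination -h3

theorem main [Finite F] (h2 : (2 : F) ≠ 0) (hT : ¬ HasTv L) (hg : RfGen L) (hi : Irr L) (h1 : Rf L u φ) (h3 : Rf L v ψ)
    (h4 : Rf L w χ) (hA : Asym u φ v ψ w χ) : Out L := by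
  let π := ProjGenLinGroup.mk.comp L.subtype
  have key : ∀ {X : Type} [Group X], π.range ≃* X → ∃ f : L →* X, Function.Surjective f ∧
      (∀ g : L, f g = 1 ↔ ProjGenLinGroup.mk (g : GL (Fin 2) F) = 1) ∧
        ∀ g k : L, f g = f k → ProjGenLinGroup.mk (g : GL (Fin 2) F) = ProjGenLinGroup.mk (k : GL (Fin 2) F) := fun e =>
    ⟨e.toMonoidHom.comp π.rangeRestrict, e.surjective.comp π.rangeRestrict_surjective, fun g =>
      e.map_eq_one_iff.trans Subtype.ext_iff, fun _ _ e1 => congrArg Subtype.val (e.injective e1)⟩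
  obtain ⟨r, hr, er⟩ := h1.mem
  obtain ⟨s, hs, es⟩ := h3.mem
  obtain ⟨t, ht, et⟩ := h4.mem
  rcases small hT with e | ⟨n, ⟨e⟩⟩ | ⟨⟨e⟩⟩ | ⟨⟨e⟩⟩ | ⟨⟨e⟩⟩
  · refine central h2 hg hi h1 hr er fun g hg => ?_
    have := congrArg Subtype.val (e.isMulCommutative.1.1 (π.rangeRestrict ⟨g, hg⟩) (π.rangeRestrict ⟨r, hr⟩))
    rw [map_mul, map_mul]
    exact this
  · obtain ⟨f, -, hf, hf'⟩ := key e
    have k2 : ∀ {v φ r} (hr : r ∈ L), Rf L v φ → (∀ y, r • y = y - φ y • v) →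
        Out L ∨ ∃ i, f ⟨r, hr⟩ = DihedralGroup.sr i := fun {v φ r} hr h er => by
      rcases e1 : f ⟨r, hr⟩ with i | i
      · refine .inl (central h2 hg hi h hr er fun g hg => hf' (⟨g, hg⟩ * ⟨r, hr⟩) (⟨r, hr⟩ * ⟨g, hg⟩) ?_)
        have e2 : f ⟨r, hr⟩ * f ⟨r, hr⟩ = 1 := by rw [← map_mul, ← map_one f]; exact congrArg f (Subtype.ext (rf_sq h.two er))
        rw [e1, DihedralGroup.r_mul_r, DihedralGroup.one_def, DihedralGroup.r.injEq] at e2
        rw [map_mul, map_mul, e1]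
        rcases f ⟨g, hg⟩ with j | j
        · rw [DihedralGroup.r_mul_r, DihedralGroup.r_mul_r, add_comm]
        · rw [DihedralGroup.sr_mul_r, DihedralGroup.r_mul_sr, sub_eq_add_neg, ← eq_neg_of_add_eq_zero_left e2]
      · exact .inr ⟨i, rfl⟩
    refine (k2 hr h1 er).elim id fun ⟨i, e1⟩ => (k2 hs h3 es).elim id fun ⟨j, e2⟩ => (k2 ht h4 et).elim id fun ⟨l, e3⟩ => ?_
    have e4 : f (⟨r, hr⟩ * ⟨s, hs⟩ * ⟨t, ht⟩) = DihedralGroup.sr (l - (j - i)) := by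
      rw [map_mul, map_mul, e1, e2, e3, DihedralGroup.sr_mul_sr, DihedralGroup.r_mul_sr]
    have e6 := (hf (⟨r, hr⟩ * ⟨s, hs⟩ * ⟨t, ht⟩ * (⟨r, hr⟩ * ⟨s, hs⟩ * ⟨t, ht⟩))).1 (by
      rw [map_mul, e4, DihedralGroup.sr_mul_self])
    simp only [Subgroup.coe_mul] at e6
    refine absurd hA (dih h1.two h3.two h4.two er es et (fun e5 => ?_) e6)
    rw [(hf _).2 (by simpa only [Subgroup.coe_mul] using e5), DihedralGroup.one_def] at e4
    cases e4
  · obtain ⟨f, f1, f2, -⟩ := key e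
    refine klein h2 ⟨⟨Equiv.swap 0 1 * Equiv.swap 1 2, Equiv.Perm.mem_alternatingGroup.2 (by decide)⟩,
      ⟨Equiv.swap 0 1 * Equiv.swap 2 3, Equiv.Perm.mem_alternatingGroup.2 (by decide)⟩, ?_⟩ f f1 f2
    decide +kernel
  · obtain ⟨f, f1, f2, -⟩ := key e
    exact klein h2 ⟨Equiv.swap 0 1 * Equiv.swap 1 2, Equiv.swap 0 1 * Equiv.swap 2 3, by decide +kernel⟩ f f1 f2
  · obtain ⟨f, f1, f2, -⟩ := key e
    refine klein h2 ⟨⟨Equiv.swap 0 1 * Equiv.swap 1 2, Equiv.Perm.mem_alternatingGroup.2 (by decide)⟩,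
      ⟨Equiv.swap 0 1 * Equiv.swap 2 3, Equiv.Perm.mem_alternatingGroup.2 (by decide)⟩, ?_⟩ f f1 f2
    decide +kernel

end Plane

theorem stepPlane : StepPlane.{u} := fun F _ _ Γ h2 hT e x h => by
  obtain ⟨u, φ, v, ψ, w, χ, h1, h3, h4, hA⟩ := h.asym_KK
  obtain ⟨a, b⟩ := Plane.main h2 (noTv_KK h.bi hT) (rfGen_KK h.bi) h.irr_KK h1 h3 h4 hA
  exact ⟨⟨_, KG_le a, (sc_emb h.bi).2 fun z => by rw [neg_gsmul, one_smul, neg_one_smul]⟩,
    b.imp (fun ⟨_, _, b1, b2⟩ => framed_of_KK h.bi b1 b2) (mt (NQ.to_KK h.bi))⟩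

end CL.Low5
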