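/-
Project LOW5: the lemma on quadratic elements (`StepQE`).
-/
import Cfsg.Agent.Low5.Emb

set_option autoImplicit false
set_option linter.unusedSectionVars false
set_option linter.unnecessarySeqFocus false

namespace CL.Low5

open Matrix Cfsg Cfsg.Geo CL.Asch CL.SLn CL.Low Module

universe u

namespace QE

variable {ι : Type} [Fintype ι] [DecidableEq ι] {F : Type u} [Field F] {Γ : Subgroup (GL ι F)}
  {u v w d : ι → F} {φ ψ χ : Dual F (ι → F)} {e : Fin 2 → ι → F} {x : Fin 2 → Dual F (ι → F)}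

/-- A diagonal reflection of a planar frame. -/
def Dg (e : Fin 2 → ι → F) (x : Fin 2 → Dual F (ι → F)) (v : ι → F) (φ : Dual F (ι → F)) : Prop :=
  ∃ (i : Fin 2) (a : F), a ≠ 0 ∧ v = a • e i ∧ φ = (2 / a) • x i

/-- A swap of a planar frame. -/
def Sw (e : Fin 2 → ι → F) (x : Fin 2 → Dual F (ι → F)) (v : ι → F) (φ : Dual F (ι → F)) : Prop :=
  ∃ a b : F, a ≠ 0 ∧ b ≠ 0 ∧ v = a • e 0 + b • e 1 ∧ φ = a⁻¹ • x 0 + b⁻¹ • x 1

theorem dg_or_sw (h : Mon e x v φ) : Dg e x v φ ∨ Sw e x v φ := by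
  rcases h with h | ⟨i, j, a, b, hij, ha, hb, rfl, rfl⟩
  · exact Or.inl h
  · refine Or.inr ?_
    fin_cases i <;> fin_cases j
    · exact absurd rfl hij
    · exact ⟨a, b, ha, hb, rfl, rfl⟩
    · exact ⟨b, a, hb, ha, add_comm _ _, add_comm _ _⟩
    · exact absurd rfl hij

theorem not_sw3 (hb : Bi e x) (h1 : Sw e x u φ) (h2 : Sw e x v ψ) (h3 : Sw e x w χ) : ¬ Asym u φ v ψ w χ := by
  obtain ⟨a, b, ha, hb', rfl, rfl⟩ := h1
  obtain ⟨a', b', ha', hb'', rfl, rfl⟩ := h2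
  obtain ⟨a'', b'', ha'', hb''', rfl, rfl⟩ := h3
  intro h
  refine h ?_
  simp only [LinearMap.add_apply, LinearMap.smul_apply, map_add, map_smul, hb.diag, hb.off 0 1 (by decide),
    hb.off 1 0 (by decide), smul_eq_mul]
  field_simp
  ring

theorem not_dg2 (hb : Bi e x) (h1 : Dg e x u φ) (h2 : Dg e x v ψ) : ¬ Asym u φ v ψ w χ := by
  obtain ⟨i, a, ha, rfl, rfl⟩ := h1
  obtain ⟨j, b, hb', rfl, rfl⟩ := h2
  intro h
  refine h ?_
  by_cases hij : i = j
  · subst hij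
    simp only [LinearMap.smul_apply, map_smul, hb.diag, smul_eq_mul]
    field_simp
  · simp [hb.off i j hij, hb.off j i (Ne.symm hij)]

theorem dg_sw (hb : Bi e x) (h1 : Dg e x u φ) (h2 : Sw e x v ψ) : φ v * ψ u = 2 := by
  obtain ⟨i, a, ha, rfl, rfl⟩ := h1
  obtain ⟨a', b', ha', hb'', rfl, rfl⟩ := h2
  fin_cases i <;>
  · simp only [LinearMap.add_apply, LinearMap.smul_apply, map_add, map_smul, hb.diag, hb.off 0 1 (by decide),
      hb.off 1 0 (by decide), smul_eq_mul, Fin.zero_eta, Fin.mk_one, Fin.isValue]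
    field_simp
    ring

/-- A diagonal reflection and two swaps with `c = 2` give a scalar of order four on the plane. -/
theorem sc_of (hb : Bi e x) (r1 : Rf Γ u φ) (r2 : Rf Γ v ψ) (r3 : Rf Γ w χ) (h1 : Dg e x u φ) (h2 : Sw e x v ψ)
    (h3 : Sw e x w χ) (hc : ψ w * χ v = 2) : ∃ i : F, i ^ 2 = -1 ∧ ∃ g ∈ Γ, Sc e x i g := by
  obtain ⟨r, hr, er⟩ := r1.mem
  obtain ⟨s, hs, es⟩ := r2.mem
  obtain ⟨t, ht, et⟩ := r3.mem
  obtain ⟨i, c, hc0, rfl, rfl⟩ := h1
  obtain ⟨a, b, ha, hb', rfl, rfl⟩ := h2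
  obtain ⟨a', b', ha', hb'', rfl, rfl⟩ := h3
  simp only [LinearMap.add_apply, LinearMap.smul_apply, map_add, map_smul, hb.diag, hb.off 0 1 (by decide),
      hb.off 1 0 (by decide), smul_eq_mul] at hc
  have hτ : (b' * a / (a' * b)) ^ 2 = -1 := by
    field_simp at hc ⊢
    linear_combination hc
  have hτ' : a' * b / (b' * a) = -(b' * a / (a' * b)) := by
    field_simp at hτ ⊢
    linear_combination hτ
  have key : ∀ y, (s * t) • y = y + ((b' * a / (a' * b) - 1) * x 0 y) • e 0 + ((a' * b / (b' * a) - 1) * x 1 y) • e 1 :=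
    fun y => by
      simp only [mul_smul, es, et, LinearMap.add_apply, LinearMap.smul_apply, map_add, map_sub, map_smul, hb.diag,
        hb.off 0 1 (by decide), hb.off 1 0 (by decide), smul_eq_mul]
      match_scalars <;> field_simp <;> ring
  rw [hτ'] at key
  generalize b' * a / (a' * b) = τ at hτ key
  have er' : ∀ y, r • y = y - (2 * x i y) • e i := fun y => by
    rw [er]
    simp only [LinearMap.smul_apply, smul_eq_mul]
    match_scalars <;> field_simp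
  fin_cases i
  · refine ⟨-τ, by rw [neg_sq, hτ], s * t * r, Γ.mul_mem (Γ.mul_mem hs ht) hr, fun y => ?_⟩
    rw [mul_smul, key, er']
    simp only [pr, Fin.sum_univ_two, map_sub, map_smul, hb.diag, hb.off 0 1 (by decide), hb.off 1 0 (by decide),
      smul_eq_mul, Fin.zero_eta, Fin.isValue]
    module
  · refine ⟨τ, hτ, s * t * r, Γ.mul_mem (Γ.mul_mem hs ht) hr, fun y => ?_⟩
    rw [mul_smul, key, er']
    simp only [pr, Fin.sum_univ_two, map_sub, map_smul, hb.diag, hb.off 0 1 (by decide), hb.off 1 0 (by decide),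
      smul_eq_mul, Fin.mk_one, Fin.isValue]
    module

/-- The data of the plane spanned by `w` and `d`. -/
structure Pl (w d : ι → F) (ψ χ : Dual F (ι → F)) : Prop where
  h1 : ψ d = 0
  h2 : χ w = 0
  hX : ψ w ≠ 0
  hY : χ d ≠ 0
  hXY : ψ w ≠ χ d

namespace Pl

theorem bi (h : Pl w d ψ χ) : Bi ![w, d] ![(ψ w)⁻¹ • ψ, (χ d)⁻¹ • χ] := by
  constructor
  · intro i
    fin_cases i
    · simp [h.hX]
    · simp [h.hY]
  · intro i j hij
    fin_cases i <;> fin_cases j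
    · exact absurd rfl hij
    · simp [h.h1]
    · simp [h.h2]
    · exact absurd rfl hij

theorem pr_eq (y : ι → F) :
    pr ![w, d] ![(ψ w)⁻¹ • ψ, (χ d)⁻¹ • χ] y = (ψ y / ψ w) • w + (χ y / χ d) • d := by
  simp [pr, Fin.sum_univ_two, div_eq_inv_mul]

theorem isIn (h : Pl w d ψ χ) (p q : F) : In ![w, d] ![(ψ w)⁻¹ • ψ, (χ d)⁻¹ • χ] (p • w + d) (q • ψ + χ) := by
  have := h.hX
  have := h.hY
  refine in_iff.2 ⟨?_, fun y => ?_⟩
  · rw [pr_eq]
    simp only [map_add, map_smul, h.h1, h.h2, smul_eq_mul]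
    match_scalars <;> field_simp <;> ring
  · rw [pr_eq]
    simp only [LinearMap.add_apply, LinearMap.smul_apply, map_add, map_smul, h.h1, h.h2, smul_eq_mul]
    field_simp
    ring

theorem pair (h : Pl w d ψ χ) (p q : F) : (q • ψ + χ) (p • w + d) = q * p * ψ w + χ d := by
  simp only [LinearMap.add_apply, LinearMap.smul_apply, map_add, map_smul, h.h1, h.h2, smul_eq_mul]
  ring

theorem asym (h : Pl w d ψ χ) {p q r : F} (hp : p ≠ 0) (hq : q ≠ 0) (hr : r ≠ 0) (h1 : p ≠ q) (h2 : q ≠ r)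
    (h3 : r ≠ p) : Asym (p • w + d) (p⁻¹ • ψ + χ) (q • w + d) (q⁻¹ • ψ + χ) (r • w + d) (r⁻¹ • ψ + χ) := by
  intro e
  simp only [h.pair] at e
  have : ψ w * χ d * (ψ w - χ d) * ((p - q) * (q - r) * (r - p)) = 0 := by
    field_simp at e
    linear_combination e
  exact mul_ne_zero (mul_ne_zero (mul_ne_zero h.hX h.hY) (sub_ne_zero.2 h.hXY))
    (mul_ne_zero (mul_ne_zero (sub_ne_zero.2 h1) (sub_ne_zero.2 h2)) (sub_ne_zero.2 h3)) this

theorem ai (h : Pl w d ψ χ) {p q r : F} (hp : p ≠ 0) (hq : q ≠ 0) (hr : r ≠ 0) (h1 : p ≠ q) (h2 : q ≠ r)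
    (h3 : r ≠ p) (r1 : Rf Γ (p • w + d) (p⁻¹ • ψ + χ)) (r2 : Rf Γ (q • w + d) (q⁻¹ • ψ + χ))
    (r3 : Rf Γ (r • w + d) (r⁻¹ • ψ + χ)) : AI Γ ![w, d] ![(ψ w)⁻¹ • ψ, (χ d)⁻¹ • χ] := by
  refine ⟨h.bi, fun W hW hR => ?_, _, _, _, _, _, _, r1, r2, r3, h.isIn _ _, h.isIn _ _, h.isIn _ _,
    h.asym hp hq hr h1 h2 h3⟩
  by_cases h0 : W = ⊥
  · exact Or.inl h0
  obtain ⟨y, hy, hy0⟩ := (Submodule.ne_bot_iff W).1 h0
  have k1 : ∀ {s t : F}, s ≠ t → (s⁻¹ • ψ + χ) y = 0 → (t⁻¹ • ψ + χ) y ≠ 0 := fun {s t} hst a1 a2 => by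
    simp only [LinearMap.add_apply, LinearMap.smul_apply, smul_eq_mul] at a1 a2
    have a3 : ψ y = 0 := (mul_eq_zero.1 (show (s⁻¹ - t⁻¹) * ψ y = 0 by linear_combination a1 - a2)).resolve_left
      (sub_ne_zero.2 fun e => hst (inv_injective e))
    have a4 : χ y = 0 := by simpa [a3] using a1
    refine hy0 ?_
    rw [← hW y hy, pr_eq, a3, a4]
    simp
  have k2 : ∀ {s : F}, Rf Γ (s • w + d) (s⁻¹ • ψ + χ) → (s⁻¹ • ψ + χ) y ≠ 0 → s • w + d ∈ W := fun a1 a2 =>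
    (W.smul_mem_iff a2).1 (hR _ _ a1 (h.isIn _ _) y hy)
  have k3 : ∀ {s t : F}, s ≠ t → s • w + d ∈ W → t • w + d ∈ W → ∀ i, ![w, d] i ∈ W := fun {s t} hst a1 a2 => by
    have a3 : w ∈ W := (W.smul_mem_iff (sub_ne_zero.2 hst)).1 (by
      simpa [sub_smul] using W.sub_mem a1 a2)
    intro i
    fin_cases i
    · exact a3
    · simpa using W.sub_mem a1 (W.smul_mem s a3)
  refine Or.inr ?_
  by_cases a1 : (p⁻¹ • ψ + χ) y = 0
  · exact k3 h2 (k2 r2 (k1 h1 a1)) (k2 r3 (k1 h3.symm a1))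
  by_cases a2 : (q⁻¹ • ψ + χ) y = 0
  · exact k3 h3 (k2 r3 (k1 h2 a2)) (k2 r1 a1)
  · exact k3 h1 (k2 r1 a1) (k2 r2 a2)

end Pl

end QE

open QE in
theorem stepQE : StepQE.{u} := by
  intro F _ _ Γ hO hP k e x a h hb hs hh ha v φ hv
  have h2 := hO.two
  have hT := hO.noTv
  have ha2 : a ^ 2 ≠ 1 := fun e => by
    rcases ha with ⟨h1, h3⟩ | h1
    · have : a = -2 := by linear_combination h1 - e
      exact h3 (by rw [this] at e; linear_combination e)
    · exact h2 (by linear_combination h1 - e)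
  have ha0 : a ≠ 0 := by
    rintro rfl
    rcases ha with ⟨h1, -⟩ | h1 <;> simp at h1
  set w := pr e x v with hw
  set ψ := prD e x φ with hψ
  set d := v - w with hd
  set χ := φ - ψ with hχ
  have e0 : pr e x w = w := hb.pr_pr v
  have e1 : pr e x d = 0 := by rw [hd, pr_sub, e0, sub_self]
  have e2 : ∀ y, ψ (pr e x y) = ψ y := fun y => by rw [hψ, prD_apply, prD_apply, hb.pr_pr]
  have e3 : ∀ y, χ (pr e x y) = 0 := fun y => by rw [hχ, LinearMap.sub_apply, hψ, prD_apply, hb.pr_pr, sub_self]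
  have e4 : ψ d = 0 := by rw [← e2, e1, map_zero]
  have e5 : χ w = 0 := e3 v
  have e6 : φ w = ψ w := by rw [hψ, prD_apply, e0]
  have hr : Rf Γ (w + d) (ψ + χ) := by simpa [hd, hχ] using hv
  have e7 : χ d = 2 - ψ w := by
    have := hr.two
    simp only [LinearMap.add_apply, map_add, e4, e5] at this
    linear_combination this
  have e8 : ∀ y, ψ (h • y) = a * ψ y := fun y => by rw [hs, map_add, map_smul, e2, smul_eq_mul]; ring
  have e9 : ∀ y, χ (h • y) = χ y := fun y => by rw [hs, map_add, map_smul, e3, smul_zero, add_zero]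
  have f1 := hs.eig e0
  have f2 := hs.fix e1
  rw [e6]
  by_cases hX2 : ψ w = 2
  · obtain ⟨k1, k2⟩ := dl2 h2 hT hh hr ha2 f1 f2 e8 e9 e4 e5 (by rw [e7, hX2, sub_self])
    exact Or.inr (Or.inl ⟨(sub_eq_zero.1 k1).symm, (sub_eq_zero.1 k2).symm⟩)
  by_cases hX0 : ψ w = 0
  · have g1 : ∀ y : V F, (scal (Fin 5) (Units.mk0 a ha0)⁻¹ * h) • y = a⁻¹ • h • y := fun y => by
      rw [mul_smul, scal_gsmul]; simp
    refine Or.inl (dl2 (w := d) (ψ := χ) (a := a⁻¹) h2 hT (hh.of_smul g1) (by rwa [add_comm d, add_comm χ])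
      (fun e => ha2 (by rw [inv_pow] at e; exact inv_eq_one.1 e)) (by rw [g1, f2])
      (by rw [g1, f1, smul_smul, inv_mul_cancel₀ ha0, one_smul]) (fun y => by rw [g1, map_smul, e9, smul_eq_mul])
      (fun y => by rw [g1, map_smul, e8, smul_eq_mul, inv_mul_cancel_left₀ ha0]) e5 e4 hX0)
  by_cases hX1 : ψ w = 1
  · exact Or.inr (Or.inr (Or.inl hX1))
  have hp : Pl w d ψ χ := ⟨e4, e5, hX0, by rw [e7]; exact sub_ne_zero.2 (Ne.symm hX2), fun e => hX1
    (mul_left_cancel₀ h2 (by linear_combination e + e7))⟩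
  have step : ∀ {p : F}, Rf Γ (p • w + d) (p⁻¹ • ψ + χ) → Rf Γ ((a * p) • w + d) ((a * p)⁻¹ • ψ + χ) :=
    fun {p} r => by
      have := r.nrm' hh (ψ := (a * p)⁻¹ • ψ + χ) fun y => by
        simp only [LinearMap.add_apply, LinearMap.smul_apply, e8, e9, smul_eq_mul, mul_inv]
        field_simp
      rwa [smul_add, gsmul_smul, f1, f2, smul_smul, mul_comm p] at this
  have r0 : Rf Γ ((1 : F) • w + d) ((1 : F)⁻¹ • ψ + χ) := by simpa using hr
  have r1 := step r0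
  have r2 := step r1
  have r3 := step r2
  have n1 : (1 : F) ≠ a * 1 := fun e => ha2 (by rw [mul_one] at e; rw [← e, one_pow])
  have n2 : (1 : F) ≠ a * (a * 1) := fun e => ha2 (by linear_combination -e)
  have n3 : a * 1 ≠ a * (a * 1) := fun e => n1 (mul_left_cancel₀ ha0 e)
  have z1 : a * 1 ≠ 0 := by simpa using ha0
  have z2 : a * (a * 1) ≠ 0 := mul_ne_zero ha0 z1
  obtain ⟨e', x', hb', hS, hM⟩ := hP _ _ (hp.ai one_ne_zero z1 z2 n1 n3 n2.symm r0 r1 r2)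
  have m0 := dg_or_sw (hM _ _ r0 (hp.isIn _ _))
  have m1 := dg_or_sw (hM _ _ r1 (hp.isIn _ _))
  have m2 := dg_or_sw (hM _ _ r2 (hp.isIn _ _))
  have A := hp.asym one_ne_zero z1 z2 n1 n3 n2.symm
  rcases ha with ⟨h1, h3⟩ | h1
  · refine Or.inr (Or.inr (Or.inr ⟨h1, hX0, hX2, ?_⟩))
    have hai : a⁻¹ = a * a := by field_simp; linear_combination (1 - a) * h1
    have c01 : ((1 : F)⁻¹ • ψ + χ) ((a * 1) • w + d) * ((a * 1)⁻¹ • ψ + χ) ((1 : F) • w + d) =
        ψ w ^ 2 + χ d ^ 2 - ψ w * χ d := by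
      simp only [hp.pair, mul_inv, inv_one, hai]
      linear_combination (ψ w * χ d + (a - 1) * ψ w ^ 2) * h1
    have c12 : ((a * 1)⁻¹ • ψ + χ) ((a * (a * 1)) • w + d) * ((a * (a * 1))⁻¹ • ψ + χ) ((a * 1) • w + d) =
        ψ w ^ 2 + χ d ^ 2 - ψ w * χ d := by
      rw [← c01]
      simp only [hp.pair]
      field_simp
    have c20 : ((a * (a * 1))⁻¹ • ψ + χ) ((1 : F) • w + d) * ((1 : F)⁻¹ • ψ + χ) ((a * (a * 1)) • w + d) =
        ψ w ^ 2 + χ d ^ 2 - ψ w * χ d := by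
      simp only [hp.pair, mul_inv, inv_one, hai]
      linear_combination (ψ w * χ d * (a ^ 2 - a + 1) + (a - 1) * (a ^ 3 + 1) * ψ w ^ 2) * h1
    suffices ∃ i : F, i ^ 2 = -1 ∧ ∃ g ∈ Γ, Sc e' x' i g by
      obtain ⟨i, hi, g, hg, hs'⟩ := this
      exact ⟨i, hi, g, hg, fun y => by rw [hs', hS, Pl.pr_eq, e7]⟩
    rcases m0 with m0 | m0 <;> rcases m1 with m1 | m1 <;> rcases m2 with m2 | m2
    · exact absurd A (not_dg2 hb' m0 m1)
    · exact absurd A (not_dg2 hb' m0 m1)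
    · exact absurd A.rotate.rotate (not_dg2 hb' m2 m0)
    · exact sc_of hb' r0 r1 r2 m0 m1 m2 (by rw [c12, ← c01, dg_sw hb' m0 m1])
    · exact absurd A.rotate (not_dg2 hb' m1 m2)
    · exact sc_of hb' r1 r2 r0 m1 m2 m0 (by rw [c20, ← c12, dg_sw hb' m1 m2])
    · exact sc_of hb' r2 r0 r1 m2 m0 m1 (by rw [c01, ← c20, dg_sw hb' m2 m0])
    · exact absurd A (not_sw3 hb' m0 m1 m2)
  · exfalso
    have m3 := dg_or_sw (hM _ _ r3 (hp.isIn _ _))
    have z3 : a * (a * (a * 1)) ≠ 0 := mul_ne_zero ha0 z2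
    have n4 : (1 : F) ≠ a * (a * (a * 1)) := fun e => ha2 (by
      have : a = -1 := by linear_combination e + a * h1
      rw [this]; ring)
    have n5 : a * 1 ≠ a * (a * (a * 1)) := fun e => n2 (mul_left_cancel₀ ha0 e)
    have n6 : a * (a * 1) ≠ a * (a * (a * 1)) := fun e => n3 (mul_left_cancel₀ ha0 e)
    have B := hp.asym z1 z2 z3 n3 n6 n5.symm
    have C := hp.asym z2 z3 one_ne_zero n6 n4.symm n2
    have D := hp.asym z3 one_ne_zero z1 n4.symm n1 n5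
    rcases m0 with m0 | m0
    · rcases m1 with m1 | m1
      · exact not_dg2 hb' m0 m1 A
      rcases m2 with m2 | m2
      · exact not_dg2 hb' m2 m0 A.rotate.rotate
      rcases m3 with m3 | m3
      · exact not_dg2 hb' m3 m0 D
      · exact not_sw3 hb' m1 m2 m3 B
    rcases m1 with m1 | m1
    · rcases m2 with m2 | m2
      · exact not_dg2 hb' m1 m2 B
      rcases m3 with m3 | m3
      · exact not_dg2 hb' m3 m1 B.rotate.rotate
      · exact not_sw3 hb' m2 m3 m0 C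
    rcases m2 with m2 | m2
    · rcases m3 with m3 | m3
      · exact not_dg2 hb' m2 m3 C
      · exact not_sw3 hb' m3 m0 m1 D
    · exact not_sw3 hb' m0 m1 m2 A

end CL.Low5
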