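/-
Project LOW5: rank three (`StepR3`, `StepR3Ev`) from the list of the irreducible subgroups of `GL₃`.
-/
import Cfsg.Agent.Low5.Emb

set_option autoImplicit false
set_option linter.unusedSectionVars false
set_option linter.unnecessarySeqFocus false

namespace CL.Low5

open Matrix Cfsg Cfsg.Geo CL.Asch CL.SLn CL.Low Module

universe u

namespace R3

section General

variable {ι : Type} [Fintype ι] [DecidableEq ι] {F : Type u} [Field F] {Γ : Subgroup (GL ι F)}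
  {u v w : ι → F} {φ ψ χ : Dual F (ι → F)}

/-- A functional over a subfield, extended. -/
noncomputable def extD (F₀ : Subfield F) (η : Dual F₀ (ι → F₀)) : Dual F (ι → F) :=
  Fintype.linearCombination F fun j => ((η (Pi.single j 1) : F₀) : F)

theorem extD_coe (F₀ : Subfield F) (η : Dual F₀ (ι → F₀)) (y : ι → F₀) :
    extD F₀ η (fun i => (y i : F)) = (η y : F₀) := by
  conv_rhs => rw [pi_eq_sum_univ' y]
  simp [extD, Fintype.linearCombination_apply]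

theorem coe_ne (F₀ : Subfield F) {y : ι → F₀} (hy : y ≠ 0) (c : GL ι F) : c • (fun i => (y i : F)) ≠ 0 := fun h =>
  hy (funext fun i => by
    have : (fun i => (y i : F)) = 0 := by rw [← inv_smul_smul c fun i => (y i : F), h, smul_zero]
    simpa using congrFun this i)

theorem extD_ne (F₀ : Subfield F) {η : Dual F₀ (ι → F₀)} (hη : η ≠ 0) (c : GL ι F) : dact c (extD F₀ η) ≠ 0 :=
  dact_ne_zero c fun h => hη (LinearMap.ext fun y => by simpa [h] using (extD_coe F₀ η y).symm)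

/-- Transvections over a subfield. -/
theorem tv_desc {F₀ : Subfield F} {H : Subgroup (GL ι F₀)} (c : GL ι F) {y : ι → F₀} {η : Dual F₀ (ι → F₀)}
    (h : Tv H y η) : Tv (H.map (descGL F₀ c)) (c • fun i => (y i : F)) (dact c (extD F₀ η)) := by
  obtain ⟨h0, g, hg, eg⟩ := h
  refine ⟨by rw [dact_apply, inv_smul_smul, extD_coe, h0]; rfl, _, ⟨g, hg, rfl⟩, fun z => ?_⟩
  have h1 : ∀ i j, (g : Matrix ι ι F₀) i j = (1 : Matrix ι ι F₀) i j + η (Pi.single j 1) * y i := fun i j => by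
    have := congrFun (eg (Pi.single j 1)) i
    rw [gsmul_def, mulVec_single_one] at this
    simpa [one_apply, Pi.single_apply] using this
  have h2 : ∀ z : ι → F, GeneralLinearGroup.map F₀.subtype g • z = z + extD F₀ η z • fun i => (y i : F) := fun z => by
    funext i
    have h3 : ∀ j, ((GeneralLinearGroup.map F₀.subtype g : GL ι F) : Matrix ι ι F) i j =
        (1 : Matrix ι ι F) i j + (η (Pi.single j 1) : F₀) * (y i : F) := fun j => by
      have : ((GeneralLinearGroup.map F₀.subtype g : GL ι F) : Matrix ι ι F) i j = ((g : Matrix ι ι F₀) i j : F) := rfl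
      rw [this, h1]
      by_cases hij : i = j <;> simp [one_apply, hij]
    rw [gsmul_def]
    simp only [mulVec, dotProduct, h3, add_mul, Finset.sum_add_distrib, extD, Fintype.linearCombination_apply,
      Pi.add_apply, Pi.smul_apply, smul_eq_mul, Finset.sum_mul]
    congr 1
    · simp [one_apply]
    · exact Finset.sum_congr rfl fun j _ => by ring
  have h4 : descGL F₀ c g = c * GeneralLinearGroup.map F₀.subtype g * c⁻¹ := rfl
  rw [h4, mul_smul, mul_smul, h2, smul_add, smul_inv_smul, gsmul_smul, dact_apply]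

theorem linPair_of_sl {P : Subgroup (GL (Fin 3) F)} (h : IsSLSub P) : ∃ (v w : Fin 3 → F) (φ ψ : Dual F (Fin 3 → F)),
    Tv P v φ ∧ Tv P w ψ ∧ v ≠ 0 ∧ w ≠ 0 ∧ φ ≠ 0 ∧ ψ ≠ 0 ∧ φ w ≠ 0 ∧ ψ v = 0 := by
  obtain ⟨F₀, c, rfl⟩ := h
  have n1 : ∀ i : Fin 3, (Pi.single i 1 : Fin 3 → F₀) ≠ 0 := fun i => bi_std.e_ne i
  have n2 : ∀ i : Fin 3, (LinearMap.proj i : Dual F₀ (Fin 3 → F₀)) ≠ 0 := fun i h => by
    simpa using LinearMap.congr_fun h (Pi.single i 1)
  refine ⟨_, _, _, _, tv_desc c (tv_specialLinear (v := Pi.single 0 1) (φ := LinearMap.proj 1) (by simp)),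
    tv_desc c (tv_specialLinear (v := Pi.single 1 1) (φ := LinearMap.proj 2) (by simp)), coe_ne _ (n1 _) c,
    coe_ne _ (n1 _) c, extD_ne _ (n2 _) c, extD_ne _ (n2 _) c, ?_, ?_⟩ <;>
    rw [dact_apply, inv_smul_smul, extD_coe] <;> simp

theorem tv_of_su [Finite F] {P : Subgroup (GL (Fin 3) F)} (h : IsSUSub P) :
    ∃ (v : Fin 3 → F) (φ : Dual F (Fin 3 → F)) (t : F), v ≠ 0 ∧ φ ≠ 0 ∧ t ≠ 0 ∧ t ≠ 1 ∧ Tv P v φ ∧ Tv P (t • v) φ := by
  obtain ⟨F₁, σ, f, c, hσ, hf, h9, rfl⟩ := h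
  obtain ⟨q, hq⟩ := CL.Uni.exists_isBar σ hσ hf.invol
  have hq3 : 3 ≤ q := by
    rw [hq.card] at h9
    by_contra hc
    have := Nat.pow_le_pow_left (show q ≤ 2 by omega) 2
    omega
  obtain ⟨v, hv0, hv⟩ := (hf.isHerm hq).exists_isotropic (by simp)
  obtain ⟨a, ha0, ha⟩ := hq.exists_trace_zero
  obtain ⟨z, hz0, hz⟩ := hq.exists_norm_ne_one hq3
  have hvv : f v v = 0 := hv
  have key : ∀ b : F₁, σ b = -b → Tv (specialIsom f) (b • v) (hf.isSL.toSesq v) := fun b hb => by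
    have h0 : hf.isSL.toSesq v (b • v) = 0 := by rw [map_smul, hv, smul_zero]
    refine Tv.of_mem h0 ⟨fun y y' => ?_, mem_specialLinear.1 (tv_mem_specialLinear _ _ h0)⟩
    rw [← gl_smul_def, ← gl_smul_def, tv_smul, tv_smul]
    simp only [IsSL.toSesq_apply, smul_smul, hf.add_left, hf.smul_left, hf.isSL.add_right, hf.isSL.smul_right, hvv,
      map_mul, hb, hf.symm y' v]
    ring
  have hφ : hf.isSL.toSesq v ≠ 0 := fun e => hv0 (hf.nondeg v fun y => LinearMap.congr_fun e y)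
  refine ⟨_, _, ((z * σ z : F₁) : F), coe_ne F₁ (smul_ne_zero ha0 hv0) c, extD_ne F₁ hφ c,
    by simpa using hz0, fun e => hz (Subtype.ext e), tv_desc c (key a ha), ?_⟩
  have := tv_desc c (key (z * σ z * a) (by rw [map_mul, hq.norm_fixed, ha, mul_neg]))
  rw [← gsmul_smul]
  convert this using 2
  funext i
  simp [mul_assoc]

/-- Reflections in the similarity group of a symmetric form. -/
theorem fun_of_orth (h2 : (2 : F) ≠ 0) {K : Subgroup (GL (Fin 3) F)} {b : (Fin 3 → F) → (Fin 3 → F) → F}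
    (hb : IsSesq (RingHom.id F) 1 b) (hK : K ≤ similarityGroup b) {v : Fin 3 → F} {φ : Dual F (Fin 3 → F)}
    (h : Rf K v φ) : ∃ μ : F, ∀ y, φ y = μ * b y v := by
  obtain ⟨g, hg, eg⟩ := h.mem
  obtain ⟨c, hc⟩ := hK hg
  simp only [← gsmul_def, eg] at hc
  have hl := hb.isSL
  have hc1 : (c : F) = 1 := by
    by_contra hne
    obtain ⟨y, hy, hy0⟩ := (Submodule.ne_bot_iff _).1 (LinearMap.ker_ne_bot_of_finrank_lt
      (f := φ.prod (hl.toSesq v)) (by simp))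
    obtain ⟨a1, a2⟩ : φ y = 0 ∧ b y v = 0 := by simpa [IsSL.toSesq_apply] using hy
    refine hy0 (hb.nondeg' y fun z => ?_)
    have a3 : φ (z - (φ z / 2) • v) = 0 := by
      rw [map_sub, map_smul, h.two, smul_eq_mul, div_mul_cancel₀ _ h2, sub_self]
    have a4 := hc y (z - (φ z / 2) • v)
    rw [a1, a3, zero_smul, sub_zero, sub_zero, hl.sub_right, hl.smul_right, a2, mul_zero, sub_zero] at a4
    exact (mul_eq_zero.1 (show (c - 1 : F) * b y z = 0 by linear_combination -a4)).resolve_left (sub_ne_zero.2 hne)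
  have k1 : ∀ y, 2 * b y v = φ y * b v v := fun y => by
    have := hc y v
    simp only [hc1, h.two, hl.sub_left, hl.sub_right, hl.smul_left, hl.smul_right, RingHom.id_apply] at this
    linear_combination -this
  have k2 : b v v ≠ 0 := fun e => h.ne (hb.nondeg v fun y =>
    (mul_eq_zero.1 (show 2 * b y v = 0 by rw [k1, e, mul_zero])).resolve_left h2)
  exact ⟨2 / b v v, fun y => by field_simp; linear_combination -k1 y⟩

theorem not_orth (h2 : (2 : F) ≠ 0) {K : Subgroup (GL (Fin 3) F)} {b : (Fin 3 → F) → (Fin 3 → F) → F}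
    (hb : IsSesq (RingHom.id F) 1 b) (hK : K ≤ similarityGroup b) {u v w : Fin 3 → F} {φ ψ χ : Dual F (Fin 3 → F)}
    (h1 : Rf K u φ) (h2' : Rf K v ψ) (h3 : Rf K w χ) : ¬ Asym u φ v ψ w χ := fun h => by
  obtain ⟨a, ha⟩ := fun_of_orth h2 hb hK h1
  obtain ⟨a', ha'⟩ := fun_of_orth h2 hb hK h2'
  obtain ⟨a'', ha''⟩ := fun_of_orth h2 hb hK h3
  have hs : ∀ y z, b y z = b z y := fun y z => by simpa using hb.symm z y
  refine h ?_
  rw [ha, ha, ha', ha', ha'', ha'', hs u w, hs u v, hs v w]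
  ring

/-- In characteristic two a transvection is a reflection. -/
theorem rf_of_tv (h2 : (2 : F) = 0) (h : Tv Γ v φ) (hv : v ≠ 0) (hφ : φ ≠ 0) : Rf Γ v φ := by
  obtain ⟨h0, g, hg, eg⟩ := h
  refine ⟨by rw [h0, h2], hv, hφ, g, hg, fun y => ?_⟩
  rw [eg, sub_eq_add_neg, ← neg_smul]
  congr 2
  linear_combination φ y * h2

/-- Two involutions with product of order four. -/
def Four (H : Type*) [Group H] : Prop := ∃ t s : H, t ^ 2 = 1 ∧ s ^ 2 = 1 ∧ (t * s) ^ 4 = 1 ∧ (t * s) ^ 2 ≠ 1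

theorem Four.of_equiv {H H' : Type*} [Group H] [Group H'] (e : H ≃* H') (h : Four H') : Four H := by
  obtain ⟨t, s, h1, h2, h3, h4⟩ := h
  refine ⟨e.symm t, e.symm s, ?_, ?_, ?_, fun h => h4 ?_⟩
  · rw [← map_pow, h1, map_one]
  · rw [← map_pow, h2, map_one]
  · rw [← map_mul, ← map_pow, h3, map_one]
  · rwa [← map_mul, ← map_pow, map_eq_one_iff _ e.symm.injective] at h

theorem four_A6 : Four (alternatingGroup (Fin 6)) :=
  ⟨⟨Equiv.swap 0 1 * Equiv.swap 2 3, by rw [Equiv.Perm.mem_alternatingGroup]; decide⟩,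
    ⟨Equiv.swap 0 2 * Equiv.swap 4 5, by rw [Equiv.Perm.mem_alternatingGroup]; decide⟩,
    Subtype.ext (by decide), Subtype.ext (by decide), Subtype.ext (by decide),
    fun h => absurd (congrArg Subtype.val h) (by decide)⟩

theorem four_L32 : Four (ProjectiveSpecialLinearGroup (Fin 3) (ZMod 2)) := by
  let T : SpecialLinearGroup (Fin 3) (ZMod 2) := ⟨!![1, 1, 0; 0, 1, 0; 0, 0, 1], by simp [det_fin_three]⟩
  let S : SpecialLinearGroup (Fin 3) (ZMod 2) := ⟨!![1, 0, 0; 0, 1, 1; 0, 0, 1], by simp [det_fin_three]⟩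
  let U : SpecialLinearGroup (Fin 3) (ZMod 2) := ⟨!![1, 0, 0; 1, 1, 0; 0, 0, 1], by simp [det_fin_three]⟩
  have h1 : T ^ 2 = 1 := Subtype.ext (by decide)
  have h2 : S ^ 2 = 1 := Subtype.ext (by decide)
  have h3 : (T * S) ^ 4 = 1 := Subtype.ext (by decide)
  refine ⟨QuotientGroup.mk T, QuotientGroup.mk S, by rw [← QuotientGroup.mk_pow, h1, QuotientGroup.mk_one],
    by rw [← QuotientGroup.mk_pow, h2, QuotientGroup.mk_one],
    by rw [← QuotientGroup.mk_mul, ← QuotientGroup.mk_pow, h3, QuotientGroup.mk_one], fun h => ?_⟩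
  rw [← QuotientGroup.mk_mul, ← QuotientGroup.mk_pow, QuotientGroup.eq_one_iff] at h
  exact absurd (congrArg Subtype.val (Subgroup.mem_center_iff.1 h U)) (by decide)

theorem not_four [Finite F] (h2 : (2 : F) = 0) {K P : Subgroup (GL (Fin 3) F)} (hz : ZSym K) (hP : P ≤ K) :
    ¬ Four (PQ P) := by
  rintro ⟨t, s, h1, h1', h3, h4⟩
  have hr := coprime_card_scalars_char P Nat.prime_two (by exact_mod_cast h2)
  obtain ⟨t, rfl, ht⟩ := exists_lift hr t h1
  obtain ⟨s, rfl, hs⟩ := exists_lift hr s h1'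
  have key : ∀ g : P, g ^ 2 = 1 → g ≠ 1 → ∃ v φ, Rf K v φ ∧ φ v = 0 ∧ ∀ y, (g : GL (Fin 3) F) • y = y + φ y • v :=
    fun g hg hg1 => by
      obtain ⟨v, φ, a1, a2, a3, a4⟩ := isTv_of_sq (by simp) (fun e => hg1 (Subtype.ext e))
        (sq_sub_one_of_two h2 (g := g) (by rw [← sq]; exact congrArg Subtype.val hg))
      exact ⟨v, φ, rf_of_tv h2 ⟨a3, g, hP g.2, a4⟩ a1 a2, a3, a4⟩
  obtain ⟨v, φ, r1, a1, e1⟩ := key t ht fun e => h4 (by rw [e, QuotientGroup.mk_one, one_mul, h1'])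
  obtain ⟨w, ψ, r2, a2, e2⟩ := key s hs fun e => h4 (by rw [e, QuotientGroup.mk_one, mul_one, h1])
  rw [← QuotientGroup.mk_mul, ← QuotientGroup.mk_pow] at h3 h4
  obtain ⟨c, hc⟩ := mk_eq_one_iff.1 h3
  have h5 : ψ (((((t * s) ^ 4 : P)) : GL (Fin 3) F) • w) = 0 := by
    rw [← hc]
    have := scal_gsmul (ι := Fin 3) c w
    change ψ (scal (Fin 3) c • w) = 0
    rw [this, map_smul, a2, smul_zero]
  simp only [Subgroup.coe_pow, Subgroup.coe_mul, pow_succ, pow_zero, one_mul, mul_smul, e1, e2, map_add, map_smul, a1,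
    a2, smul_eq_mul] at h5
  have h6 : φ w * ψ v = 0 := pow_eq_zero_iff (n := 4) (by decide) |>.1 (by
    linear_combination h5 - (2 * (φ w * ψ v) + 5 * (φ w * ψ v) ^ 2 + 3 * (φ w * ψ v) ^ 3) * h2)
  obtain ⟨a3, a4⟩ : φ w = 0 ∧ ψ v = 0 := by
    rcases mul_eq_zero.1 h6 with h | h
    · exact ⟨h, hz _ _ _ _ r1 r2 h⟩
    · exact ⟨hz _ _ _ _ r2 r1 h, h⟩
  refine h4 ?_
  have : (t * s) ^ 2 = 1 := Subtype.ext (gext fun y => by
    simp only [Subgroup.coe_pow, Subgroup.coe_mul, pow_succ, pow_zero, one_mul, mul_smul, e1, e2, map_add, map_smul, a1,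
      a2, a3, a4, smul_eq_mul, Subgroup.coe_one, one_smul]
    match_scalars
    · ring
    · linear_combination ψ y * h2
    · linear_combination φ y * h2)
  rw [this, QuotientGroup.mk_one]

end General

section Transfer

variable {ι : Type} [Fintype ι] [DecidableEq ι] {F : Type u} [Field F] {Γ : Subgroup (GL ι F)}
  {e : Fin 3 → ι → F} {x : Fin 3 → Dual F (ι → F)} {e₀ : Fin 3 → Fin 3 → F} {x₀ : Fin 3 → Dual F (Fin 3 → F)}

theorem zsym_KK (hb : Bi e x) (hz : ZSym Γ) : ZSym (KK Γ hb) := fun v φ w ψ h1 h2 h3 => by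
  simpa [hb.co_up] using hz _ _ _ _ ((rf_KK hb).1 h1) ((rf_KK hb).1 h2) (by simpa [hb.co_up] using h3)

theorem nh_of_KK (hb : Bi e x) (hb₀ : Bi e₀ x₀) {a : F} (ha : a ≠ 0) (h : NH (KK Γ hb) e₀ x₀ a) : NH Γ e x a :=
  fun c ψ g hi h1 eg hn => by
    have h2 : (ψ ∘ₗ up e) (co x c) = 1 := by rw [LinearMap.comp_apply, hi.up_co, h1]
    obtain ⟨A, eA⟩ := exists_homology h2 ha
    have h3 : emb hb A = g := gext fun y => by
      rw [(emb_rank_one hb (η := (a - 1) • (ψ ∘ₗ up e))).1 eA, eg, hi.up_co, LinearMap.smul_apply,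
        LinearMap.comp_apply, up_co, (in_iff.1 hi).2, smul_eq_mul]
    refine h _ _ A (in_of_card hb₀ (by simp) _ _) h2 eA ?_
    rw [KG_eq_of_card (rfGen_KK hb) hb₀ (by simp)]
    intro B hB
    rw [mem_KK, map_mul, map_mul, map_inv, h3]
    exact hn _ hB

theorem j4_of_KK (hb : Bi e x) (hb₀ : Bi e₀ x₀) (h : J4 (KK Γ hb) e₀ x₀) : J4 Γ e x := by
  obtain ⟨h1, h2, h3, a, η, -, h4⟩ := h
  refine ⟨h1, fun i hi => nh_of_KK hb hb₀ (by rintro rfl; simp at hi) (h2 i hi), fun v φ w ψ r1 r2 i1 i2 => ?_,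
    _, _, hb.same_trans h4.bi, hb.trans h4.bi, fun i => ?_, fun i j hij => ?_, fun i j hij => ?_⟩
  · have := h3 _ _ _ _ (r1.KK hb i1) (r2.KK hb i2) (in_of_card hb₀ (by simp) _ _) (in_of_card hb₀ (by simp) _ _)
    simp only [LinearMap.comp_apply, i1.up_co, i2.up_co] at this
    refine this.imp id (Or.imp id (Or.imp id fun ⟨t, ht, a1, a2⟩ => ⟨t, ht, ?_, ?_⟩))
    · rw [← i2.up_co, a1, map_smul, i1.up_co]
    · rw [← i2.comp_co, a2, LinearMap.smul_comp, i1.comp_co]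
  · simpa only [LinearMap.smul_comp] using (rf_KK hb).1 (h4.short i)
  · simpa only [LinearMap.add_comp, map_add] using (rf_KK hb).1 (h4.plus i j hij)
  · simpa only [LinearMap.sub_comp, map_sub] using (rf_KK hb).1 (h4.minus i j hij)

theorem jw_of_KK (hb : Bi e x) (hb₀ : Bi e₀ x₀) (h : JW (KK Γ hb) e₀ x₀) : JW Γ e x := by
  obtain ⟨h1, h2, h3, ω, hω, A, hA, h4⟩ := h
  exact ⟨h1, fun i hi => nh_of_KK hb hb₀ (by rintro rfl; simp at hi) (h2 i hi),
    fun i hi => nh_of_KK hb hb₀ (by rintro rfl; simp at hi) (h3 i hi), ω, hω, emb hb A, KG_le hA,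
    (sc_emb hb).2 fun z => h4.eig (hb₀.pr_eq_self (by simp) z)⟩

/-- An asymmetric triple with invertible Cartan matrix acts irreducibly on its span. -/
theorem ai_of_cdet (hz : ZSym Γ) {u v w : ι → F} {φ ψ χ : Dual F (ι → F)} (r1 : Rf Γ u φ) (r2 : Rf Γ v ψ)
    (r3 : Rf Γ w χ) (hA : Asym u φ v ψ w χ) (hc : cdet u φ v ψ w χ ≠ 0) :
    ∃ x, AI Γ ![u, v, w] x ∧ In ![u, v, w] x u φ ∧ In ![u, v, w] x v ψ ∧ In ![u, v, w] x w χ := by
  obtain ⟨x, hb, i1, i2, i3⟩ := exists_bi_triple r1.two r2.two r3.two hc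
  refine ⟨x, ⟨hb, fun W hW hR => ?_, _, _, _, _, _, _, r1, r2, r3, i1, i2, i3, hA⟩, i1, i2, i3⟩
  obtain ⟨⟨n1, n2⟩, ⟨n3, n4⟩, n5, n6⟩ := hA.ne hz r1 r2 r3
  have k1 : ∀ y ∈ W, φ y ≠ 0 → u ∈ W := fun y hy h => (W.smul_mem_iff h).1 (hR _ _ r1 i1 y hy)
  have k2 : ∀ y ∈ W, ψ y ≠ 0 → v ∈ W := fun y hy h => (W.smul_mem_iff h).1 (hR _ _ r2 i2 y hy)
  have k3 : ∀ y ∈ W, χ y ≠ 0 → w ∈ W := fun y hy h => (W.smul_mem_iff h).1 (hR _ _ r3 i3 y hy)
  by_cases hu : u ∈ W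
  · exact Or.inr fun i => by fin_cases i; exacts [hu, k2 u hu n2, k3 u hu n4]
  refine Or.inl (eq_bot_iff.2 fun y hy => ?_)
  have a1 : φ y = 0 := by_contra fun h => hu (k1 y hy h)
  have a2 : ψ y = 0 := by_contra fun h => hu (k1 v (k2 y hy h) n1)
  have a3 : χ y = 0 := by_contra fun h => hu (k1 w (k3 y hy h) n3)
  rw [← hW y hy, apply_pr, Fin.sum_univ_three] at a1 a2 a3
  have h3 : !![2, φ v, φ w; ψ u, 2, ψ w; χ u, χ v, 2] *ᵥ (fun j => x j y) = 0 := by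
    funext l
    fin_cases l
    · simpa [mulVec, dotProduct, Fin.sum_univ_three, r1.two] using a1
    · simpa [mulVec, dotProduct, Fin.sum_univ_three, r2.two] using a2
    · simpa [mulVec, dotProduct, Fin.sum_univ_three, r3.two] using a3
  have h4 := eq_zero_of_mulVec_eq_zero (fun e => hc (by
    simp [det_fin_three] at e
    rw [cdet]
    linear_combination e)) h3
  rw [← hW y hy, (pr_eq_zero_iff hb).2 fun i => congrFun h4 i]
  exact Submodule.zero_mem _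

end Transfer

end R3

open R3 in
theorem stepR3 (h1 : Over3.{u}) (h2 : SubGeo.{u}) (h3 : SubL27.{u}) (h4 : SubA67.{u}) (dL : L27Data.{u})
    (dA : A6Data.{u}) (dB : A7Data.{u}) : StepR3.{u} := by
  intro F _ _ Γ ht hT e x h
  have hb := h.bi
  have hT' := noTv_KK hb hT
  have hle := Subgroup.commutator_le_self (KK Γ hb)
  rcases h1 F _ h.irr_KK with hg | ⟨-, b, hb', hK⟩ | ⟨hq, hc | hc | hc | hc⟩
  · obtain ⟨a1, a, η, a2, a3⟩ := h2 F _ (rfGen_KK hb) h.irr_KK hg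
    exact ⟨a1.of_KK hb, Or.inl (framed_of_KK hb a2 a3)⟩
  · obtain ⟨u, φ, v, ψ, w, χ, r1, r2, r3, hA⟩ := h.asym_KK
    exact absurd hA (not_orth ht hb' hK r1 r2 r3)
  · obtain ⟨v, -, φ, -, ⟨a1, g, hg, eg⟩, -, a2, -, a3, -⟩ := linPair_of_sl hc
    exact absurd ⟨g, hle hg, v, φ, a2, a3, a1, eg⟩ hT'
  · obtain ⟨v, φ, -, a2, a3, -, -, ⟨a1, g, hg, eg⟩, -⟩ := tv_of_su hc
    exact absurd ⟨g, hle hg, v, φ, a2, a3, a1, eg⟩ hT'
  · obtain ⟨a1, a2⟩ := h3 dL F _ ht (rfGen_KK hb) hq hc.1 hc.2 _ _ bi_std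
    exact ⟨a1.of_KK hb, Or.inr (Or.inl (j4_of_KK hb bi_std a2))⟩
  · obtain ⟨a1, a2⟩ := h4 dA dB F _ ht (rfGen_KK hb) hq hc _ _ bi_std
    exact ⟨a1.of_KK hb, Or.inr (Or.inr (jw_of_KK hb bi_std a2))⟩

open R3 in
theorem stepR3Ev (h1 : Over3.{u}) (h2 : SubGeo.{u}) : StepR3Ev.{u} := by
  intro F _ _ Γ hE u φ v ψ w χ r1 r2 r3 hA
  have ht := hE.two
  have hc : cdet u φ v ψ w χ ≠ 0 := fun e => hA (by
    rw [cdet] at e
    linear_combination e - (4 - (φ v * ψ u + φ w * χ u + ψ w * χ v) + φ w * χ v * ψ u) * ht)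
  obtain ⟨x, h, i1, i2, i3⟩ := ai_of_cdet hE.zsym r1 r2 r3 hA hc
  refine Or.inr ⟨hc, _, x, h, i1, i2, i3, ?_⟩
  have hb := h.bi
  have hz := zsym_KK hb hE.zsym
  have hle := Subgroup.commutator_le_self (KK Γ hb)
  rcases h1 F _ h.irr_KK with hg | ⟨h0, -⟩ | ⟨-, hc | hc | ⟨-, ⟨hc⟩⟩ | ⟨-, ⟨hc⟩⟩ | ⟨hc, -⟩⟩
  · obtain ⟨-, a, η, a2, a3⟩ := h2 F _ (rfGen_KK hb) h.irr_KK hg
    exact framed_of_KK hb a2 a3
  · exact absurd ht h0
  · obtain ⟨v, w, φ, ψ, a1, a2, a3, a4, a5, a6, a7, a8⟩ := linPair_of_sl hc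
    exact absurd (hz _ _ _ _ ((rf_of_tv ht a2 a4 a6).mono hle) ((rf_of_tv ht a1 a3 a5).mono hle) a8) a7
  · obtain ⟨v, φ, t, a1, a2, a3, a4, a5, a6⟩ := tv_of_su hc
    have b1 := (rf_KK hb).1 ((rf_of_tv ht a5 a1 a2).mono hle)
    have b2 := (rf_KK hb).1 ((rf_of_tv ht a6 (smul_ne_zero a3 a1) a2).mono hle)
    rw [map_smul] at b2
    exact absurd (hE.small _ _ t b1 b2) a4
  · exact absurd (four_L32.of_equiv hc) (not_four ht hz hle)
  · exact absurd (four_A6.of_equiv hc) (not_four ht hz hle)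
  · exact absurd (show (1 : F) = 0 by linear_combination hc - 2 * ht) one_ne_zero

end CL.Low5
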