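/-
Project LOW5: an asymmetric triple of reflections lies in a plane or spans a non-degenerate 3-space.
-/
import Cfsg.Agent.Low5.Emb
import Cfsg.Agent.Low.TKL

set_option autoImplicit false
set_option linter.unusedSectionVars false

namespace CL.Low5

open Matrix Cfsg Cfsg.Geo CL.Asch CL.SLn CL.Low Module

universe u

namespace Triple

variable {ι : Type} [Fintype ι] [DecidableEq ι] {F : Type u} [Field F] {k : ℕ} {Γ : Subgroup (GL ι F)}
  {u v w d a a' : ι → F} {φ ψ χ η f f' : Dual F (ι → F)} {e : Fin k → ι → F} {x : Fin k → Dual F (ι → F)}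

theorem eq_zero_of_det {ρ : Fin k → Dual F (ι → F)} (hd : (Matrix.of fun i j => ρ i (e j)).det ≠ 0) {y : ι → F}
    (h : ∀ i, ρ i (pr e x y) = 0) : pr e x y = 0 := by
  have : (fun j => x j y) = 0 := eq_zero_of_mulVec_eq_zero hd (funext fun i => by
    simpa [mulVec, dotProduct, apply_pr] using h i)
  exact Finset.sum_eq_zero fun j _ => by rw [show x j y = 0 from congrFun this j, zero_smul]

/-- Reflections in the vectors of a frame, with non-zero pairings, act irreducibly. -/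
theorem ai_of (hb : Bi e x) {ρ : Fin k → Dual F (ι → F)} (hr : ∀ i, Rf Γ (e i) (ρ i)) (hi : ∀ i, In e x (e i) (ρ i))
    (hd : (Matrix.of fun i j => ρ i (e j)).det ≠ 0) (hn : ∀ i j, ρ i (e j) ≠ 0) (hu : Rf Γ u φ) (hv : Rf Γ v ψ)
    (hw : Rf Γ w χ) (iu : In e x u φ) (iv : In e x v ψ) (iw : In e x w χ) (ha : Asym u φ v ψ w χ) : AI Γ e x := by
  refine ⟨hb, fun W h1 h2 => ?_, u, φ, v, ψ, w, χ, hu, hv, hw, iu, iv, iw, ha⟩
  by_cases hW : W = ⊥
  · exact Or.inl hW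
  obtain ⟨y, hy, hy0⟩ := Submodule.exists_mem_ne_zero_of_ne_bot hW
  obtain ⟨i, hi0⟩ : ∃ i, ρ i y ≠ 0 := by
    by_contra h
    refine hy0 ?_
    rw [← h1 y hy]
    exact eq_zero_of_det hd fun i => by rw [h1 y hy]; exact not_not.1 fun h' => h ⟨i, h'⟩
  have := (W.smul_mem_iff hi0).1 (h2 _ _ (hr i) (hi i) y hy)
  exact Or.inr fun j => (W.smul_mem_iff (hn j i)).1 (h2 _ _ (hr j) (hi j) _ this)

/-! ### The Heisenberg group of the flag -/

/-- `Γ` contains the element `1 + f ⊗ d + η ⊗ a`. -/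
def NN (Γ : Subgroup (GL ι F)) (d : ι → F) (η : Dual F (ι → F)) (a : ι → F) (f : Dual F (ι → F)) : Prop :=
  η a = 0 ∧ f d = 0 ∧ ∃ g ∈ Γ, ∀ y, g • y = y + f y • d + η y • a

theorem NN.mul (h0 : η d = 0) (h : NN Γ d η a f) (h' : NN Γ d η a' f') : NN Γ d η (a + a' + f a' • d) (f + f') := by
  obtain ⟨h1, h2, g, hg, eg⟩ := h
  obtain ⟨h3, h4, g', hg', eg'⟩ := h'
  refine ⟨by simp [h0, h1, h3], by simp [h2, h4], g * g', Γ.mul_mem hg hg', fun y => ?_⟩
  simp only [mul_smul, eg, eg', map_add, map_smul, h0, h2, h3, smul_eq_mul, LinearMap.add_apply]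
  module

theorem NN.inv (h0 : η d = 0) (h : NN Γ d η a f) : NN Γ d η (-a + f a • d) (-f) := by
  obtain ⟨h1, h2, g, hg, eg⟩ := h
  refine ⟨by simp [h0, h1], by simp [h2], g⁻¹, Γ.inv_mem hg, fun y => ?_⟩
  rw [inv_smul_eq_iff]
  simp only [eg, map_add, map_neg, map_smul, h0, h1, h2, smul_eq_mul, LinearMap.neg_apply]
  module

theorem NN.conj (h : NN Γ d η a f) (hv : Rf Γ v ψ) (h5 : ψ d = 0) (h6 : η v = 0) :
    NN Γ d η (a - ψ a • v) (f - f v • ψ) := by
  obtain ⟨h1, h2, g, hg, eg⟩ := h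
  obtain ⟨s, hs, es⟩ := hv.mem
  refine ⟨by simp [h1, h6], by simp [h2, h5], s * g * s, Γ.mul_mem (Γ.mul_mem hs hg) hs, fun y => ?_⟩
  simp only [mul_smul, eg, es, map_add, map_sub, map_smul, h5, h6, hv.two, smul_eq_mul, LinearMap.sub_apply,
    LinearMap.smul_apply]
  module

theorem NN.sym (hT : ¬ HasTv Γ) (h0 : η d = 0) (hd : d ≠ 0) (hη : η ≠ 0) (h : NN Γ d η a f) (h' : NN Γ d η a' f') :
    f a' = f' a := by
  obtain ⟨h1, h2, g, hg, eg⟩ := h
  obtain ⟨h3, h4, g', hg', eg'⟩ := h'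
  have := heis_comm (t := 0) (t' := 0) (n := g) (n' := g') h0 h1 h3 h2 h4 (fun y => by simpa using eg y)
    (fun y => by simpa using eg' y)
  rcases not_tv hT (Γ.mul_mem (Γ.mul_mem hg hg') (Γ.inv_mem (Γ.mul_mem hg' hg))) (by simp [h0]) this with h | h
  · exact sub_eq_zero.1 ((smul_eq_zero.1 h).resolve_right hd)
  · exact absurd h hη

theorem NN.step (h2 : (2 : F) ≠ 0) (hT : ¬ HasTv Γ) (h0 : η d = 0) (hη : η ≠ 0) (h : NN Γ d η a f) (hv : Rf Γ v ψ)
    (h5 : ψ d = 0) (h6 : η v = 0) (ha : ψ a ≠ 0) :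
    ∃ α β κ : F, α ≠ 0 ∧ β ≠ 0 ∧ NN Γ d η (α • v + κ • d) (β • ψ) := by
  have h1 := h.mul h0 ((h.conj hv h5 h6).inv h0)
  obtain ⟨κ, h1⟩ : ∃ κ : F, NN Γ d η (ψ a • v + κ • d) (f v • ψ) := by
    generalize f (-(a - ψ a • v) + (f - f v • ψ) (a - ψ a • v) • d) = s at h1
    generalize (f - f v • ψ) (a - ψ a • v) = t at h1
    exact ⟨t + s, by convert h1 using 1 <;> module⟩
  refine ⟨_, _, κ, ha, fun e0 => ?_, h1⟩
  obtain ⟨h3, -, g, hg, eg⟩ := h1
  rcases not_tv hT hg h3 (fun y => by simpa [e0] using eg y) with h | h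
  · simpa [h5, hv.two, ha, h2] using congrArg ψ h
  · exact hη h

theorem NN.ker (h2 : (2 : F) ≠ 0) (hT : ¬ HasTv Γ) (h0 : η d = 0) (hd : d ≠ 0) (hη : η ≠ 0) (hu : Rf Γ u φ)
    (hv : Rf Γ v ψ) (hw : Rf Γ w χ) (ha : Asym u φ v ψ w χ) (d1 : φ d = 0) (d2 : ψ d = 0) (d3 : χ d = 0)
    (e1 : η u = 0) (e2 : η v = 0) (e3 : η w = 0) (h : NN Γ d η a f) : φ a = 0 := by
  by_contra hne
  obtain ⟨⟨-, p1⟩, ⟨-, p2⟩, -⟩ := ha.ne (zsym_of_noTv hT) hu hv hw
  obtain ⟨α, α', κ, hα, hα', n1⟩ := h.step h2 hT h0 hη hu d1 e1 hne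
  obtain ⟨β, β', κ', hβ, hβ', n2⟩ := n1.step h2 hT h0 hη hv d2 e2 (by simp [d2, hα, p1])
  obtain ⟨γ, γ', κ'', hγ, hγ', n3⟩ := n1.step h2 hT h0 hη hw d3 e3 (by simp [d3, hα, p2])
  have s1 := n1.sym hT h0 hd hη n2
  have s2 := n2.sym hT h0 hd hη n3
  have s3 := n3.sym hT h0 hd hη n1
  simp only [LinearMap.smul_apply, map_add, map_smul, d1, d2, d3, smul_eq_mul, mul_zero, add_zero] at s1 s2 s3
  refine ha (mul_left_cancel₀ (mul_ne_zero (mul_ne_zero (mul_ne_zero hα hα') (mul_ne_zero hβ hβ'))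
    (mul_ne_zero hγ hγ')) ?_)
  linear_combination (β' * (γ * ψ w) * (γ' * (α * χ u))) * s1 +
    (β' * (α * ψ u) * (γ' * (α * χ u))) * s2 + (β' * (α * ψ u) * (γ' * (β * χ v))) * s3

/-! ### The action on the quotient -/

/-- The elements moving vectors inside the span of `e` and `d`, and fixing the kernel of `x` and `η`. -/
def HS (Γ : Subgroup (GL ι F)) (e : Fin k → ι → F) (x : Fin k → Dual F (ι → F)) (d : ι → F) (η : Dual F (ι → F)) :
    Subgroup (GL ι F) where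
  carrier := {g | g ∈ Γ ∧ (∀ y, ∃ κ : F, g • y - y = pr e x (g • y - y) + κ • d) ∧
    ∀ y, pr e x y = 0 → η y = 0 → g • y = y}
  one_mem' := ⟨Γ.one_mem, fun y => ⟨0, by simp [pr_zero]⟩, fun y _ _ => one_smul _ y⟩
  mul_mem' := fun {g h} ⟨g1, g2, g3⟩ ⟨h1, h2, h3⟩ => ⟨Γ.mul_mem g1 h1, fun y => by
    obtain ⟨κ, e1⟩ := g2 (h • y)
    obtain ⟨κ', e2⟩ := h2 y
    refine ⟨κ + κ', ?_⟩
    rw [mul_smul, ← sub_add_sub_cancel _ (h • y), pr_add, add_smul]
    linear_combination (exp := 1) e1 + e2, fun y a b => by rw [mul_smul, h3 y a b, g3 y a b]⟩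
  inv_mem' := fun {g} ⟨g1, g2, g3⟩ => ⟨Γ.inv_mem g1, fun y => by
    obtain ⟨κ, e1⟩ := g2 (g⁻¹ • y)
    refine ⟨-κ, ?_⟩
    rw [smul_inv_smul, pr_sub] at e1
    rw [pr_sub, neg_smul]
    linear_combination (exp := 1) -e1, fun y a b => by rw [inv_smul_eq_iff, g3 y a b]⟩

/-- A degenerate extension of a frame. -/
structure Dg (e : Fin k → ι → F) (x : Fin k → Dual F (ι → F)) (d : ι → F) (η : Dual F (ι → F)) : Prop where
  bi : Bi e x
  prd : pr e x d = 0
  ηpr : ∀ y, η (pr e x y) = 0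
  ηd : η d = 0

namespace Dg

theorem ηe (h : Dg e x d η) (i : Fin k) : η (e i) = 0 := by rw [← h.bi.pr_e, h.ηpr]

theorem xd (h : Dg e x d η) (i : Fin k) : x i d = 0 := by rw [← h.bi.x_pr, h.prd, map_zero]

theorem η_smul (h : Dg e x d η) {g : GL ι F} (hg : g ∈ HS Γ e x d η) (y : ι → F) : η (g • y) = η y := by
  obtain ⟨κ, e1⟩ := hg.2.1 y
  simpa [h.ηpr, h.ηd, sub_eq_zero] using congrArg η e1

theorem split (h : Dg e x d η) {g : GL ι F} (hg : g ∈ HS Γ e x d η) {y : ι → F} (hy : η y = 0) :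
    g • y = y - pr e x y + ∑ j, x j y • g • e j := by
  conv_lhs => rw [← sub_add_cancel y (pr e x y), smul_add,
    hg.2.2 _ (by rw [pr_sub, h.bi.pr_pr, sub_self]) (by rw [map_sub, hy, h.ηpr, sub_self])]
  simp only [pr, Finset.smul_sum, gsmul_smul]

theorem key (h : Dg e x d η) {g : GL ι F} (hg : g ∈ HS Γ e x d η) {y : ι → F} (hy : η y = 0) (i : Fin k) :
    x i (g • y) = ∑ j, x i (g • e j) * x j y := by
  rw [h.split hg hy]
  simp [h.bi.x_pr, mul_comm]

/-- The matrix of the action on the quotient. -/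
def piM (Γ : Subgroup (GL ι F)) (h : Dg e x d η) : HS Γ e x d η →* Matrix (Fin k) (Fin k) F where
  toFun g := Matrix.of fun i j => x i ((g : GL ι F) • e j)
  map_one' := by ext i j; simp [h.bi.apply, Matrix.one_apply]
  map_mul' g g' := by
    ext i j
    rw [Matrix.mul_apply, Matrix.of_apply, Subgroup.coe_mul, mul_smul, h.key g.2 (by rw [h.η_smul g'.2, h.ηe])]
    rfl

/-- The action on the quotient. -/
noncomputable def pi (Γ : Subgroup (GL ι F)) (h : Dg e x d η) : HS Γ e x d η →* GL (Fin k) F := (piM Γ h).toHomUnits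

theorem pi_co (h : Dg e x d η) (g : HS Γ e x d η) {y : ι → F} (hy : η y = 0) :
    h.pi Γ g • co x y = co x ((g : GL ι F) • y) := by
  funext i
  change _ = x i ((g : GL ι F) • y)
  rw [h.key g.2 hy]
  rfl

theorem η_up (h : Dg e x d η) (z : Fin k → F) : η (up e z) = 0 := by rw [← h.bi.pr_up, h.ηpr]

theorem mem_HS (hv : Rf Γ v ψ) (h1 : ∃ κ : F, v = pr e x v + κ • d) (h2 : ∀ y, pr e x y = 0 → η y = 0 → ψ y = 0) :
    ∃ g : HS Γ e x d η, ∀ y, (g : GL ι F) • y = y - ψ y • v := by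
  obtain ⟨g, hg, eg⟩ := hv.mem
  obtain ⟨κ, h1⟩ := h1
  refine ⟨⟨g, hg, fun y => ⟨-ψ y * κ, ?_⟩, fun y a b => by rw [eg, h2 y a b, zero_smul, sub_zero]⟩, eg⟩
  rw [eg, sub_sub_cancel_left, ← neg_smul, pr_smul, mul_smul, ← smul_add, ← h1]

theorem rf_range (h : Dg e x d η) (h2 : (2 : F) ≠ 0) (hv : ψ v = 2) (hi : In e x v ψ) {g : HS Γ e x d η}
    (eg : ∀ y, (g : GL ι F) • y = y - ψ y • v) : Rf (h.pi Γ).range (co x v) (ψ ∘ₗ up e) := by
  have h1 : (ψ ∘ₗ up e) (co x v) = 2 := by rw [LinearMap.comp_apply, hi.up_co, hv]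
  refine ⟨h1, fun e0 => h2 (by rw [← h1, e0, map_zero]), fun e0 => h2 (by rw [← h1, e0, LinearMap.zero_apply]),
    _, ⟨g, rfl⟩, fun z => ?_⟩
  conv_lhs => rw [← h.bi.co_up z, h.pi_co g (h.η_up z), eg, map_sub, map_smul, h.bi.co_up]
  rfl

/-- The elements acting trivially on the quotient. -/
theorem ker_form (h : Dg e x d η) {g : HS Γ e x d η} (hg : h.pi Γ g = 1) :
    ∃ (a : ι → F) (f : Dual F (ι → F)), η a = 0 ∧ f d = 0 ∧ (∃ κ : F, a = pr e x a + κ • d) ∧
      ∀ y, (g : GL ι F) • y = y + f y • d + η y • a := by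
  have h1 : ∀ j, ∃ κ : F, (g : GL ι F) • e j = e j + κ • d := fun j => by
    obtain ⟨κ, e1⟩ := g.2.2.1 (e j)
    have := h.pi_co g (h.ηe j)
    rw [hg, one_smul] at this
    rw [pr_sub, ← up_co, ← this, up_co, sub_self, zero_add, sub_eq_iff_eq_add'] at e1
    exact ⟨κ, e1⟩
  choose κ hκ using h1
  obtain ⟨y₀, h2, h3⟩ : ∃ y₀, pr e x y₀ = 0 ∧ ∀ y, η (y - η y • y₀) = 0 := by
    by_cases h0 : η = 0
    · exact ⟨0, pr_zero, fun y => by simp [h0]⟩
    · obtain ⟨y, hy⟩ : ∃ y, η y ≠ 0 := by_contra fun hn => h0 (LinearMap.ext fun y => not_not.1 fun h' => hn ⟨y, h'⟩)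
      exact ⟨(η y)⁻¹ • (y - pr e x y), by rw [pr_smul, pr_sub, h.bi.pr_pr, sub_self, smul_zero],
        fun z => by simp [h.ηpr, hy]⟩
  refine ⟨(g : GL ι F) • y₀ - y₀, ∑ j, κ j • x j, by rw [map_sub, h.η_smul g.2, sub_self], by simp [h.xd],
    g.2.2.1 y₀, fun y => ?_⟩
  conv_lhs => rw [← sub_add_cancel y (η y • y₀), smul_add, h.split g.2 (h3 y), gsmul_smul]
  have h4 : ∀ j, x j y₀ = 0 := (pr_eq_zero_iff h.bi).1 h2
  simp only [hκ, pr, map_sub, map_smul, h4, smul_add, Finset.sum_add_distrib, smul_smul, smul_eq_mul, mul_zero,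
    sub_zero, LinearMap.sum_apply, LinearMap.smul_apply, Finset.sum_smul, mul_comm (κ _), smul_sub]
  abel

end Dg

/-! ### The element `-1` of the plane -/

theorem neg_mem [Finite F] (h2 : (2 : F) ≠ 0) {L : Subgroup (GL (Fin 2) F)} (hT : HasTv L) {u v : Fin 2 → F}
    {φ ψ : Dual F (Fin 2 → F)} (hu : Rf L u φ) (hv : Rf L v ψ) (h1 : φ v ≠ 0) (h1' : ψ u ≠ 0) (hc : ψ u * φ v ≠ 4) :
    ∃ z ∈ L, ∀ y : Fin 2 → F, z • y = -y := by
  obtain ⟨t, ht, a, f, ha, hf, h0, et⟩ := hT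
  obtain ⟨w, χ, hw, h3, h4⟩ : ∃ w χ, Rf L w χ ∧ χ a ≠ 0 ∧ f w ≠ 0 := by
    by_contra hn
    obtain ⟨x, hb, -⟩ := exists_bi_pair hu.two hv.two (by rwa [mul_comm])
    have hp : ∀ y, x 0 y • u + x 1 y • v = y := fun y => by simpa [pr] using hb.pr_eq_self (by simp) y
    have k1 : φ a = 0 ∨ f u = 0 := by_contra fun h => hn ⟨u, φ, hu, (not_or.1 h).1, (not_or.1 h).2⟩
    have k2 : ψ a = 0 ∨ f v = 0 := by_contra fun h => hn ⟨v, ψ, hv, (not_or.1 h).1, (not_or.1 h).2⟩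
    have k3 : ¬ (f u = 0 ∧ f v = 0) := fun h => hf (LinearMap.ext fun y => by rw [← hp y]; simp [h.1, h.2])
    have k4 : ¬ (x 0 a = 0 ∧ x 1 a = 0) := fun h => ha (by rw [← hp a]; simp [h.1, h.2])
    rw [← hp a] at k1 k2 h0
    simp only [map_add, map_smul, smul_eq_mul, hu.two, hv.two] at k1 k2 h0
    generalize x 0 a = α at *
    generalize x 1 a = β at *
    rcases k1 with k1 | k1 <;> rcases k2 with k2 | k2
    · exact k4 ⟨mul_left_cancel₀ (sub_ne_zero.2 hc) (by linear_combination φ v * k2 - 2 * k1),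
        mul_left_cancel₀ (sub_ne_zero.2 hc) (by linear_combination ψ u * k1 - 2 * k2)⟩
    · have : α = 0 := by simpa [k2, show f u ≠ 0 from fun h => k3 ⟨h, k2⟩] using h0
      exact k4 ⟨this, by simpa [this, h1] using k1⟩
    · have : β = 0 := by simpa [k1, show f v ≠ 0 from fun h => k3 ⟨k1, h⟩] using h0
      exact k4 ⟨by simpa [this, h1'] using k2, this⟩
    · exact k3 ⟨k1, k2⟩
  obtain ⟨s, hs, es⟩ := hw.mem
  have e1 : f (a - χ a • w) = -(χ a * f w) := by simp [h0]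
  have e2 : (f - f w • χ) a = -(χ a * f w) := by simp [h0, mul_comm]
  have e3 : (f - f w • χ) (a - χ a • w) = 0 := by simp [h0, hw.two]; ring
  have e4 : ∀ y, (s * t * s) • y = y + (f - f w • χ) y • (a - χ a • w) := fun y => by
    simp only [mul_smul, es, et, map_add, map_sub, map_smul, hw.two, smul_eq_mul, LinearMap.sub_apply,
      LinearMap.smul_apply]
    module
  have hm := L.mul_mem (L.mul_mem hs ht) hs
  have hne := neg_ne_zero.2 (mul_ne_zero h3 h4)
  generalize a - χ a • w = a' at *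
  generalize f - f w • χ = f' at *
  generalize -(χ a * f w) = c at *
  obtain ⟨z, hz, z1, z2⟩ := neg_one_mem_of_roots h2
    (CL.SL2.planeAct (DistribMulAction.toModuleAut F (Fin 2 → F)) L a a') hne hne
    ⟨t, ht, by simpa [SpecialLinearGroup.transvection_coe, h0] using et a,
      by simpa [SpecialLinearGroup.transvection_coe, e1, add_comm] using et a'⟩
    ⟨_, hm, by simpa [SpecialLinearGroup.transvection_coe, e2] using e4 a,
      by simpa [SpecialLinearGroup.transvection_coe, e3] using e4 a'⟩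
  replace z1 : z • a = -a := by simpa using z1
  replace z2 : z • a' = -a' := by simpa using z2
  have hb : Bi ![a, a'] ![c⁻¹ • f', c⁻¹ • f] := ⟨fun i => by fin_cases i <;> simp [e1, e2, hne], fun i j hij => by
    fin_cases i <;> fin_cases j <;> simp_all⟩
  refine ⟨z, hz, fun y => ?_⟩
  rw [← hb.pr_eq_self (by simp) y]
  simp only [pr, Fin.sum_univ_two, smul_add, gsmul_smul, cons_val_zero, cons_val_one, z1, z2]
  module

theorem sum_refl {H : Subgroup (GL ι F)} [Fintype H] (h2 : (2 : F) ≠ 0) (hv : ψ v = 2) {s : H}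
    (es : ∀ y, (s : GL ι F) • y = y - ψ y • v) :
    ∑ g : H, (g : GL ι F) • v = 0 ∧ ∀ y, ψ (∑ g : H, (g : GL ι F) • y) = 0 := by
  constructor
  · have := Fintype.sum_equiv (Equiv.mulRight s) (fun g : H => -((g : GL ι F) • v)) (fun g : H => (g : GL ι F) • v)
      fun g => by
        rw [Equiv.coe_mulRight, Subgroup.coe_mul, mul_smul, es, hv, smul_sub, gsmul_smul, two_smul]; abel
    rw [Finset.sum_neg_distrib] at this
    refine (smul_eq_zero.1 ?_).resolve_left h2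
    rw [two_smul]; nth_rewrite 1 [← this]; exact neg_add_cancel _
  · intro y
    have := Fintype.sum_equiv (Equiv.mulLeft s) (fun g : H => -ψ ((g : GL ι F) • y))
      (fun g : H => ψ ((g : GL ι F) • y)) fun g => by
        rw [Equiv.coe_mulLeft, Subgroup.coe_mul, mul_smul, es, map_sub, LinearMap.map_smul, hv, smul_eq_mul]; ring
    rw [Finset.sum_neg_distrib] at this
    rw [map_sum]
    exact (mul_eq_zero.1 (by linear_combination -this)).resolve_left h2

theorem comm_refl {z s : GL ι F} (h2 : (2 : F) ≠ 0) (hv : ψ v = 2) (es : ∀ y, s • y = y - ψ y • v)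
    (hc : z * s = s * z) (hz : pr e x (z • v) = -pr e x v) (h0 : pr e x v ≠ 0) :
    z • v = -v ∧ ∀ y, ψ (z • y) = -ψ y := by
  have h1 : ∀ y, ψ y • z • v = ψ (z • y) • v := fun y => by
    have := congrArg (· • y) hc
    simpa only [mul_smul, es, smul_sub, gsmul_smul, sub_right_inj] using this
  have h3 : ψ (z • v) = -2 := by
    have := congrArg (pr e x) (h1 v)
    rw [pr_smul, pr_smul, hz, hv, smul_neg, ← neg_smul] at this
    exact (smul_left_injective F h0 this).symm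
  have h4 : z • v = -v := smul_right_injective _ h2 (by
    have := h1 v
    rw [hv, h3] at this
    simpa using this)
  refine ⟨h4, fun y => ?_⟩
  have := h1 y
  rw [h4, smul_neg, ← neg_smul] at this
  exact (smul_left_injective F (fun e0 => h0 (by rw [e0, pr_zero])) this).symm

/-- The degenerate case. -/
theorem deg [Fintype F] (h2 : (2 : F) ≠ 0) (hT : ¬ HasTv Γ) (hu : Rf Γ u φ) (hv : Rf Γ v ψ) (hw : Rf Γ w χ)
    (ha : Asym u φ v ψ w χ) (hc : ψ u * φ v ≠ 4) (hd : cdet u φ v ψ w χ = 0) :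
    ∃ (e : Fin 2 → ι → F) (x : Fin 2 → Dual F (ι → F)), AI Γ e x ∧ In e x u φ ∧ In e x v ψ ∧ In e x w χ := by
  obtain ⟨x, hb, iu, iv⟩ := exists_bi_pair hu.two hv.two (by rwa [mul_comm])
  obtain ⟨⟨p1, p2⟩, -⟩ := ha.ne (zsym_of_noTv hT) hu hv hw
  have hdet : (Matrix.of fun i j => (![φ, ψ] : Fin 2 → Dual F (ι → F)) i ((![u, v] : Fin 2 → ι → F) j)).det ≠ 0 :=
    fun e => hc (by
      simp [det_fin_two, hu.two, hv.two] at e
      linear_combination -e)
  have hp : ∀ y, pr ![u, v] x y = x 0 y • u + x 1 y • v := fun y => by simp [pr]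
  have hφ := (in_iff.1 iu).2
  have hψ := (in_iff.1 iv).2
  have h0 : χ (pr ![u, v] x w) = 2 := by
    have a1 := hφ w
    have a2 := hψ w
    rw [cdet, ← a1, ← a2] at hd
    simp only [hp, map_add, map_smul, smul_eq_mul, hu.two, hv.two] at hd ⊢
    exact mul_left_cancel₀ (sub_ne_zero.2 hc) (by linear_combination hd)
  suffices h : w - pr ![u, v] x w = 0 ∧ χ - prD ![u, v] x χ = 0 from
    have iw : In ![u, v] x w χ := ⟨(sub_eq_zero.1 h.1).symm, (sub_eq_zero.1 h.2).symm⟩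
    ⟨_, x, ai_of hb (ρ := ![φ, ψ]) (fun i => by fin_cases i <;> assumption) (fun i => by fin_cases i <;> assumption)
      hdet (fun i j => by fin_cases i <;> fin_cases j <;> simp [hu.two, hv.two, h2, p1, p2]) hu hv hw iu iv iw ha,
      iu, iv, iw⟩
  have hsep : ∀ y, φ y = 0 → ψ y = 0 → pr ![u, v] x y = 0 := fun y a b => eq_zero_of_det hdet fun i => by
    fin_cases i
    · exact (hφ y).trans a
    · exact (hψ y).trans b
  obtain ⟨d, ed⟩ : ∃ d, d = w - pr ![u, v] x w := ⟨_, rfl⟩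
  obtain ⟨η, eη⟩ : ∃ η, η = χ - prD ![u, v] x χ := ⟨_, rfl⟩
  have hη : ∀ y, η y = χ y - χ (pr ![u, v] x y) := fun y => by rw [eη, LinearMap.sub_apply, prD_apply]
  rw [← ed, ← eη]
  have hpd : pr ![u, v] x d = 0 := by rw [ed, pr_sub, hb.pr_pr, sub_self]
  have d3 : χ d = 0 := by rw [ed, map_sub, h0, hw.two, sub_self]
  have h : Dg ![u, v] x d η :=
    ⟨hb, hpd, fun y => by rw [hη, hb.pr_pr, sub_self], by rw [hη, hpd, d3, map_zero, sub_self]⟩
  have d1 : φ d = 0 := by rw [← hφ, hpd, map_zero]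
  have d2 : ψ d = 0 := by rw [← hψ, hpd, map_zero]
  have e1 : η u = 0 := h.ηe 0
  have e2 : η v = 0 := h.ηe 1
  have e3 : η w = 0 := by rw [hη, h0, hw.two, sub_self]
  obtain ⟨r, er⟩ := Dg.mem_HS (d := d) (η := η) hu ⟨0, by rw [iu.1, zero_smul, add_zero]⟩
    fun y a _ => by rw [← hφ, a, map_zero]
  obtain ⟨s, es⟩ := Dg.mem_HS (d := d) (η := η) hv ⟨0, by rw [iv.1, zero_smul, add_zero]⟩
    fun y a _ => by rw [← hψ, a, map_zero]
  obtain ⟨t, et⟩ := Dg.mem_HS (e := ![u, v]) (x := x) (d := d) (η := η) hw ⟨1, by rw [ed, one_smul, add_sub_cancel]⟩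
    fun y a b => by rwa [hη, a, map_zero, sub_zero] at b
  have hfin : ∀ (T : (ι → F) → ι → F) (c : F), c ≠ 0 → (∀ a b : F, T (w - (a • u + b • v)) = 0) → T d = c • d →
      (∀ y, φ (T y) = 0) → (∀ y, ψ (T y) = 0) → (∀ y, χ (T y) = 0) → (∀ y, η (T y) = c * η y) → d = 0 ∧ η = 0 :=
    fun T c hc t1 t2 t3 t4 t5 t6 => ⟨(smul_eq_zero.1 (by rw [← t2, ed, hp, t1])).resolve_left hc,
      LinearMap.ext fun y => (mul_eq_zero.1 (by
        rw [← t6, hη, hsep _ (t3 y) (t4 y), t5, map_zero, sub_self])).resolve_left hc⟩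
  have hinj : Function.Injective (h.pi Γ) := (injective_iff_map_eq_one _).2 fun g hg => by
    obtain ⟨a, f, a1, a2, ⟨κ, a3⟩, eg⟩ := h.ker_form hg
    refine Subtype.ext (gext fun y => ?_)
    rw [Subgroup.coe_one, one_smul]
    by_cases hd0 : d = 0
    · rcases not_tv hT g.2.1 a1 (fun y => by simpa [hd0] using eg y) with k | k <;> simp [eg, hd0, k]
    by_cases hη0 : η = 0
    · rcases not_tv hT g.2.1 a2 (fun y => by simpa [hη0] using eg y) with k | k <;> simp [eg, hη0, k]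
    have n : NN Γ d η a f := ⟨a1, a2, g, g.2.1, eg⟩
    rw [hsep a (n.ker h2 hT h.ηd hd0 hη0 hu hv hw ha d1 d2 d3 e1 e2 e3)
      (n.ker h2 hT h.ηd hd0 hη0 hv hu hw ha.swap d2 d1 d3 e2 e1 e3), zero_add] at a3
    have eg' : ∀ y, (g : GL ι F) • y = y + (f + κ • η) y • d := fun y => by
      rw [eg, a3, LinearMap.add_apply, LinearMap.smul_apply, smul_eq_mul]; module
    rcases not_tv hT g.2.1 (by simp [a2, h.ηd]) eg' with k | k
    · exact absurd k hd0
    · rw [eg', k, LinearMap.zero_apply, zero_smul, add_zero]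
  obtain ⟨p, _, n, hp', -⟩ := FiniteField.card' F
  have := Fact.mk hp'
  classical
  have := Fintype.ofFinite (HS Γ ![u, v] x d η)
  by_cases hpc : p ∣ Fintype.card (HS Γ ![u, v] x d η)
  · obtain ⟨g, hg⟩ := exists_prime_orderOf_dvd_card p hpc
    have g1 : h.pi Γ g ≠ 1 := fun e0 => hp'.ne_one (by rw [← hg, hinj (e0.trans (map_one _).symm), orderOf_one])
    have g2 : h.pi Γ g ^ p = 1 := by rw [← map_pow, ← hg, pow_orderOf_eq_one, map_one]
    have g3 : IsTv (h.pi Γ g) := isTv_of_sq (by simp) g1 (matrix_ext_mulVec fun y => by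
      have := sq_zero_on_plane g2 (W := ⊤) (by simp) (fun _ _ => trivial) (w := y) trivial
      rw [← mulVec_mulVec, sub_mulVec, sub_mulVec, one_mulVec, one_mulVec, zero_mulVec, sub_eq_zero]
      exact this)
    obtain ⟨_, ⟨z, rfl⟩, ez⟩ := neg_mem h2 (L := (h.pi Γ).range) ⟨_, ⟨g, rfl⟩, g3⟩ (h.rf_range h2 hu.two iu er)
      (h.rf_range h2 hv.two iv es) (by rwa [LinearMap.comp_apply, iv.up_co]) (by rwa [LinearMap.comp_apply, iu.up_co])
      (by rwa [LinearMap.comp_apply, LinearMap.comp_apply, iu.up_co, iv.up_co])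
    have hz : ∀ g : HS Γ ![u, v] x d η, (z : GL ι F) * g = g * z := fun g => congrArg Subtype.val (hinj (a₁ := z * g)
      (a₂ := g * z) (gext fun y => by rw [map_mul, map_mul, mul_smul, mul_smul, ez, ez, smul_neg]))
    have hz' : ∀ y, η y = 0 → pr ![u, v] x ((z : GL ι F) • y) = -pr ![u, v] x y := fun y hy => by
      rw [← up_co, ← h.pi_co z hy, ez, map_neg, up_co]
    obtain ⟨z1, z2⟩ := comm_refl h2 hu.two er (hz r) (hz' u e1) (by rw [iu.1]; exact hu.ne)
    obtain ⟨z3, z4⟩ := comm_refl h2 hv.two es (hz s) (hz' v e2) (by rw [iv.1]; exact hv.ne)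
    obtain ⟨z5, z6⟩ := comm_refl h2 hw.two et (hz t) (hz' w e3) fun e0 => h2 (by rw [← h0, e0, map_zero])
    refine hfin (fun y => y + (z : GL ι F) • y) 2 h2 (fun a b => ?_) ?_ (fun y => by simp [z2]) (fun y => by simp [z4])
      (fun y => by simp [z6]) fun y => by rw [map_add, h.η_smul z.2, two_mul]
    · simp only [smul_sub, smul_add, gsmul_smul, z1, z3, z5]; module
    · rw [z.2.2.2 d hpd h.ηd, two_smul]
  · obtain ⟨z1, z2⟩ := sum_refl h2 hu.two er
    obtain ⟨z3, z4⟩ := sum_refl h2 hv.two es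
    obtain ⟨z5, z6⟩ := sum_refl h2 hw.two et
    refine hfin (fun y => ∑ g : HS Γ ![u, v] x d η, (g : GL ι F) • y) (Fintype.card (HS Γ ![u, v] x d η))
      (fun e0 => hpc ((CharP.cast_eq_zero_iff F p _).1 e0)) (fun a b => ?_) ?_ z2 z4 z6 fun y => ?_
    · simp only [smul_sub, smul_add, gsmul_smul, Finset.sum_sub_distrib, Finset.sum_add_distrib, ← Finset.smul_sum,
        z1, z3, z5, smul_zero, add_zero, sub_zero]
    · rw [Finset.sum_congr rfl fun g _ => g.2.2.2 d hpd h.ηd, Finset.sum_const, Finset.card_univ,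
        Nat.cast_smul_eq_nsmul]
    · rw [map_sum, Finset.sum_congr rfl fun g _ => h.η_smul g.2 y, Finset.sum_const, Finset.card_univ, nsmul_eq_mul]

end Triple

theorem stepTriple : StepTriple.{u} := by
  intro F _ _ Γ h2 hT u φ v ψ w χ hu hv hw ha
  by_cases hd : cdet u φ v ψ w χ = 0
  · refine Or.inl ?_
    by_cases h1 : ψ u * φ v = 4
    · by_cases h3 : χ v * ψ w = 4
      · by_cases h4 : φ w * χ u = 4
        · refine absurd (sub_eq_zero.1 (pow_eq_zero_iff two_ne_zero |>.1 ?_)) ha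
          rw [cdet] at hd
          linear_combination (φ v * ψ w * χ u + φ w * χ v * ψ u + 16) * (hd + 2 * h1 + 2 * h3 + 2 * h4) -
            4 * (χ v * ψ w) * (φ w * χ u) * h1 - 16 * (φ w * χ u) * h3 - 64 * h4
        · obtain ⟨e, x, a, b, c, d⟩ := Triple.deg h2 hT hw hu hv ha.rotate.rotate h4 (by
            rw [cdet] at hd ⊢; linear_combination hd)
          exact ⟨e, x, a, c, d, b, trivial⟩
      · obtain ⟨e, x, a, b, c, d⟩ := Triple.deg h2 hT hv hw hu ha.rotate h3 (by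
          rw [cdet] at hd ⊢; linear_combination hd)
        exact ⟨e, x, a, d, b, c, trivial⟩
    · obtain ⟨e, x, a, b, c, d⟩ := Triple.deg h2 hT hu hv hw ha h1 hd
      exact ⟨e, x, a, b, c, d, trivial⟩
  · obtain ⟨x, hb, iu, iv, iw⟩ := exists_bi_triple hu.two hv.two hw.two hd
    obtain ⟨⟨p1, p2⟩, ⟨p3, p4⟩, p5, p6⟩ := ha.ne (zsym_of_noTv hT) hu hv hw
    refine Or.inr ⟨hd, _, x, Triple.ai_of hb (ρ := ![φ, ψ, χ]) (fun i => by fin_cases i <;> assumption)
      (fun i => by fin_cases i <;> assumption) (fun e => hd ?_)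
      (fun i j => by fin_cases i <;> fin_cases j <;> simp [hu.two, hv.two, hw.two, h2, p1, p2, p3, p4, p5, p6])
      hu hv hw iu iv iw ha, iu, iv, iw, trivial⟩
    simp [det_fin_three, hu.two, hv.two, hw.two] at e
    rw [cdet]
    linear_combination e

end CL.Low5
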