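/-
Project LOW5, steps U1 and U2: the root groups and the traces of a group generated by transvections without a
Heisenberg pair.
-/
import Cfsg.Agent.Low5.Defs2
import Cfsg.Agent.Low.T3AC
import Cfsg.Agent.Low.T3B2

set_option autoImplicit false
set_option linter.unusedSectionVars false

namespace CL.Low5

open Matrix Cfsg Cfsg.Geo CL.Asch CL.SLn CL.Low Module
open scoped commutatorElement

universe u

namespace U12

variable {ι : Type} [Fintype ι] [DecidableEq ι] {F : Type u} [Field F] {P : Subgroup (GL ι F)}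
  {v w v₁ : ι → F} {φ ψ φ₁ : Dual F (ι → F)} {K : Subfield F} {σ : F →+* F}

theorem zsym (hl : ¬ LinPair P) (h1 : Rt P v φ) (h2 : Rt P w ψ) (h : φ w ≠ 0) : ψ v ≠ 0 := fun e =>
  hl ⟨v, w, φ, ψ, h1.tv, h2.tv, h1.ne, h2.ne', h, e⟩

theorem invariant (hG : TvGen P) {U : Submodule F (ι → F)} (h : ∀ v φ, Rt P v φ → ∀ x ∈ U, φ x • v ∈ U) :
    ∀ g ∈ P, ∀ x ∈ U, (g : Matrix ι ι F) *ᵥ x ∈ U := fun g hg x hx => by
  have : P ≤ subspaceStabilizer U := hG.trans ((Subgroup.closure_le _).2 (by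
    rintro k ⟨hk, v, φ, hv, hφ, h0, hx⟩
    replace hx : ∀ x, k • x = x + φ x • v := hx
    exact mem_subspaceStabilizer_of_mapsTo fun y hy =>
      (hx y).symm ▸ U.add_mem hy (h v φ ⟨⟨h0, k, hk, hx⟩, hv, hφ⟩ y hy) |> fun e => e))
  exact (this hg x).1 hx

theorem usys_of_big [Finite F] (hn : 2 ≤ Fintype.card ι) (hI : Irr P) (hT : TvGen P) (hl : ¬ LinPair P)
    (h : Rt P v φ) {a : F} (ha : Tv P (a • v) φ) (ha0 : a ≠ 0) (ha1 : a ≠ 1) (ha2 : a ≠ -1) : ∃ K, USys P K := by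
  obtain ⟨v', φ', h', p1⟩ := T3B.exists_rt_notMem hn hI hT (W := LinearMap.ker φ) (by simpa using h.ne')
  obtain ⟨K, hK, -, -⟩ := T3B.big_pair h.tv h'.tv p1 (zsym hl h h' p1) ha ha0 ha1 ha2
  have haK := (hK a).1 ha
  let B : Set ((ι → F) × Dual F (ι → F)) := {r | Rt P r.1 r.2 ∧ ∀ t : F, Tv P (t • r.1) r.2 ↔ t ∈ K}
  have adj : ∀ r ∈ B, ∀ w ψ, Rt P w ψ → r.2 w ≠ 0 → (w, ψ) ∈ B := fun r hr w ψ h2 q1 => by
    have q2 := zsym hl hr.1 h2 q1
    obtain ⟨L, l1, l2, -⟩ := T3B.big_pair hr.1.tv h2.tv q1 q2 ((hr.2 a).2 haK) ha0 ha1 ha2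
    obtain ⟨L', m1, m2, -⟩ := T3B.big_pair h2.tv hr.1.tv q2 q1 (l2 a ((l1 a).1 ((hr.2 a).2 haK))) ha0 ha1 ha2
    exact ⟨h2, fun t => ⟨fun e => (hr.2 t).1 (m2 t ((m1 t).1 e)), fun e => l2 t ((l1 t).1 ((hr.2 t).2 e))⟩⟩
  have grp : ∀ w ψ, Rt P w ψ → ∀ t : F, Tv P (t • w) ψ ↔ t ∈ K := fun w ψ h2 => by
    rcases irr_iff.1 hI (⨅ r ∈ B, LinearMap.ker r.2) (invariant hT fun y χ hy x hx => by
      simp only [Submodule.mem_iInf, LinearMap.mem_ker, map_smul, smul_eq_mul] at hx ⊢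
      intro r hr
      by_cases e : r.2 y = 0
      · rw [e, mul_zero]
      · rw [hx _ (adj r hr y χ hy e), zero_mul]) with e | e
    · by_contra hc
      have : w ∈ ⨅ r ∈ B, LinearMap.ker r.2 := by
        simp only [Submodule.mem_iInf, LinearMap.mem_ker]
        exact fun r hr => by_contra fun q => hc (adj r hr w ψ h2 q).2
      rw [e] at this
      exact h2.ne this
    · have : v' ∈ ⨅ r ∈ B, LinearMap.ker r.2 := e ▸ Submodule.mem_top
      simp only [Submodule.mem_iInf, LinearMap.mem_ker] at this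
      exact absurd (this (v, φ) ⟨h, hK⟩) p1
  refine ⟨K, grp, fun w ψ w' ψ' h1 h2 => ?_, a, haK, ha0, ha1⟩
  by_cases q1 : ψ w' = 0
  · simp [q1]
  · obtain ⟨L, l1, -, l3⟩ := T3B.big_pair h1.tv h2.tv q1 (zsym hl h1 h2 q1) ((grp _ _ h1 a).2 haK) ha0 ha1 ha2
    exact (grp _ _ h1 _).1 ((l1 _).2 l3)

/-- Roots with a non-singular Gram matrix and non-zero pairings give an irreducible group on their span. -/
theorem irr_TK {k : ℕ} {e : Fin k → ι → F} {x η : Fin k → Dual F (ι → F)} (hb : Bi e x) (hr : ∀ i, Rt P (e i) (η i))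
    (hi : ∀ i, In e x (e i) (η i)) (hd : (Matrix.of fun i j => η i (e j)).det ≠ 0)
    (hn : ∀ i j, i ≠ j → η i (e j) ≠ 0) : Irr (TK P e x) := irr_iff.2 fun W hW => by
  have key : ∀ i, ∀ z ∈ W, η i (up e z) ≠ 0 → co x (e i) ∈ W := fun i z hz h0 => by
    obtain ⟨-, A, hA, eA⟩ := tv_TK_of_in hb (hr i).tv (hi i)
    have := W.sub_mem (hW A hA z hz) hz
    rw [← gsmul_def, eA, add_sub_cancel_left] at this
    exact (W.smul_mem_iff h0).1 this
  refine or_iff_not_imp_left.2 fun h0 => eq_top_iff.2 fun a _ => ?_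
  obtain ⟨z, hz, z0⟩ := (Submodule.ne_bot_iff _).1 h0
  obtain ⟨i, hi'⟩ : ∃ i, η i (up e z) ≠ 0 := by
    by_contra! hc
    exact z0 (Matrix.eq_zero_of_mulVec_eq_zero hd (funext fun i => by
      simpa [up_apply, mulVec, dotProduct, mul_comm] using hc i))
  have all : ∀ j, co x (e j) ∈ W := fun j => by
    by_cases ij : j = i
    · exact ij ▸ key i z hz hi'
    · exact key j _ (key i z hz hi') (by rw [(hi i).up_co]; exact hn j i ij)
  rw [← hb.co_up a, up_apply, map_sum]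
  exact W.sum_mem fun j _ => by rw [map_smul]; exact W.smul_mem _ (all j)

theorem three_inv [Fintype F] (hl : ¬ LinPair P) (h3 : (3 : F) = 0)
    (hs : ∀ v φ, Rt P v φ → ∀ a : F, Tv P (a • v) φ → a = 0 ∨ a = 1 ∨ a = -1) (h1 : Rt P v φ) (h2 : Rt P w ψ)
    (q : φ w ≠ 0) {y : ι → F} {χ : Dual F (ι → F)} (hy : Rt P y χ) (hd : φ w * ψ y * χ v + φ y * χ w * ψ v ≠ 0) :
    φ w * ψ v = 0 ∨ φ w * ψ v = 1 ∨ φ w * ψ v = -1 := by
  have hd' : (Matrix.of fun i j => (![φ, ψ, χ] : Fin 3 → Dual F (ι → F)) i ((![v, w, y] : Fin 3 → ι → F) j)).det ≠ 0 :=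
    fun e => hd (by
      simp [det_fin_three, h1.tv.1, h2.tv.1, hy.tv.1] at e
      linear_combination e)
  have p1 : ψ y ≠ 0 := fun e => hd (by
    rw [e, show χ w = 0 from by_contra fun e' => zsym hl hy h2 e' e]; ring)
  have p2 : φ y ≠ 0 := fun e => hd (by
    rw [e, show χ v = 0 from by_contra fun e' => zsym hl hy h1 e' e]; ring)
  obtain ⟨x, hb, hi⟩ := exists_bi hd'
  have hI := irr_TK (P := P) hb (fun i => by fin_cases i <;> assumption) hi hd' fun i j ij => by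
    fin_cases i <;> fin_cases j <;> simp [q, p1, p2, zsym hl h1 h2 q, zsym hl h1 hy p2, zsym hl h2 hy p1] at ij ⊢
  have hs' : ∀ a η, Rt (TK P ![v, w, y] x) a η → ∀ t : F, Tv (TK P ![v, w, y] x) (t • a) η → t = 0 ∨ t = 1 ∨ t = -1 :=
    fun a η h t ht => hs _ _ ⟨(tv_TK hb).1 h.tv, fun e => h.ne (hb.up_inj (by simpa using e)), hb.comp_co_ne h.ne'⟩ t
      (by simpa using (tv_TK hb).1 ht)
  obtain ⟨K, hK⟩ := T3B.sys_of_three hI (tvGen_TK hb) (by_contra fun ho => one_ne_zero (α := F) (by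
    have := (t3C F _ hI (tvGen_TK hb) (fun ⟨a, b, η, ζ, k1, k2, k3, k4, k5, k6⟩ => hl ⟨_, _, _, _, (tv_TK hb).1 k1,
      (tv_TK hb).1 k2, fun e => k3 (hb.up_inj (by simpa using e)), hb.comp_co_ne k4, by simpa [hb.co_up] using k5,
      by simpa [hb.co_up] using k6⟩) ho).1
    linear_combination h3 - this)) h3 hs'
  have r1 := rt_TK_of_in hb h1 (hi 0)
  have k := hK.inv _ _ _ _ r1 (rt_TK_of_in hb h2 (hi 1))
  rw [LinearMap.comp_apply, LinearMap.comp_apply, In.up_co (v := w) (hi 1), In.up_co (v := v) (hi 0)] at k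
  exact hs' _ _ r1 _ ((hK.grp _ _ r1 _).2 k)

theorem exists_nr (hl : ¬ LinPair P) (hS : USys P K) (h1 : Rt P v₁ φ₁) (h : Rt P w ψ)
    (hA : φ₁ w ≠ 0 ∨ ∃ a b : F, w = a • v₁ ∧ ψ = b • φ₁) :
    ∃ v φ, T3B.Nr P v₁ φ₁ v φ ∧ ∃ a b : F, w = a • v ∧ ψ = b • φ ∧ a * b ∈ K := by
  rcases hA with q1 | ⟨a, b, rfl, rfl⟩
  · have q2 := zsym hl h1 h q1
    have hn := hS.inv _ _ _ _ h1 h
    have hk : (φ₁ w)⁻¹ * (-(ψ v₁)⁻¹) ∈ K := by
      rw [mul_neg, ← mul_inv]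
      exact K.neg_mem (K.inv_mem hn)
    refine ⟨(φ₁ w)⁻¹ • w, (-(ψ v₁)⁻¹) • ψ, ⟨⟨?_, smul_ne_zero (inv_ne_zero q1) h.ne,
      smul_ne_zero (neg_ne_zero.2 (inv_ne_zero q2)) h.ne'⟩, Or.inr ⟨?_, ?_⟩⟩, φ₁ w, -ψ v₁, ?_, ?_, ?_⟩
    · have := T3B.tv_smul (t := 1) h.tv.1 ((hS.grp _ _ h _).2 (by rwa [one_mul]))
      rwa [one_smul] at this
    · rw [map_smul, smul_eq_mul, inv_mul_cancel₀ q1]
    · rw [LinearMap.smul_apply, smul_eq_mul, neg_mul, inv_mul_cancel₀ q2]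
    · rw [smul_smul, mul_inv_cancel₀ q1, one_smul]
    · rw [smul_smul, neg_mul_neg, mul_inv_cancel₀ q2, one_smul]
    · rw [mul_neg]; exact K.neg_mem hn
  · refine ⟨v₁, φ₁, ⟨h1, Or.inl ⟨rfl, rfl⟩⟩, a, b, rfl, rfl, ?_⟩
    have := (hS.grp _ _ h1 _).1 (T3B.tv_smul' (t := 1) h1.tv.1 (by rw [one_smul]; exact h.tv))
    rwa [one_mul] at this

theorem rel (hl : ¬ LinPair P) (hS : USys P K) (hσ : ∀ a, a ∈ K ↔ σ a = a) (h1 : Rt P v₁ φ₁)
    (hv : T3B.Nr P v₁ φ₁ v φ) (hw : T3B.Nr P v₁ φ₁ w ψ) : σ (φ w) = -ψ v := by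
  rcases hv.nr with ⟨rfl, rfl⟩ | ⟨e1, e2⟩ <;> rcases hw.nr with ⟨rfl, rfl⟩ | ⟨f1, f2⟩
  · simp [h1.tv.1]
  · rw [f1, f2, map_one, neg_neg]
  · rw [e1, e2, map_neg, map_one]
  have k : ∀ t ∈ K, Rt P (w + (t * φ₁ w) • v₁) (ψ - (t * ψ v₁) • φ₁) := fun t ht =>
    T3B.Rt.conj_tv ((hS.grp _ _ h1 t).2 ht) hw.rt
  by_cases ha : φ w ∈ K
  · have : (ψ - (φ w * ψ v₁) • φ₁) v = 0 := by_contra fun e => zsym hl (k _ ha) hv.rt e (by simp [f1, e2])
    rw [(hσ _).1 ha]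
    simp only [LinearMap.sub_apply, LinearMap.smul_apply, e1, f2, smul_eq_mul] at this
    linear_combination this
  have hab := hS.inv _ _ _ _ hv.rt hw.rt
  have k1 := hS.inv _ _ _ _ hv.rt (k 1 K.one_mem)
  simp only [map_add, map_smul, e1, f1, LinearMap.sub_apply, LinearMap.smul_apply, e2, f2, smul_eq_mul] at k1
  have hs : φ w - ψ v ∈ K := by
    convert K.add_mem (K.sub_mem k1 hab) K.one_mem using 1
    ring
  have s1 := (hσ _).1 hs
  have s2 := (hσ _).1 hab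
  rw [map_sub] at s1
  rw [map_mul] at s2
  have : (σ (φ w) - φ w) * (σ (φ w) + ψ v) = 0 := by
    linear_combination σ (φ w) * s1 + s2
  rcases mul_eq_zero.1 this with e | e
  · exact absurd ((hσ _).2 (by linear_combination e)) ha
  · linear_combination e

/-- The roots adjacent or parallel to a fixed one generate. -/
theorem le_adj [Finite F] (h : QS P) (hT : TvGen P) (hl : ¬ LinPair P) (h1 : Rt P v₁ φ₁) :
    P ≤ Subgroup.closure {g | ∃ w ψ, Rt P w ψ ∧ (φ₁ w ≠ 0 ∨ ∃ a b : F, w = a • v₁ ∧ ψ = b • φ₁) ∧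
      ∀ y, g • y = y + ψ y • w} := by
  obtain ⟨h0, s, hs, es⟩ := h1.tv
  refine h.le_of_normal (fun g hg => ?_) (Subgroup.subset_closure ⟨v₁, φ₁, h1, Or.inr ⟨1, 1, by simp, by simp⟩, es⟩) hs
    (IsTv.not_mem_scalars ⟨v₁, φ₁, h1.ne, h1.ne', h0, es⟩)
  have hg' := (Subgroup.closure_toSubmonoid_of_finite (s := {g | g ∈ P ∧ IsTv g})).le (hT hg)
  clear hg
  induction hg' using Submonoid.closure_induction with
  | one => simp
  | mul a b _ _ ha hb => exact fun n hn => by simpa [mul_assoc] using ha _ (hb n hn)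
  | mem g hg =>
    obtain ⟨hg, y, χ, y0, χ0, k0, eg⟩ := hg
    replace eg : ∀ x, g • x = x + χ x • y := eg
    have hy : Rt P y χ := ⟨⟨k0, g, hg, eg⟩, y0, χ0⟩
    intro n hn
    by_cases q : φ₁ y = 0
    · have q' : χ v₁ = 0 := by_contra fun e => zsym hl hy h1 e q
      induction hn using Subgroup.closure_induction with
      | mem n hn =>
        obtain ⟨w, ψ, hw, hA, en⟩ := hn
        refine Subgroup.subset_closure ⟨_, _, hw.conj hg, hA.imp (fun e => by simpa [eg, q] using e) ?_, fun z => by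
          rw [mul_smul, mul_smul, en, smul_add, smul_inv_smul, dact_apply, gsmul_smul]⟩
        rintro ⟨a, b, rfl, rfl⟩
        exact ⟨a, b, by simp [eg, q'], LinearMap.ext fun z => by simp [inv_smul_of_tv k0 eg, q]⟩
      | one => simp
      | mul a b _ _ ha hb => simpa [mul_assoc] using Subgroup.mul_mem _ ha hb
      | inv a _ ha => simpa [mul_assoc] using Subgroup.inv_mem _ ha
    · have := Subgroup.subset_closure (k := {g : GL ι F | ∃ w ψ, Rt P w ψ ∧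
        (φ₁ w ≠ 0 ∨ ∃ a b : F, w = a • v₁ ∧ ψ = b • φ₁) ∧ ∀ y, g • y = y + ψ y • w}) ⟨y, χ, hy, Or.inl q, eg⟩
      exact Subgroup.mul_mem _ (Subgroup.mul_mem _ this hn) (Subgroup.inv_mem _ this)

end U12

theorem subU1 (h : SubNP.{u}) : SubU1.{u} := fun F _ _ P hQ ht hl hr hn => by
  have hT := hQ.tvGen ht
  by_cases hs : ∀ v φ, Rt P v φ → ∀ a : F, Tv P (a • v) φ → a = 0 ∨ a = 1 ∨ a = -1
  swap
  · push Not at hs
    obtain ⟨v, φ, h, a, ha, h0, h1, h2⟩ := hs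
    exact U12.usys_of_big (by simp) hQ.irr hT hl h ha h0 h1 h2
  obtain ⟨g, hg, hg'⟩ := ht
  obtain ⟨v, φ, hv, hφ, h1⟩ := hg'.tv hg
  have h3 : (3 : F) = 0 := by
    rcases hs v φ ⟨h1, hv, hφ⟩ 2 (by rw [two_smul]; exact h1.add_left h1) with e | e | e
    · exact (hn ⟨e, fun w ψ t k1 k2 => (hs w ψ k1 t k2).imp_right fun k =>
        k.elim id fun k => by linear_combination k - e⟩).elim
    · exact absurd (by linear_combination e) (one_ne_zero (α := F))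
    · linear_combination e
  have : Fact (Nat.Prime 3) := ⟨Nat.prime_three⟩
  have : CharP F 3 := CharP.ringChar_of_prime_eq_zero Nat.prime_three (by exact_mod_cast h3) ▸ ringChar.charP F
  have hK : ∀ a : F, a ∈ CL.Uni.IsBar.fixedField (frobenius F 3) ↔ a = 0 ∨ a = 1 ∨ a = -1 := fun a => by
    rw [CL.Uni.IsBar.mem_fixedField, frobenius_def]
    constructor
    · intro e
      have : a * ((a - 1) * (a + 1)) = 0 := by linear_combination e
      simpa only [mul_eq_zero, sub_eq_zero, add_eq_zero_iff_eq_neg] using this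
    · rintro (rfl | rfl | rfl) <;> ring
  refine ⟨_, fun v φ k t => ⟨fun e => (hK t).2 (hs v φ k t e), fun e => ?_⟩, fun v φ w ψ k1 k2 => (hK _).2 ?_, -1,
    (hK _).2 (by simp), by simp, fun e => one_ne_zero (α := F) (by linear_combination h3 + e)⟩
  · rcases (hK t).1 e with rfl | rfl | rfl
    · rw [zero_smul]; exact Tv.zero_left
    · rw [one_smul]; exact k.tv
    · rw [neg_one_smul]; exact k.tv.neg_left
  · by_cases q : φ w = 0
    · simp [q]
    · obtain ⟨y, χ, hy, hd⟩ := h F P hQ hl hr v φ w ψ k1 k2 q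
      exact U12.three_inv hl h3 hs k1 k2 q hy hd

theorem subU2 : SubU2.{u} := fun F _ _ P hQ ht hl K hS σ hσ l hP => by
  have hT := hQ.tvGen ht
  obtain ⟨g, hg, hg'⟩ := ht
  obtain ⟨v₁, φ₁, hv, hφ, h1⟩ := hg'.tv hg
  replace h1 : Rt P v₁ φ₁ := ⟨h1, hv, hφ⟩
  let T : Set (V F × Dual F (V F)) := {t | ∃ a ∈ K, a ≠ 0 ∧ ∃ v φ, T3B.Nr P v₁ φ₁ v φ ∧ t = (-v, a • φ)}
  have hc : ∀ t ∈ T, ∃ a ∈ K, a ≠ 0 ∧ ∃ v φ, T3B.Nr P v₁ φ₁ v φ ∧ t = (-v, a • φ) := fun _ e => e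
  choose! μ m1 m2 m3 using hc
  have key := (trace_lemma ((σ.comp (RingHom.fst F F)).eqLocus (RingHom.snd F F) ⊓
    (σ.comp (RingHom.snd F F)).eqLocus (RingHom.fst F F)) T (ε := -1) μ m2 (fun s hs t ht => by
      obtain ⟨v, φ, k1, e1⟩ := m3 s hs
      obtain ⟨w, ψ, k2, e2⟩ := m3 t ht
      have a1 := (hσ _).1 (m1 s hs)
      have a2 := m2 t ht
      generalize μ s = a, μ t = b at *
      subst e1 e2
      have e : -1 * (a / b) * (b • ψ) (-v) = a * ψ v := by simp; field_simp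
      refine ⟨?_, ?_⟩
      · change σ ((a • φ) (-w)) = -1 * (a / b) * (b • ψ) (-v)
        rw [e]
        simp [a1, U12.rel hl hS hσ h1 k1 k2]
      · change σ (-1 * (a / b) * (b • ψ) (-v)) = (a • φ) (-w)
        rw [e]
        simp [a1, U12.rel hl hS hσ h1 k2 k1])
    (Subgroup.closure_mono ?_ (U12.le_adj hQ hT hl h1 hP))).1
  · have k1 : σ (tr l) = tr l⁻¹ := key.1
    exact ⟨by rw [k1]; exact key.2, k1.symm⟩
  · rintro n ⟨w, ψ, hw, hA, en⟩
    obtain ⟨v, φ, k, a, b, rfl, rfl, hab⟩ := U12.exists_nr hl hS h1 hw hA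
    refine ⟨(-v, (a * b) • φ), ⟨_, hab, mul_ne_zero (by rintro rfl; exact hw.ne (zero_smul _ _))
      (by rintro rfl; exact hw.ne' (zero_smul _ _)), v, φ, k, rfl⟩, fun y => ?_, fun y => ?_⟩
    · rw [en]
      simp only [LinearMap.smul_apply, smul_eq_mul]
      module
    · rw [inv_smul_of_tv hw.tv.1 en]
      simp only [LinearMap.smul_apply, smul_eq_mul]
      module

end CL.Low5
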