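/-
Project LOW5, step U3: an irreducible group of isometries with full transvection groups and a non-degenerate triple
of centres contains the special unitary group.
-/
import Cfsg.Agent.Low5.Defs2
import Cfsg.Agent.Low.T3B2
import Cfsg.Agent.Cls.UniMax2

set_option autoImplicit false
set_option linter.unusedSectionVars false

namespace CL.Low5

open Matrix Cfsg Cfsg.Geo CL.Asch CL.SLn CL.Low Module
open scoped commutatorElement

universe u

namespace U3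

open CL.Uni

section Abstract

variable {F : Type*} [Field F] {q : ℕ} {σ : F →+* F} {V : Type*} [AddCommGroup V] [Module F V]
  [FiniteDimensional F V] {B : V →ₛₗ[σ] V →ₗ[F] F} {M : Subgroup (V ≃ₗ[F] V)} {U : Submodule F V}

/-- Three independent centres in a non-degenerate 3-space give the special unitary group of the block. -/
theorem fix_of_three (h : IsHerm B q) (hq : q ≠ 2) (hU : Disjoint U (perp B U)) (h3 : finrank F U = 3)
    {u₁ u₂ u₃ : U} (h₁ : (u₁ : V) ∈ UCen B M) (h₂ : (u₂ : V) ∈ UCen B M) (h₃ : (u₃ : V) ∈ UCen B M)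
    (hli : ∀ r s t : F, r • u₁ + s • u₂ + t • u₃ = 0 → r = 0 ∧ s = 0 ∧ t = 0) :
    ∀ g ∈ SUG B, (∀ y ∈ perp B U, g y = y) → g ∈ M := by
  have hc := h.isCompl_perp hU
  have hr := h.restrict hU
  let N : Subgroup (U ≃ₗ[F] U) :=
    M.comap ((sumHom hc).comp (MonoidHom.inl _ _)) ⊓ UG (B.domRestrict₁₂ U U)
  have hcen : ∀ x : U, (x : V) ∈ UCen B M → x ∈ UCen (B.domRestrict₁₂ U U) N := fun x hx =>
    ⟨hx.1, fun c k hc' hk => ⟨hx.2 c _ hc' fun z => by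
      obtain ⟨a, b, rfl⟩ := exists_add_of_isCompl hc z
      change sumHom hc (k, 1) _ = _
      rw [sumHom_add, hk a, map_add, b.2 x x.2, add_zero]
      simp only [Submodule.coe_add, Submodule.coe_smul, LinearMap.domRestrict₁₂_apply, LinearEquiv.coe_one, id]
      abel, SUG_le_UG (hr.tv_mem_SUG hx.1 hc' hk)⟩⟩
  have hle : SUG (B.domRestrict₁₂ U U) ≤ N := hr.SUG_le_of_uCen (fun e => hq e.2) fun y hy =>
    T3B.uCen_all hr h3 inf_le_right (hcen _ h₁) (hcen _ h₂) (hcen _ h₃) hli hy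
  intro g hg hfix
  have g1 := h.mem_stabSet_of_fix_perp (SUG_le_UG hg) hfix
  have g2 := mem_stabSet_perp (SUG_le_UG hg) g1
  have e1 : restrictTo g g2 = 1 := LinearEquiv.ext fun y => Subtype.ext (hfix y y.2)
  have e2 := sumHom_restrictTo hc g1 g2
  rw [e1] at e2
  have k := (hle (mem_SUG.2 ⟨fun a b => SUG_le_UG hg a b, by
    have := dt_sumHom hc (restrictTo g g1, 1)
    rw [e2, (mem_SUG.1 hg).2, map_one, mul_one] at this
    exact this.symm⟩ : restrictTo g g1 ∈ _)).1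
  exact e2 ▸ k

theorem eich_move (h : IsHerm B q) (hM : M ≤ UG B) (hfix : ∀ g ∈ SUG B, (∀ y ∈ perp B U, g y = y) → g ∈ M)
    {x y z : V} (hx : x ∈ UCen B M) (hy : y ∈ UCen B M) (hxU : x ∈ U) (hyU : y ∈ U) (hxy : B x y ≠ 0)
    (hz : z ∈ perp B U) (hzx : z ∈ h.eichSub hx) : z ∈ h.eichSub hy := by
  obtain ⟨s, hs0, hs⟩ := h.bar.exists_trace_zero
  obtain ⟨g, hg, g1, -, g2⟩ := h.exists_weyl (e := x) (f := (B x y)⁻¹ • y) hx.1
    (by simp [LinearMap.map_smulₛₗ, hy.1]) (by simp [hxy]) hs0 hs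
  have hf : ∀ w ∈ perp B U, g w = w := fun w hw => g2 w (hw x hxU) (hw _ (U.smul_mem _ hyU))
  have hgM := hfix g (h.TG_le_SUG hg) hf
  have ha : -s⁻¹ * (B x y)⁻¹ ≠ 0 := mul_ne_zero (neg_ne_zero.2 (inv_ne_zero hs0)) (inv_ne_zero hxy)
  refine ⟨hz y hyU, fun a => ?_⟩
  have k := (hzx.2 ((σ (-s⁻¹ * (B x y)⁻¹))⁻¹ * a)).conj hM hgM
  rw [g1, smul_smul, hf _ ((perp B U).smul_mem _ hz)] at k
  have k2 := h.eichIn_smul_left k ha
  rwa [smul_smul, mul_inv_cancel_left₀ ((map_ne_zero σ).2 ha)] at k2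

theorem eich_move' (h : IsHerm B q) (hM : M ≤ UG B) (hU : Disjoint U (perp B U))
    (hfix : ∀ g ∈ SUG B, (∀ y ∈ perp B U, g y = y) → g ∈ M)
    {x y z : V} (hx : x ∈ UCen B M) (hy : y ∈ UCen B M) (hxU : x ∈ U) (hyU : y ∈ U) (hx0 : x ≠ 0) (hy0 : y ≠ 0)
    (hz : z ∈ perp B U) (hzx : z ∈ h.eichSub hx) : z ∈ h.eichSub hy := by
  by_cases hxy : B x y = 0
  · obtain ⟨w, hw, hww, k1, k2⟩ := h.exists_isotropic_ne_ne_mem hU hyU hxU hy0 hx0 hy.1 hxy
    have hw' := h.mem_uCen_of_block hfix hw hww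
    exact eich_move h hM hfix hw' hy hw hyU (h.flip_ne k1) hz (eich_move h hM hfix hx hw' hxU hw k2 hz hzx)
  · exact eich_move h hM hfix hx hy hxU hyU hxy hz hzx

theorem le_of_block (h : IsHerm B q) (hq : q ≠ 2) (hM : M ≤ UG B) (hU : Disjoint U (perp B U))
    (h3 : 3 ≤ finrank F U) (hfix : ∀ g ∈ SUG B, (∀ y ∈ perp B U, g y = y) → g ∈ M)
    (hirr : ∀ W : Submodule F V, (∀ p ∈ UCen B M, ∀ w ∈ W, B p w • p ∈ W) → W = ⊥ ∨ W = ⊤) : SUG B ≤ M := by
  obtain ⟨x, hxU, hx0, hxx⟩ := h.exists_isotropic_mem hU (by omega)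
  have hx := h.mem_uCen_of_block hfix hxU hxx
  refine h.SUG_le_of_block (fun e => hq e.2) hM hU hfix hx hxU hx0 fun z hz => ?_
  refine (hirr (U ⊔ (perp B U ⊓ h.eichSub hx)) fun p hp w hw => ?_).elim
    (fun e => absurd ((le_sup_left.trans e.le) hxU) hx0) fun e => ?_
  swap
  · obtain ⟨a, ha, b, hb, rfl⟩ := Submodule.mem_sup.1 (e.ge (Submodule.mem_top (x := z)))
    rw [Submodule.disjoint_def.1 hU a ha (((perp B U).add_mem_iff_left hb.1).1 hz), zero_add]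
    exact hb.2
  obtain ⟨v, hv, v', hv', rfl⟩ := exists_add_perp_aux (h.isCompl_perp hU) p
  rcases eq_or_ne v 0 with rfl | hv0
  · rw [zero_add] at hp ⊢
    obtain ⟨a, ha, b, hb, rfl⟩ := Submodule.mem_sup.1 hw
    obtain ⟨c, hc0, hc⟩ := h.bar.exists_trace_zero
    obtain ⟨t, ht, ht'⟩ := h.exists_tv_mem hp hc
    have k := h.apply_mem_eichSub hM hx hb.2 ht (ht'.fix (h.flip_zero (hv' x hxU)))
    rw [ht', (h.eichSub hx).add_mem_iff_right hb.2, mul_smul, (h.eichSub hx).smul_mem_iff hc0] at k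
    rw [map_add, h.flip_zero (hv' a ha), zero_add]
    exact Submodule.mem_sup_right ⟨(perp B U).smul_mem _ hv', k⟩
  · obtain ⟨y, hyU, hy0, hy, k⟩ := h.exists_mem_eichSub_of_mixed hM hU h3 hfix hv hv0 hv' hp
    exact Submodule.smul_mem _ _ (Submodule.add_mem_sup hv ⟨hv', eich_move' h hM hU hfix hy hx hyU hxU hy0 hx0 hv' k⟩)

theorem le_of_three (h : IsHerm B q) (hq : q ≠ 2) (hM : M ≤ UG B) {u₁ u₂ u₃ : V} (h₁ : u₁ ∈ UCen B M)
    (h₂ : u₂ ∈ UCen B M) (h₃ : u₃ ∈ UCen B M)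
    (hG : B u₁ u₂ * B u₂ u₃ * B u₃ u₁ + B u₁ u₃ * B u₃ u₂ * B u₂ u₁ ≠ 0)
    (hirr : ∀ W : Submodule F V, (∀ p ∈ UCen B M, ∀ w ∈ W, B p w • p ∈ W) → W = ⊥ ∨ W = ⊤) : SUG B ≤ M := by
  have key : ∀ r s t : F, B u₁ (r • u₁ + s • u₂ + t • u₃) = 0 → B u₂ (r • u₁ + s • u₂ + t • u₃) = 0 →
      B u₃ (r • u₁ + s • u₂ + t • u₃) = 0 → r = 0 ∧ s = 0 ∧ t = 0 := fun r s t e1 e2 e3 => by
    simp only [map_add, map_smul, smul_eq_mul, h₁.1, h₂.1, h₃.1] at e1 e2 e3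
    exact ⟨mul_right_cancel₀ hG (by
        linear_combination B u₁ u₂ * B u₂ u₃ * e3 + B u₁ u₃ * B u₃ u₂ * e2 - B u₂ u₃ * B u₃ u₂ * e1),
      mul_right_cancel₀ hG (by
        linear_combination B u₂ u₃ * B u₃ u₁ * e1 + B u₁ u₃ * B u₂ u₁ * e3 - B u₁ u₃ * B u₃ u₁ * e2),
      mul_right_cancel₀ hG (by
        linear_combination B u₁ u₂ * B u₃ u₁ * e2 + B u₃ u₂ * B u₂ u₁ * e1 - B u₁ u₂ * B u₂ u₁ * e3)⟩
  have hli : ∀ r s t : F, r • u₁ + s • u₂ + t • u₃ = 0 → r = 0 ∧ s = 0 ∧ t = 0 := fun r s t e =>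
    key r s t (by rw [e, map_zero]) (by rw [e, map_zero]) (by rw [e, map_zero])
  let U := Submodule.span F (Set.range ![u₁, u₂, u₃])
  have m1 : u₁ ∈ U := Submodule.subset_span ⟨0, rfl⟩
  have m2 : u₂ ∈ U := Submodule.subset_span ⟨1, rfl⟩
  have m3 : u₃ ∈ U := Submodule.subset_span ⟨2, rfl⟩
  have hU : Disjoint U (perp B U) := Submodule.disjoint_def.2 fun x hx hx' => by
    obtain ⟨c, rfl⟩ := (Submodule.mem_span_range_iff_exists_fun F).1 hx
    rw [Fin.sum_univ_three] at hx' ⊢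
    obtain ⟨e1, e2, e3⟩ := key _ _ _ (hx' u₁ m1) (hx' u₂ m2) (hx' u₃ m3)
    simp [e1, e2, e3]
  have h3 : finrank F U = 3 := by
    rw [finrank_span_eq_card (Fintype.linearIndependent_iff.2 fun c hc i => ?_), Fintype.card_fin]
    rw [Fin.sum_univ_three] at hc
    obtain ⟨e1, e2, e3⟩ := hli _ _ _ hc
    fin_cases i <;> assumption
  exact le_of_block h hq hM hU h3.ge (fix_of_three h hq hU h3 (u₁ := ⟨u₁, m1⟩) (u₂ := ⟨u₂, m2⟩) (u₃ := ⟨u₃, m3⟩)
    h₁ h₂ h₃ fun r s t e => hli r s t (congrArg Subtype.val e)) hirr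

/-- A transvection that is an isometry is a unitary transvection. -/
theorem form_of_tv (h : IsHerm B q) {v : V} {φ : Dual F V} (hv : v ≠ 0) (hφ : φ ≠ 0) (h0 : φ v = 0)
    (hi : ∀ x y, B (x + φ x • v) (y + φ y • v) = B x y) :
    B v v = 0 ∧ ∃ c : F, c ≠ 0 ∧ σ c = -c ∧ ∀ y, φ y = c * B v y := by
  obtain ⟨y, hy⟩ : ∃ y, φ y ≠ 0 := by
    by_contra hn
    push Not at hn
    exact hφ (LinearMap.ext hn)
  have hvv : B v v = 0 := by
    have k := hi v y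
    rw [h0, zero_smul, add_zero, map_add, map_smul, smul_eq_mul, add_eq_left] at k
    exact (mul_eq_zero.1 k).resolve_left hy
  obtain ⟨x, hx⟩ := h.exists_eq_one hv
  have k : ∀ y, φ y = -σ (φ x) * B v y := fun y => by
    have := hi x y
    simp only [map_add, LinearMap.add_apply, LinearMap.map_smulₛₗ, LinearMap.smul_apply, smul_eq_mul, hvv,
      RingHom.id_apply, h.flip_one hx] at this
    linear_combination this
  have k1 := k x
  rw [hx, mul_one] at k1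
  refine ⟨hvv, φ x, fun e => hy (by rw [k, e, map_zero, neg_zero, zero_mul]), by linear_combination k1, fun y => ?_⟩
  rw [k y, ← k1]

end Abstract

end U3

open CL.Uni in
theorem subU3 (h : SubNP.{u}) : SubU3.{u} := by
  intro F _ _ P hP hT hL hR K hK σ hσ hσ1 f hf hI
  obtain ⟨q, hq⟩ := exists_isBar σ hσ1 hf.invol
  have hH := hf.isHerm hq
  set B := hf.isSL.toSesq
  have hq2 : q ≠ 2 := by
    rintro rfl
    obtain ⟨a, haK, h0, h1⟩ := hK.big
    have k := hq.apply a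
    rw [(hσ a).1 haK] at k
    exact h1 (mul_left_cancel₀ h0 (by linear_combination -k))
  let M : Subgroup (V F ≃ₗ[F] V F) := P.map (glEquiv (Fin 5) F).toMonoidHom
  have hM : M ≤ UG B := by
    rintro _ ⟨l, hl, rfl⟩ u v
    exact hI l hl v u
  have hrt : ∀ {v φ}, Rt P v φ → v ∈ UCen B M ∧ ∃ c : F, c ≠ 0 ∧ ∀ y, φ y = c * B v y := by
    intro v φ hv
    obtain ⟨h0, g, hg, eg⟩ := hv.tv
    obtain ⟨hvv, c, hc0, hc, e⟩ := U3.form_of_tv hH hv.ne hv.ne' h0 fun x y => by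
      rw [← eg, ← eg]; exact hI g hg y x
    refine ⟨⟨hvv, fun d k hd hk => ?_⟩, c, hc0, e⟩
    obtain ⟨-, g', hg', eg'⟩ := (hK.grp v φ hv (d / c)).2 ((hσ _).2 (by rw [map_div₀, hc, hd, neg_div_neg_eq]))
    refine ⟨g', hg', LinearEquiv.ext fun y => ?_⟩
    rw [hk y]
    refine (eg' y).trans ?_
    rw [e, smul_smul]
    congr 2
    field_simp
  have hG := hP.tvGen hT
  obtain ⟨_, hg, ht⟩ := hT
  obtain ⟨v, φ, hv0, hφ0, hv⟩ := ht.tv hg
  have h1 : Rt P v φ := ⟨hv, hv0, hφ0⟩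
  obtain ⟨w, ψ, h2, hw⟩ := T3B.exists_rt_notMem (by simp) hP.irr hG (W := LinearMap.ker φ) (by simpa using hφ0)
  obtain ⟨y, χ, h3, hd⟩ := h F P hP hL hR v φ w ψ h1 h2 hw
  obtain ⟨k1, a, -, ea⟩ := hrt h1
  obtain ⟨k2, b, -, eb⟩ := hrt h2
  obtain ⟨k3, c, -, ec⟩ := hrt h3
  have hle := U3.le_of_three hH hq2 hM k1 k2 k3 (fun e => hd (by
    simp only [ea, eb, ec]
    linear_combination a * b * c * e)) fun W hW => irr_iff.1 hP.irr W fun l hl => by
      refine Subgroup.closure_induction (p := fun l _ => ∀ w ∈ W, l • w ∈ W) ?_ ?_ ?_ ?_ (hG hl)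
      · rintro g ⟨hg, p, η, hp, hη, h0, e⟩ w hw
        obtain ⟨k, d, -, ed⟩ := hrt ⟨⟨h0, g, hg, e⟩, hp, hη⟩
        have := e w
        rw [ed, mul_smul] at this
        exact this ▸ W.add_mem hw (W.smul_mem _ (hW p k w hw))
      · exact fun w hw => (one_smul (G F) w).symm ▸ hw
      · exact fun a b _ _ ha hb w hw => (mul_smul a b w).symm ▸ ha _ (hb w hw)
      · intro a _ ha w hw
        have k : W.map (glEquiv (Fin 5) F a : V F →ₗ[F] V F) = W :=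
          mem_stabSet_iff_map.1 (mem_stabSet_of_forall ha)
        rw [← k] at hw
        obtain ⟨z, hz, rfl⟩ := hw
        exact (inv_smul_smul a z).symm ▸ hz
  intro a ha
  obtain ⟨a', h1, h2⟩ := hle (mem_SUG.2 ⟨fun u v => ha.1 v u, by rw [dt_glEquiv]; exact ha.2⟩ :
    glEquiv (Fin 5) F a ∈ SUG B)
  exact (glEquiv (Fin 5) F).injective h2 ▸ h1

end CL.Low5
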