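/-
Project LOW5: the orthogonal subgroups of `SU_5(q)`, `q` odd, are maximal.
-/
import Cfsg.Agent.Low5.Defs3
import Cfsg.Agent.Cls.U4Orth1

set_option autoImplicit false

universe u v

namespace CL.Uni

open Module

variable {F : Type u} [Field F] {q : ℕ} {σ : F →+* F} {V : Type v} [AddCommGroup V] [Module F V]
variable {B : V →ₛₗ[σ] V →ₗ[F] F} {M : Subgroup (V ≃ₗ[F] V)}

namespace IsJ

variable {J : V →ₛₗ[σ] V} [FiniteDimensional F V]

theorem uo5_nonsing (hJ : IsJ B J 1) (h : IsHerm B q) (h2 : (2 : F) ≠ 0) (hn : 5 ≤ finrank F V)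
    {r v w : V} (hr : J r = r) (hv : J v = v) (hw : J w = w) (hrv : B r v = 0) (hrw : B r w = 0)
    (hvw : B v w = 0) (hvv : B v v ≠ 0) (hww : B w w ≠ 0) :
    ∃ b ∈ perp B (Submodule.span F {r, v, w}), J b = b ∧ B b b ≠ 0 := by
  obtain ⟨z, hz, hzz⟩ : ∃ z ∈ perp B (Submodule.span F {r, v, w}), B z z ≠ 0 := by
    by_contra hne
    push Not at hne
    have h1 := h.le_perp_of_isotropic hne
    rw [h.perp_perp] at h1
    have d3 := h.finrank_add_finrank_perp (Submodule.span F {r, v, w})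
    have d4 := finrank_span_triple_le (F := F) r v w
    have d5 := finrank_span_singleton_le (F := F) r
    have h3 : perp B (Submodule.span F {r, v, w}) ≤ F ∙ r := fun x hx => by
      obtain ⟨s, y, hy, rfl⟩ := Submodule.mem_span_insert.1 (h1 hx)
      obtain ⟨a, b, rfl⟩ := Submodule.mem_span_pair.1 hy
      have e1 := mem_perp_span.1 hx v (by simp)
      have e2 := mem_perp_span.1 hx w (by simp)
      have a0 : a = 0 := by simpa [h.flip_zero hrv, hvw, hvv] using e1
      have b0 : b = 0 := by simpa [h.flip_zero hrw, h.flip_zero hvw, hww] using e2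
      rw [a0, b0, zero_smul, zero_smul, add_zero, add_zero]
      exact Submodule.smul_mem _ _ (Submodule.mem_span_singleton_self r)
    have := Submodule.finrank_mono h3
    omega
  exact hJ.o_exists_nonsing_of h h2
    (hJ.perp_span_inv (s := {r, v, w}) (by rintro _ (rfl | rfl | rfl) <;> simp [hr, hv, hw])) hz hzz

theorem uo5_le_of_skew (hJ : IsJ B J 1) (h : IsHerm B q) (h2 : (2 : F) ≠ 0)
    (hn : 5 ≤ finrank F V) (hM : M ≤ UG B) (hH : JStab J ⊓ SUG B ≤ M) {r : V} (hr : J r = r) (hr0 : r ≠ 0)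
    (hrr : B r r = 0) {θ : F} (hθ0 : θ ≠ 0) (hθ : σ θ = -θ) {v : V} (hv : J v = v) (hrv : B r v = 0)
    (hv' : v ∉ F ∙ r) (hθv : θ • v ∈ h.eichAdd M hrr) : SUG B ≤ M := by
  have hA : ∀ u, J u = u → B r u = 0 → u ∈ h.eichAdd M hrr := fun u u1 u2 =>
    hJ.o_mem_eichAdd h h2 hH hr u1 hrr u2
  have hvc : v ∈ h.eichCore M hrr := fun l => by
    have s1 : σ ((l + σ l) / 2) = (l + σ l) / 2 := by rw [map_div₀, h.bar.trace_fixed, map_ofNat]
    have s2 : σ ((l - σ l) / (2 * θ)) = (l - σ l) / (2 * θ) := by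
      rw [map_div₀, map_sub, h.bar_bar, map_mul, hθ, map_ofNat]; field_simp; ring
    have m1 : ((l - σ l) / (2 * θ) * θ) • v ∈ h.eichAdd M hrr := by
      by_cases h0 : (l - σ l) / (2 * θ) = 0
      · rw [h0, zero_mul, zero_smul]; exact zero_mem _
      obtain ⟨k, hk, k1, k2⟩ := hJ.o_torus h h2 hH hr hr0 hrr h0 s2
      obtain ⟨c, hc⟩ := k2 v hrv
      have := h.smul_apply_mem_eichAdd hM hrr hθv hk k1
      rw [s2, map_smul, hc, smul_smul, smul_add, smul_smul] at this
      simpa only [add_sub_cancel_right] using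
        sub_mem this (h.smul_self_mem_eichAdd hrr ((l - σ l) / (2 * θ) * θ * c))
    convert add_mem m1 (hA _ (smul_rat hv s1) (by simp [hrv])) using 1
    rw [← add_smul]
    congr 1
    field_simp
    ring
  have key : ∀ v, J v = v → B r v = 0 → B v v ≠ 0 → v ∈ h.eichCore M hrr → ∀ x, B r x = 0 →
      x ∈ h.eichCore M hrr := fun v hv hrv hvv hvc x hx => by
    have k1 : ∀ u, J u = u → B r u = 0 → B u u ≠ 0 → B u v ≠ 0 → u ∈ h.eichCore M hrr :=
      fun u u1 u2 u3 u4 => by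
        obtain ⟨k, k1, k2, k3⟩ := hJ.o_rf h u1 hv u3 hvv
        have m := add_mem (h.apply_mem_eichCore hM hrr hvc (hH ⟨mem_JStab_of_comm k2, k1⟩) (by
          rw [k3, rf_of_perp (h.flip_zero hrv), rf_of_perp (h.flip_zero u2)])) hvc
        rw [k3, rf_self hvv, rf_neg, rf, neg_sub, sub_add_cancel] at m
        exact (Submodule.smul_mem_iff _ (mul_ne_zero (div_ne_zero h2 u3) u4)).1 m
    refine hJ.perp_le_of_rat h.bar hr (fun u u1 u2 => ?_) hx
    obtain ⟨w, hw⟩ : ∃ w, w = u - (B v u / B v v) • v := ⟨_, rfl⟩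
    have w1 : J w = w := by
      rw [hw, map_sub, u2, smul_rat hv (by rw [map_div₀, hJ.o_fixed hv u2, h.self_fixed])]
    have w2 : B r w = 0 := by simp [hw, u1, hrv]
    have w3 : B v w = 0 := by simp [hw, hvv]
    have w4 := h.flip_zero w3
    have m : w + v ∈ h.eichCore M hrr := by
      by_cases e : B w w + B v v = 0
      swap
      · exact k1 (w + v) (by rw [map_add, w1, hv]) (by simp [w2, hrv]) (by simpa [w3, w4] using e)
          (by simp [w4, hvv])
      obtain ⟨b, b1, b2, b3⟩ := hJ.uo5_nonsing h h2 hn hr hv w1 hrv w2 w3 hvv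
        (fun e' => hvv (by rw [← e, e', zero_add]))
      have c1 := mem_perp_span.1 b1 r (by simp)
      have c2 := mem_perp_span.1 b1 v (by simp)
      have c3 := mem_perp_span.1 b1 w (by simp)
      have k2 : ∀ b, J b = b → B r b = 0 → B v b = 0 → B w b = 0 → B b b ≠ 0 → w + v + b ∈ h.eichCore M hrr :=
        fun b b2 c1 c2 c3 b3 => k1 _ (by rw [map_add, map_add, w1, hv, b2]) (by simp [w2, hrv, c1])
          (fun e' => b3 (by
            simp only [map_add, LinearMap.add_apply, w3, w4, c2, c3, h.flip_zero c2, h.flip_zero c3] at e'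
            linear_combination e' - e))
          (by simp [w4, hvv, h.flip_zero c2])
      refine (Submodule.smul_mem_iff _ h2).1 ?_
      convert add_mem (k2 b b2 c1 c2 c3 b3) (k2 (-b) (by simp [b2]) (by simp [c1]) (by simp [c2]) (by simp [c3])
        (by simpa using b3)) using 1
      module
    convert add_mem m (Submodule.smul_mem _ (B v u / B v v - 1) hvc) using 1
    rw [hw]; module
  obtain ⟨y, y1, y2, y3⟩ := hJ.exists_rat_ne_zero' h hr hv'
  have hall : ∀ x, B r x = 0 → x ∈ h.eichCore M hrr := by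
    by_cases hvv : B v v ≠ 0
    · exact key v hv hrv hvv hvc
    push Not at hvv
    obtain ⟨v', b1, b2, b3, b4⟩ := hJ.o_partner h h2 hv y2 hvv y3
    have b5 := b4 r hrv y1
    have b6 := h.flip_one b3
    obtain ⟨-, c1, -, g1, hg1, e1⟩ := id hθv
    obtain ⟨-, c2, -, g2, hg2, e2⟩ := hA v' b1 b5
    have b7 : B r (θ • v) = 0 := by simp [hrv]
    have e3 := e1.mul e2 hrr (h.flip_zero b7) b5
    have e4 := e2.mul e1 hrr (h.flip_zero b5) b7
    rw [add_comm v'] at e4
    have hc : σ (2 * θ) = -(2 * θ) := by rw [map_mul, map_ofNat, hθ, mul_neg]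
    obtain ⟨t, -, ht⟩ := h.exists_tv hrr hc
    have htM := h.tv_mem_of_eich_eich hrr (by simp [hrv, b5]) e3 e4 (M.mul_mem hg1 hg2) (M.mul_mem hg2 hg1)
      (t := t) (by
        convert ht using 1
        simp only [LinearMap.map_smulₛₗ, LinearMap.smul_apply, smul_eq_mul, hθ, b3, b6, RingHom.id_apply]
        ring)
    obtain ⟨s, hs, es⟩ := h.exists_tv_mem (hJ.o_uCen_of_tv h h2 (by omega) hM hH hr hr0 hrr
      (mul_ne_zero h2 hθ0) hc ht htM b1 b2) hθ
    have m := sub_mem (h.apply_mem_eichCore hM hrr hvc hs (es.fix (h.flip_zero b5))) hvc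
    rw [es, add_sub_cancel_left, b6, mul_one, Submodule.smul_mem_iff _ hθ0] at m
    exact key (v + v') (by simp [hv, b1]) (by simp [hrv, b5]) (by
      simpa [hvv, b2, b3, b6, one_add_one_eq_two] using h2) (add_mem hvc m)
  obtain ⟨r', r1, r2, r3⟩ := hJ.o_partner' h h2 hr hr0 hrr
  obtain ⟨k, hk, e⟩ := hJ.o_trans h h2 (by omega) hr hr0 hrr r1 (by rintro rfl; simp at r3) r2
  exact h.SUG_le_of_eichAdd (by omega) hM hrr (fun x hx => by simpa using hall x hx 1) (hH hk)
    (by rw [e, r3]; exact one_ne_zero)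

theorem uo5_le_of_mem (hJ : IsJ B J 1) (h : IsHerm B q) (h2 : (2 : F) ≠ 0)
    (hn : 5 ≤ finrank F V) (hM : M ≤ UG B) (hH : JStab J ⊓ SUG B ≤ M) {r : V} (hr : J r = r) (hr0 : r ≠ 0)
    (hrr : B r r = 0) {w : V} (hw : w ∈ h.eichAdd M hrr) (hw' : w - J w ∉ F ∙ r) : SUG B ≤ M := by
  obtain ⟨θ, hθ0, hθ⟩ := h.bar.exists_trace_zero
  have hθ' : σ θ ≠ θ := fun e => hθ0 (mul_left_cancel₀ h2 (by linear_combination hθ - e))
  obtain ⟨v₁, p1, v, p2, e1, e2, rfl⟩ := hJ.exists_decomp h.bar hθ'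
    (hJ.perp_span_inv (s := {r}) (by rintro _ rfl; exact hr)) (mem_perp_singleton.2 hw.1)
  rw [mem_perp_singleton] at p1 p2
  refine hJ.uo5_le_of_skew h h2 hn hM hH hr hr0 hrr hθ0 hθ e2 p2 (fun hh => hw' ?_) (by
    simpa using sub_mem hw (hJ.o_mem_eichAdd h h2 hH hr e1 hrr p1))
  rw [map_add, e1, LinearMap.map_smulₛₗ, e2, add_sub_add_left_eq_sub]
  exact sub_mem (Submodule.smul_mem _ _ hh) (Submodule.smul_mem _ _ hh)

theorem uo5_le_of_fix (hJ : IsJ B J 1) (h : IsHerm B q) (h2 : (2 : F) ≠ 0) (hn : 5 ≤ finrank F V)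
    (hM : M ≤ UG B) (hH : JStab J ⊓ SUG B ≤ M) (hne : ¬ SUG B ≤ M) {r : V} (hr : J r = r) (hr0 : r ≠ 0)
    (hrr : B r r = 0) {x y : V} {c : F} {k : V ≃ₗ[F] V} (hk : k ∈ M) (e : IsEich B x y c k) (hx : B x r = 0)
    (hy : B y r = 0) {w : V} (h1 : B r w = 0) (h3 : B x w = 0) (h4 : B (J x) w = 0) :
    B (J y) w • J x - B y w • x ∈ F ∙ r := by
  let φ : V →ₗ[F] V :=
    { toFun := fun w => k w - J (k (J w))
      map_add' := fun a b => by simp only [map_add]; abel
      map_smul' := fun a b => by simp only [LinearMap.map_smulₛₗ, map_smul, h.bar_bar, RingHom.id_apply, smul_sub] }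
  have h5 : φ w ∈ F ∙ r := hJ.perp_le_of_rat h.bar hr (E := (F ∙ r).comap φ) (fun u u1 u2 => by
    by_contra hh
    refine hne (hJ.uo5_le_of_mem h h2 hn hM hH hr hr0 hrr
      (h.apply_mem_eichAdd hM _ (hJ.o_mem_eichAdd h h2 hH hr u2 hrr u1) hk (e.fix hx hy)) fun hh' => hh ?_)
    change k u - J (k (J u)) ∈ F ∙ r
    rwa [u2]) h1
  have h6 : ∀ z, σ (B z (J w)) = B (J z) w := fun z => by rw [← one_mul (σ _), ← hJ.form, hJ.invol]
  convert h5 using 1
  change _ = k w - J (k (J w))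
  rw [e, e]
  simp only [map_sub, map_add, LinearMap.map_smulₛₗ, map_mul, h6, h3, h4, hJ.invol]
  module

theorem uo5_le (hJ : IsJ B J 1) (h : IsHerm B q) (h2 : (2 : F) ≠ 0) (hn : 5 ≤ finrank F V)
    (hM : M ≤ UG B) (hH : JStab J ⊓ SUG B ≤ M) {g : V ≃ₗ[F] V} (hg : g ∈ M) (hg' : g ∉ JStab J) :
    SUG B ≤ M := by
  obtain ⟨a, a1, a2, hx⟩ : ∃ a, J a = a ∧ B a a = 0 ∧ ∀ c : F, J (g a) ≠ c • g a := by
    by_contra hne
    push Not at hne
    refine hg' (hJ.mem_JStab_of_eigen h.bar (hJ.o_span h h2 (by omega)) (fun _ hu => hu.1)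
      (fun u hu => hne u hu.1 hu.2) fun φ hφ => ?_)
    have key : ∀ u ∈ {u | J u = u ∧ B u u = 0}, ∀ v ∈ {u | J u = u ∧ B u u = 0}, B u v = 0 → u ≠ 0 → v ≠ 0 →
        ∀ a b : F, φ u = a • u → φ v = b • v → a = b := fun u hu v hv huv hu0 hv0 a b ha hb => by
      obtain ⟨c, hc⟩ := hφ (u + v) ⟨by rw [map_add, hu.1, hv.1], by simp [hu.2, hv.2, huv, h.flip_zero huv]⟩
      exact eq_of_eigen_add hu0 hv0 ha hb hc
    intro u hu v hv hu0 hv0 a b ha hb
    have d1 := h.finrank_add_finrank_perp (Submodule.span F {u, v})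
    have d2 := finrank_span_pair_le (F := F) u v
    obtain ⟨w, w1, w2, w3, w4⟩ := hJ.o_exists_sing h ⊥ (hJ.perp_span_inv (s := {u, v}) (by
      rintro _ (rfl | rfl) <;> simp [hu.1, hv.1])) (by simp; omega)
    obtain ⟨c, hc⟩ := hφ w ⟨w2, w4⟩
    have w0 : w ≠ 0 := by simpa using w3
    rw [key u hu w ⟨w2, w4⟩ (mem_perp_span.1 w1 u (by simp)) hu0 w0 a c ha hc,
      key v hv w ⟨w2, w4⟩ (mem_perp_span.1 w1 v (by simp)) hv0 w0 b c hb hc]
  by_contra hne
  have main : ∀ s : V, ∃ y, B (g a) y = 0 ∧ B s y = 0 ∧ y ∉ Submodule.span F {g a, s} ∧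
      ∃ c, ∃ k ∈ M, IsEich B (g a) y c k := fun s => by
    obtain ⟨s, rfl⟩ := g.surjective s
    have d1 := h.finrank_add_finrank_perp (Submodule.span F {a, s, J s})
    have d2 := finrank_span_triple_le (F := F) a s (J s)
    have d3 := finrank_span_pair_le (F := F) a s
    have inv := hJ.perp_span_inv (s := {a, s, J s}) (by rintro _ (rfl | rfl | rfl) <;> simp [a1, hJ.invol])
    obtain ⟨b, b1, b2, b3⟩ := hJ.exists_rat_notMem h.bar (U' := Submodule.span F {a, s}) inv fun hle => by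
      have e := Submodule.eq_of_le_of_finrank_le hle (by omega)
      have e2 : Submodule.span F {a, s, J s} ≤ Submodule.span F {a, s} := Submodule.span_le.2 (by
        rintro _ (rfl | rfl | rfl)
        · exact Submodule.subset_span (by simp)
        · exact Submodule.subset_span (by simp)
        · exact hle (inv s (e.ge (Submodule.subset_span (by simp)))))
      have := Submodule.finrank_mono e2
      have := Submodule.finrank_mono hle
      omega
    have b4 := mem_perp_span.1 b1 a (by simp)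
    obtain ⟨k, hk, e⟩ := hJ.o_eich h h2 hH a1 b2 a2 b4
    refine ⟨g b, by rw [hM hg, b4], by rw [hM hg, mem_perp_span.1 b1 s (by simp)], fun hh => b3 ?_, _, _,
      M.mul_mem (M.mul_mem hg hk) (M.inv_mem hg), e.conj (hM hg)⟩
    obtain ⟨c, d, e⟩ := Submodule.mem_span_pair.1 hh
    exact Submodule.mem_span_pair.2 ⟨c, d, g.injective (by rw [map_add, map_smul, map_smul, e])⟩
  have hxx : B (g a) (g a) = 0 := by rw [hM hg, a2]
  generalize g a = x at hx main hxx
  have hx0 : x ≠ 0 := fun e => hx 0 (by simp [e])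
  have hJx : B (J x) (J x) = 0 := by rw [hJ.form, hxx, map_zero, mul_zero]
  have hli : ∀ s t : F, s • J x + t • x = 0 → s = 0 ∧ t = 0 := fun s t e => by
    have hs : s = 0 := by
      by_contra hs
      exact hx (-(t / s)) (smul_right_injective V hs (by
        simp only [smul_smul, mul_neg, mul_div_cancel₀ _ hs]; linear_combination (norm := module) e))
    exact ⟨hs, by simpa [hs, hx0] using e⟩
  by_cases hc : B x (J x) = 0
  · obtain ⟨y, y1, y2, y3, c, k, hk, e⟩ := main (J x)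
    obtain ⟨w, hw, hw'⟩ := h.exists_perp_ne_zero y3
    have w1 := mem_perp_span.1 hw x (by simp)
    have w2 := mem_perp_span.1 hw (J x) (by simp)
    obtain ⟨θ, hθ0, hθ⟩ := h.bar.exists_trace_zero
    have key : ∀ s : F, s ≠ 0 → ∃ t : F, t * σ s = B (J y) w ∧ t * s = -B y w := fun s hs => by
      obtain ⟨t, ht⟩ := Submodule.mem_span_singleton.1 (hJ.uo5_le_of_fix h h2 hn hM hH hne (r := σ s • J x + s • x)
        (by simp [LinearMap.map_smulₛₗ, hJ.invol, h.bar_bar, add_comm]) (fun e => hs (hli _ _ e).2)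
        (by simp [LinearMap.map_smulₛₗ, hxx, hJx, hc, h.flip_zero hc]) hk e (by simp [hc, hxx])
        (by simp [h.flip_zero y1, h.flip_zero y2]) (by simp [LinearMap.map_smulₛₗ, w1, w2]) w1 w2)
      obtain ⟨e1, e2⟩ := hli (t * σ s - B (J y) w) (t * s + B y w) (by linear_combination (norm := module) ht)
      exact ⟨t, sub_eq_zero.1 e1, eq_neg_of_add_eq_zero_left e2⟩
    obtain ⟨t, e1, e2⟩ := key 1 one_ne_zero
    obtain ⟨t', e3, e4⟩ := key θ hθ0
    rw [map_one] at e1
    rw [hθ] at e3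
    exact hw' (mul_left_cancel₀ h2 (by linear_combination e2 - e1 + e3 + e4))
  · have d1 := h.finrank_add_finrank_perp (Submodule.span F {x, J x})
    have d2 := finrank_span_pair_le (F := F) x (J x)
    obtain ⟨r, r1, r2, r3, hrr⟩ := hJ.o_exists_sing h ⊥ (hJ.perp_span_inv (s := {x, J x}) (by
      rintro _ (rfl | rfl) <;> simp [hJ.invol])) (by simp; omega)
    have r4 := mem_perp_span.1 r1 x (by simp)
    have r5 := mem_perp_span.1 r1 (J x) (by simp)
    obtain ⟨y, y1, y2, y3, c, k, hk, e⟩ := main r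
    obtain ⟨w, hw, hw'⟩ := h.exists_perp_ne_zero (U := Submodule.span F {J x, x, r}) (x := y) fun hh => by
      obtain ⟨s, z, hz, rfl⟩ := Submodule.mem_span_insert.1 hh
      obtain ⟨t, t', rfl⟩ := Submodule.mem_span_pair.1 hz
      have : s = 0 := by simpa [hxx, r4, hc] using y1
      exact y3 (by simpa [this] using hz)
    obtain ⟨t, ht⟩ := Submodule.mem_span_singleton.1 (hJ.uo5_le_of_fix h h2 hn hM hH hne r2 (by simpa using r3) hrr
      hk e r4 (h.flip_zero y2) (mem_perp_span.1 hw r (by simp)) (mem_perp_span.1 hw x (by simp))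
      (mem_perp_span.1 hw (J x) (by simp)))
    have := congrArg (B (J x)) ht
    simp [r5, hJx, hw', h.flip_ne hc] at this

end IsJ

end CL.Uni

namespace CL.Low5

open Matrix Cfsg Cfsg.Geo CL.Asch CL.Uni

theorem maxUOrt' : MaxUOrt.{u} := fun F _ _ q hF hq F₀ P hcard hP => by
  have h := isBar_bar hF
  have hB := isHerm_stdB h (Fin 5)
  have hσ := h.fixed_iff_mem hcard
  have hJ := isJ_matJ h hσ one_ne_zero (ε := 1) (by simp) (by ring) hP
  refine isMaximalIn_SU_of h (fun A _ => glEquiv_mem_JStab hσ P A) ?_ fun M h1 h2 g hg hg' =>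
    hJ.uo5_le hB (h.two_ne_zero hq) (by simp) (h2.trans SUG_le_UG) h1 hg hg'
  obtain ⟨v, -, v1, v2, v3⟩ := hJ.o_exists_sing hB (U := ⊤) ⊥ (fun _ _ => trivial) (by simp)
  exact hB.exists_SUG_notMem_JStab (by simp) h.ne_id hJ.ne_zero hJ.form (by simpa using v2) v3 v1

theorem maxUOrt (_h5 : SubH5.{u}) (_h : ResU5.{u}) : MaxUOrt.{u} := maxUOrt'

end CL.Low5
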