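/-
Project LOW5, step USUB: overgroups of `SU_5(q₀)` in `SU_5(q)`.
-/
import Cfsg.Agent.Low5.Defs3
import Cfsg.Agent.Cls.U4Sub

set_option autoImplicit false

namespace CL.Uni

open Module Matrix Cfsg Cfsg.Geo CL.Asch
open scoped MatrixGroups

universe u v

variable {F₀ F : Type u} [Field F₀] [Field F] [Algebra F₀ F] {q q₀ : ℕ} {σ : F →+* F} {σ₀ : F₀ →+* F₀}
  {W V : Type v} [AddCommGroup W] [Module F₀ W] [AddCommGroup V] [Module F V]

namespace USub

variable {B : V →ₛₗ[σ] V →ₗ[F] F} {B₀ : W →ₛₗ[σ₀] W →ₗ[F₀] F₀} {ι : W →ₛₗ[algebraMap F₀ F] V}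
  {M : Subgroup (V ≃ₗ[F] V)} [FiniteDimensional F₀ W]

/-- A Galois automorphism acts on the space, fixing the rational vectors. -/
theorem exists_galois (D : USub B q B₀ q₀ ι) (φ : F ≃ₐ[F₀] F) :
    ∃ Φ : V →ₛₗ[(φ : F →+* F)] V, ∀ w, Φ (ι w) = ι w := by
  let b := Module.finBasis F₀ W
  have hι : ∀ w, ι w = ∑ i, algebraMap F₀ F (b.repr w i) • ι (b i) := fun w => by
    conv_lhs => rw [← b.sum_repr w, map_sum]
    simp only [LinearMap.map_smulₛₗ]
  let b' : Basis (Fin (finrank F₀ W)) F V := Basis.mk (D.linearIndependent b.linearIndependent) (by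
    rw [← D.span, Submodule.span_le]
    rintro _ ⟨w, rfl⟩
    rw [hι]
    exact Submodule.sum_mem _ fun i _ => Submodule.smul_mem _ _ (Submodule.subset_span ⟨i, rfl⟩))
  refine ⟨⟨⟨fun x => ∑ i, φ (b'.repr x i) • b' i, fun x y => by simp [add_smul, Finset.sum_add_distrib]⟩,
    fun c x => by simp [Finset.smul_sum, mul_smul]⟩, fun w => ?_⟩
  have e : ι w = ∑ i, algebraMap F₀ F (b.repr w i) • b' i := by simpa only [b', Basis.mk_apply] using hι w
  change ∑ i, φ (b'.repr (ι w) i) • b' i = _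
  rw [e]
  simp only [Basis.repr_sum_self, AlgEquiv.commutes]

variable [FiniteDimensional F V]

theorem mem_fieldRange_of_rank (D : USub B q B₀ q₀ ι) (hn : 5 ≤ finrank F V) {l : F} {y y' : V}
    (h : ∀ v, ∃ w, l • ι w - ι v ∈ Submodule.span F {y, y'}) : l ∈ (algebraMap F₀ F).fieldRange := by
  have := D.herm.bar.finite
  refine IntermediateField.mem_bot.1 ((IsGalois.mem_bot_iff_fixed l).2 fun φ => ?_)
  by_contra hne
  obtain ⟨Φ, hΦ⟩ := D.exists_galois φ
  have h1 : (⊤ : Submodule F V) ≤ Submodule.span F {y, y'} ⊔ Submodule.span F {Φ y, Φ y'} := by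
    rw [← D.span, Submodule.span_le]
    rintro _ ⟨v, rfl⟩
    obtain ⟨w, hw⟩ := h v
    have h2 : φ l • ι w - ι v ∈ Submodule.span F {Φ y, Φ y'} := by
      obtain ⟨a, b, e⟩ := Submodule.mem_span_pair.1 hw
      have := congrArg Φ e
      rw [map_sub, map_add, LinearMap.map_smulₛₗ, LinearMap.map_smulₛₗ, LinearMap.map_smulₛₗ, hΦ, hΦ] at this
      exact Submodule.mem_span_pair.2 ⟨_, _, this⟩
    refine (Submodule.smul_mem_iff _ (sub_ne_zero.2 hne)).1 ?_
    rw [show (φ l - l) • ι v = (-φ l) • (l • ι w - ι v) + l • (φ l • ι w - ι v) by module]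
    exact Submodule.add_mem_sup (Submodule.smul_mem _ _ hw) (Submodule.smul_mem _ _ h2)
  have h2 := Submodule.finrank_mono h1
  have h3 := Submodule.finrank_add_le_finrank_add_finrank (Submodule.span F {y, y'}) (Submodule.span F {Φ y, Φ y'})
  have h4 := finrank_span_pair_le (F := F) y y'
  have h5 := finrank_span_pair_le (F := F) (Φ y) (Φ y')
  rw [finrank_top] at h2
  omega

theorem exists_eq_even₅ (D : USub B q B₀ q₀ ι) (hn : 4 ≤ finrank F₀ W) (hn' : 5 ≤ finrank F V) (hM : M ≤ UG B) (hH : RatIn B ι M)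
    (h2 : (2 : F) = 0) (hS : ∀ s ∈ D.SP M, s ∈ (algebraMap F₀ F).fieldRange) {x : V} (hx : B x x = 0)
    {t : V ≃ₗ[F] V} (ht : t ∈ M) (e : IsTv B x 1 t) : ∃ (l : F) (v : W), x = l • ι v := by
  have h := D.herm
  have h2' : σ₀ 1 = -1 := (algebraMap F₀ F).injective (by
    rw [map_one, map_neg, map_one]; linear_combination h2)
  have A := fun {x : V} hx {t : V ≃ₗ[F] V} ht (e : IsTv B x 1 t) {u : W} =>
    D.exists_eq_of_perp₄ hn hM hH hS one_ne_zero h2' hx ht (by rwa [map_one]) (u := u)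
  by_contra hne
  have sw : ∀ u, u ≠ 0 → B₀ u u = 0 → ∃ j ∈ M, ∃ (y : V) (μ : F), IsTv B y 1 j ∧ μ ≠ 0 ∧ j (ι u) = μ • x ∧
      j x = μ⁻¹ • ι u ∧ ∀ b, b ≠ 0 → B₀ b b = 0 → B (ι b) y ≠ 0 := fun u h0 hu => by
    obtain ⟨s, hs, es⟩ := D.exists_tv hH hu h2'
    obtain ⟨j, hj, y, hy, ej, μ, hμ⟩ := h.exists_tv_swap h2 hM (D.orth hu) hx
      (fun hux => hne (A hx ht e h0 hu hux)) ht hs e (by simpa using es)
    have hμ0 : μ ≠ 0 := by rintro rfl; exact D.ne_zero h0 (by simpa using hμ)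
    have j2 : j * j = 1 := (ej.mul ej hy).unique (by rw [one_add_one_eq_two, h2]; exact isTv_zero _)
    refine ⟨j, hj, y, μ, ej, hμ0, hμ, ?_, fun b b0 hb hby => ?_⟩
    · rw [eq_inv_smul_iff₀ hμ0, ← map_smul, ← hμ]
      exact LinearEquiv.congr_fun j2 _
    obtain ⟨l, v, rfl⟩ := A hy hj ej b0 hb hby
    have hl : l • ι v ≠ 0 := fun e' => hne ⟨μ⁻¹, u, by
      rw [eq_inv_smul_iff₀ hμ0, ← hμ, ej, e', smul_zero, add_zero]⟩
    have hl' := left_ne_zero_of_smul hl
    have hv : B₀ v v = 0 := by simpa [LinearMap.map_smulₛₗ, D.eq, hl'] using hy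
    obtain ⟨l', v', e'⟩ := D.exists_eq_of_rat hn hM hH hS hj (u := v) (u' := v) (μ := 1)
      (by rintro rfl; simp at hl) hv (by rw [ej.fix (by simp [LinearMap.map_smulₛₗ, D.orth hv]), one_smul]) u hu
    exact hne ⟨μ⁻¹ * l', v', by rw [mul_smul, ← e', hμ, smul_smul, inv_mul_cancel₀ hμ0, one_smul]⟩
  obtain ⟨u, u0, u1⟩ := D.herm₀.exists_isotropic (by omega)
  obtain ⟨j, hj, y, μ, ej, -, j1, -⟩ := sw u u0 u1
  obtain ⟨u', j', hj', y', μ', ej', j2, j3, hy⟩ : ∃ u', ∃ j' ∈ M, ∃ (y' : V) (μ' : F), IsTv B y' 1 j' ∧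
      j' x = μ'⁻¹ • ι u' ∧ (∀ b, b ≠ 0 → B₀ b b = 0 → B (ι b) y' ≠ 0) ∧ y' ∉ F ∙ y := by
    by_contra hc
    push Not at hc
    have h1 : Submodule.span F₀ {v | B₀ v v = 0} ≤ (Submodule.span F {x, y}).comap ι :=
      Submodule.span_le.2 fun u' hu' => by
        rcases eq_or_ne u' 0 with rfl | h0
        · exact zero_mem _
        obtain ⟨j', hj', y', μ', ej', -, k1, k2, k3⟩ := sw u' h0 hu'
        obtain ⟨c, rfl⟩ := Submodule.mem_span_singleton.1 (hc u' j' hj' y' μ' ej' k2 k3)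
        rw [ej', smul_smul] at k1
        exact Submodule.mem_span_pair.2 ⟨μ', -_, by rw [← k1, neg_smul, add_neg_cancel_right]⟩
    rw [D.herm₀.span_isotropic u0 u1] at h1
    have h3 := Submodule.finrank_mono (D.span ▸ Submodule.span_le.2 (by
      rintro _ ⟨w, rfl⟩; exact h1 Submodule.mem_top) : ⊤ ≤ Submodule.span F {x, y})
    have h4 := finrank_span_pair_le (F := F) x y
    rw [finrank_top] at h3
    omega
  have hm := M.mul_mem hj' hj
  obtain ⟨l, -, hl⟩ := D.exists_smul_of_isotropic₄ hn (D.exists_eq_of_rat hn hM hH hS hm u0 u1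
    (u' := u') (μ := μ * μ'⁻¹) (by rw [LinearEquiv.mul_apply, j1, map_smul, j2, smul_smul]))
  obtain ⟨l, rfl⟩ : l ∈ (algebraMap F₀ F).fieldRange := D.mem_fieldRange_of_rank hn' (y := y) (y' := y') fun v => by
    obtain ⟨w, hw⟩ := hl v
    refine ⟨w, ?_⟩
    rw [← hw, LinearEquiv.mul_apply, ej', ej]
    exact Submodule.mem_span_pair.2 ⟨_, _, by rw [add_assoc, add_sub_cancel_left]⟩
  have d1 := D.finrank_comap_le (Submodule.span F {y, y'})
  have d2 := finrank_span_pair_le (F := F) y y'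
  have d3 := D.herm₀.finrank_add_finrank_perp ((Submodule.span F {y, y'}).comap ι)
  obtain ⟨b, b1, b0, b2⟩ := D.herm₀.exists_isotropic_mem' (U := perp B₀ ((Submodule.span F {y, y'}).comap ι))
    (by omega)
  have h3 : (j' * j)⁻¹ (ι b) - ι b = 0 := D.eq_zero fun v => by
    obtain ⟨w, hw⟩ := hl v
    have := D.orth (D.herm₀.mem_perp'.1 b1 (l • w - v) (by
      rw [Submodule.mem_comap, map_sub, LinearMap.map_smulₛₗ, ← hw, LinearEquiv.mul_apply, ej', ej]
      exact Submodule.mem_span_pair.2 ⟨_, _, by rw [add_assoc, add_sub_cancel_left]⟩))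
    rwa [map_sub, LinearMap.map_smulₛₗ, ← hw, map_sub, UG_apply_right (hM hm), ← LinearMap.sub_apply,
      ← map_sub] at this
  obtain ⟨z, z1, z2⟩ := h.exists_perp_ne_zero hy
  have h4 := UG_apply_right (hM hm) (ι b) z
  rw [sub_eq_zero.1 h3, LinearEquiv.mul_apply, ej.fix (mem_perp_singleton.1 z1), ej'] at h4
  exact j3 b b0 b2 (by simpa [z2] using h4)

theorem SUG_le_or₅ (D : USub B q B₀ q₀ ι) (hp : (finrank F₀ F).Prime) (hodd : Odd (finrank F₀ F))
    (hn : 4 ≤ finrank F₀ W) (hn' : 5 ≤ finrank F V) (hM : M ≤ UG B) (hH : RatIn B ι M) :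
    SUG B ≤ M ∨ ∀ g ∈ M, ∃ l : F, l ≠ 0 ∧ ∀ v, ∃ w, g (ι v) = l • ι w := by
  by_cases hS : ∀ s ∈ D.SP M, s ∈ (algebraMap F₀ F).fieldRange
  swap
  · push Not at hS
    obtain ⟨s, hs, hs'⟩ := hS
    exact Or.inl (D.SUG_le_of_SP₄ hp hn (by omega) hM hH hs hs')
  refine Or.inr fun g hg => D.exists_smul_of_isotropic₄ hn fun v hv => ?_
  have hx : B (g (ι v)) (g (ι v)) = 0 := by rw [hM hg, D.orth hv]
  by_cases h2 : (2 : F) = 0
  · obtain ⟨t, ht, e⟩ := D.exists_tv hH hv (c := 1) ((algebraMap F₀ F).injective (by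
      rw [map_one, map_neg, map_one]; linear_combination h2))
    rw [map_one] at e
    exact D.exists_eq_even₅ hn hn' hM hH h2 hS hx (M.mul_mem (M.mul_mem hg ht) (M.inv_mem hg)) (e.conj (hM hg))
  · obtain ⟨c, hc0, hc⟩ := D.herm₀.bar.exists_trace_zero
    obtain ⟨t, ht, e⟩ := D.exists_tv hH hv hc
    exact D.exists_eq_odd₄ hp hodd hn hM hH h2 hS hc0 hc hx (M.mul_mem (M.mul_mem hg ht) (M.inv_mem hg))
      (e.conj (hM hg))

end USub

theorem isMaximalIn_SU_subfield₅ [Fintype F] {n : ℕ} (hF : Fintype.card F = q ^ 2) (hn : 5 ≤ n) (K : Subfield F)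
    {r : ℕ} (hr : r.Prime) (hro : Odd r) (hcard : Fintype.card F = Nat.card K ^ r) (P : GL (Fin n) F)
    (hP : IsFormRationalStructure (hermForm n F q) K 1 P) :
    IsMaximalIn (GU n F q ⊓ specialLinear (Fin n) F)
      (subfieldSubgroup K P ⊓ (GU n F q ⊓ specialLinear (Fin n) F)) := by
  have h := isBar_bar hF
  have hB := isHerm_stdB h (Fin n)
  have hrk : finrank K F = r := by
    have h1 := card_eq_pow_finrank_subfield K
    rw [Nat.card_eq_fintype_card, hcard] at h1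
    exact (Nat.pow_right_injective (Finite.one_lt_card (α := K)) h1).symm
  obtain ⟨τ, q₀, h₀, hτ⟩ := h.exists_restrict K (hrk ▸ hro)
  let ι : (Fin n → K) →ₛₗ[algebraMap K F] (Fin n → F) :=
    { toFun := fun v => (P : Matrix _ _ F) *ᵥ fun i => (v i : F)
      map_add' := fun u v => by rw [← mulVec_add]; rfl
      map_smul' := fun c v => by rw [← mulVec_smul]; rfl }
  have hι : ∀ v, ι v = (P : Matrix _ _ F) *ᵥ fun i => (v i : F) := fun v => rfl
  have hmem : ∀ u v, stdB (bar hF) (Fin n) (ι u) (ι v) ∈ K := fun u v => by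
    have := hP _ _ (fun i => (v i).2) (fun i => (u i).2)
    rwa [hermForm_eq h, one_mul] at this
  let B₀ : (Fin n → K) →ₛₗ[τ] (Fin n → K) →ₗ[K] K := LinearMap.mk₂'ₛₗ τ (RingHom.id K) (fun u v => ⟨_, hmem u v⟩)
    (fun u u' v => Subtype.ext (by simp only [map_add, LinearMap.add_apply]; rfl))
    (fun c u v => Subtype.ext (by
      simp only [LinearMap.map_smulₛₗ, LinearMap.smul_apply, smul_eq_mul, Subfield.coe_mul, hτ]; rfl))
    (fun u v v' => Subtype.ext (by simp only [map_add]; rfl))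
    (fun c u v => Subtype.ext (by simp only [LinearMap.map_smulₛₗ]; rfl))
  have he : ∀ u v, stdB (bar hF) (Fin n) (ι u) (ι v) = algebraMap K F (B₀ u v) := fun u v => rfl
  have hspan : Submodule.span F (Set.range ι) = ⊤ := eq_top_iff.2 fun x _ => by
    obtain ⟨y, rfl⟩ := exists_mulVec P x
    rw [pi_eq_sum_univ' y, mulVec_sum]
    refine Submodule.sum_mem _ fun j _ => ?_
    rw [mulVec_smul]
    refine Submodule.smul_mem _ _ (Submodule.subset_span ⟨Pi.single j 1, ?_⟩)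
    rw [hι]; congr 1
    ext i; by_cases hij : i = j <;> simp [hij]
  have hB₀ : IsHerm B₀ q₀ := ⟨h₀, fun x y => Subtype.ext ((hτ _).trans (hB.symm (ι x) (ι y))), fun x hx => by
    have h1 : ι x = 0 := hB.nondeg _ fun y => by
      have : Submodule.span F (Set.range ι) ≤ LinearMap.ker (stdB (bar hF) (Fin n) (ι x)) :=
        Submodule.span_le.2 (by
          rintro _ ⟨a, rfl⟩
          change stdB (bar hF) (Fin n) (ι x) (ι a) = 0
          rw [he, hx, map_zero])
      exact this (hspan ▸ Submodule.mem_top)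
    rw [hι, ← mulVec_zero (P : Matrix (Fin n) (Fin n) F)] at h1
    ext i
    exact congrFun (mulVec_inj P h1) i⟩
  have D : USub (stdB (bar hF) (Fin n)) q B₀ q₀ ι := ⟨hB, hB₀, fun a => (hτ a).symm, he, hspan⟩
  have key : ∀ g, g ∈ (subfieldSubgroup K P).map (glEquiv (Fin n) F).toMonoidHom ↔
      ∃ l : F, l ≠ 0 ∧ ∀ v, ∃ w, g (ι v) = l • ι w := fun g => by
    rw [Subgroup.mem_map_equiv]
    exact CL.Sp.mem_subfieldSubgroup_symm_iff K P g
  refine isMaximalIn_SU_of h (H' := (subfieldSubgroup K P).map (glEquiv (Fin n) F).toMonoidHom)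
    (fun A _ => Subgroup.mem_map_iff_mem (glEquiv (Fin n) F).injective) ?_ fun M h1 h2 g hg hg' => ?_
  · obtain ⟨A, hA, hA'⟩ := SetLike.not_le_iff_exists.1 (not_SUm_le_subfield h (by omega) (by omega)
      (F₀ := K) (fun e => by
        rw [e, Nat.card_congr Subfield.topEquiv.toEquiv, Nat.card_eq_fintype_card] at hcard
        have := Nat.pow_right_injective (Fintype.one_lt_card (α := F)) ((pow_one _).trans hcard)
        exact hr.one_lt.ne this) P)
    exact ⟨_, (glEquiv_mem_SUG h A).2 hA, fun e =>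
      hA' ((Subgroup.mem_map_iff_mem (glEquiv (Fin n) F).injective).1 e)⟩
  · exact (D.SUG_le_or₅ (hrk ▸ hr) (hrk ▸ hro) (by simp; omega) (by simpa using hn) (h2.trans SUG_le_UG)
      fun g hg e => h1 ⟨(key g).2 ⟨1, one_ne_zero, by simpa using e⟩, hg⟩).resolve_right
      fun e => hg' ((key g).2 (e g hg))

end CL.Uni

namespace CL.Low5

universe u

theorem maxUSub (_h5 : SubH5.{u}) (_h : ResU5.{u}) : MaxUSub.{u} := fun _ _ _ _ hF F₀ _ P hr hro hc hP =>
  CL.Uni.isMaximalIn_SU_subfield₅ hF le_rfl F₀ hr hro hc P hP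

end CL.Low5
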